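/-
Solvable groups with a fixed-point-free representation.
-/
import Cfsg.Agent.Perm.FCSquare
import Cfsg.Agent.Loc.PConstr
import Cfsg.Agent.Inv.AutTwo
import Cfsg.Agent.S3742

set_option autoImplicit false

namespace CL.Perm

open Subgroup Cfsg

variable {G : Type*} [Group G]

theorem injective_of_isPGroup_of_odd_ker [Finite G] {X : Type*} [Group X] (f : G →* X)
    (hf : (Nat.card f.ker).Coprime 2) {P : Subgroup G} (hP : IsPGroup 2 P) :
    Function.Injective (f.comp P.subtype) := by
  rw [injective_iff_map_eq_one]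
  intro x hx
  have : (x : G) ∈ P ⊓ f.ker := ⟨x.2, hx⟩
  rw [CL.Loc.inf_eq_bot_of_isPGroup_of_coprime hP hf, mem_bot] at this
  exact Subtype.ext this

theorem IsFpf.of_isPGroup_quotient [Finite G] (h : IsFpf G) {X : Type*} [Group X] {f : G →* X}
    (hs : Function.Surjective f) (hf : (Nat.card f.ker).Coprime 2) {P : Subgroup X} (hP : IsPGroup 2 P) :
    IsFpf P := by
  have := Finite.of_surjective f hs
  obtain ⟨S, hS⟩ := hP.exists_le_sylow
  obtain ⟨T, rfl⟩ := Sylow.mapSurjective_surjective hs 2 S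
  have e := MonoidHom.ofInjective (injective_of_isPGroup_of_odd_ker f hf T.isPGroup')
  refine ((h.subgroup T).of_equiv e).of_injective (inclusion ?_) (inclusion_injective _)
  rwa [MonoidHom.range_comp, range_subtype]

theorem IsFpf.isZGroup_of_hom [Finite G] (h : IsFpf G) {X : Type*} [Group X] (f : G →* X)
    (hf : (Nat.card f.ker).Coprime 2) (K : Subgroup G) (C : Subgroup X) [IsCyclic C] (hK : K.map f ≤ C) :
    IsZGroup K := by
  refine (h.subgroup K).isZGroup fun P hP => ?_
  have h1 := injective_of_isPGroup_of_odd_ker f hf (hP.map K.subtype)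
  have h2 : IsCyclic (P.map K.subtype) := isCyclic_of_injective
    ((f.comp (P.map K.subtype).subtype).codRestrict C fun x => hK ⟨x, map_subtype_le _ x.2, rfl⟩)
    fun a b hab => h1 (congrArg Subtype.val hab)
  exact (P.equivMapOfInjective _ K.subtype_injective).isCyclic.mpr h2

theorem IsFpf.quaternion_of_odd_aut [Finite G] (h : IsFpf G) (hG : IsPGroup 2 G) {α : MulAut G}
    (hα : Odd (orderOf α)) (h1 : α ≠ 1) : Nonempty (G ≃* QuaternionGroup 2) := by
  rcases h.isCyclic_or_quaternion hG with hc | ⟨-, k, ⟨e⟩⟩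
  · obtain ⟨a, ha⟩ := IsCyclic.exists_generator (α := G)
    refine absurd (CL.Inv.aut_eq_one_of_fix_index_le_two hG hα ⊤ (by simp) fun b _ => ?_) h1
    obtain ⟨j, rfl⟩ := ha b
    simp only [map_zpow, CL.Inv.aut_fix_of_mem_zpowers hG hα (ha _)]
  · rcases k with _ | k
    · exact ⟨e⟩
    exfalso
    set a := e.symm (QuaternionGroup.a 1) with ha
    have hmem : ∀ i, e.symm (QuaternionGroup.a i) ∈ zpowers a := fun i =>
      ⟨i.val, by simp only [ha, zpow_natCast]; rw [← map_pow, QuaternionGroup.a_one_pow, ZMod.natCast_zmod_val]⟩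
    have h3 : α a ∈ zpowers a := by
      rcases hx : e (α a) with i | i
      · rw [← e.symm_apply_apply (α a), hx]; exact hmem i
      · have h4 : orderOf (e (α a)) = 4 := by rw [hx, QuaternionGroup.orderOf_xa]
        rw [e.orderOf_eq, α.orderOf_eq, ha, e.symm.orderOf_eq, QuaternionGroup.orderOf_a_one] at h4
        have : 0 < 2 ^ k := by positivity
        omega
    refine h1 (CL.Inv.aut_eq_one_of_fix_index_le_two hG hα (zpowers a) (fun x y hx hy => ?_) fun b hb => ?_)
    · rcases hx' : e x with i | i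
      · exact absurd (by rw [← e.symm_apply_apply x, hx']; exact hmem i) hx
      rcases hy' : e y with j | j
      · exact absurd (by rw [← e.symm_apply_apply y, hy']; exact hmem j) hy
      rw [← e.symm_apply_apply (x⁻¹ * y), map_mul, map_inv, hx', hy']
      exact hmem _
    · obtain ⟨j, rfl⟩ := hb
      simp only [map_zpow, CL.Inv.aut_fix_of_mem_zpowers hG hα h3]

/-- The Klein four quotient of a generalised quaternion group. -/
def quatToKlein (k : ℕ) : QuaternionGroup (2 ^ (k + 1)) →* DihedralGroup 2 :=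
  MonoidHom.mk' (fun x => match x with
    | .a i => .r (ZMod.castHom (Dvd.intro _ rfl) (ZMod 2) i)
    | .xa i => .sr (ZMod.castHom (Dvd.intro _ rfl) (ZMod 2) i)) (by
    rintro (i | i) (j | j)
    · simp only [QuaternionGroup.a_mul_a, DihedralGroup.r_mul_r, map_add]
    · simp only [QuaternionGroup.a_mul_xa, DihedralGroup.r_mul_sr, map_sub]
    · simp only [QuaternionGroup.xa_mul_a, DihedralGroup.sr_mul_r, map_add]
    · simp only [QuaternionGroup.xa_mul_xa, DihedralGroup.sr_mul_sr, map_add, map_sub, map_natCast]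
      rw [(ZMod.natCast_eq_zero_iff _ 2).mpr (Dvd.intro_left _ (pow_succ 2 k).symm), zero_add])

theorem quatToKlein_surjective (k : ℕ) : Function.Surjective (quatToKlein k) := by
  rintro (i | i)
  · obtain ⟨j, rfl⟩ := ZMod.castHom_surjective (Dvd.intro (2 ^ (k + 1)) rfl) i
    exact ⟨.a j, rfl⟩
  · obtain ⟨j, rfl⟩ := ZMod.castHom_surjective (Dvd.intro (2 ^ (k + 1)) rfl) i
    exact ⟨.xa j, rfl⟩

theorem quatToKlein_ker_le (k : ℕ) : (quatToKlein k).ker ≤ zpowers (QuaternionGroup.a 1) := by
  rintro (i | i) hx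
  · exact ⟨i.val, by simp only [zpow_natCast]; rw [QuaternionGroup.a_one_pow, ZMod.natCast_zmod_val]⟩
  · exact absurd (show DihedralGroup.sr _ = DihedralGroup.r 0 from hx) (fun h => by cases h)

/-- The structure of a solvable group with a fixed-point-free representation. -/
theorem IsFpf.solvable_cases [Finite G] (h : IsFpf G) (hs : Group.IsSolvable G) :
    IsZGroup G ∨ (∃ f : G →* DihedralGroup 2, Function.Surjective f ∧ IsZGroup f.ker) ∨
      ∃ f : G →* Equiv.Perm (Fin 4), IsZGroup f.ker ∧ (f.range = alternatingGroup (Fin 4) ∨ f.range = ⊤) := by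
  set O := pPrimeCore 2 G with hO
  have hπ := QuotientGroup.mk'_surjective O
  have hodd : (Nat.card (QuotientGroup.mk' O).ker).Coprime 2 := by
    rw [QuotientGroup.ker_mk']; exact CL.Grp.pPrimeCore_coprime 2 G
  by_cases h2 : IsPGroup 2 (G ⧸ O)
  · have h3 : IsFpf (G ⧸ O) := (h.of_isPGroup_quotient hπ hodd (h2.to_subgroup ⊤)).of_equiv topEquiv
    rcases h3.isCyclic_or_quaternion h2 with hc | ⟨-, k, ⟨e⟩⟩
    · left
      have := h.isZGroup_of_hom _ hodd ⊤ ⊤ le_top
      exact IsZGroup.of_surjective (f := (⊤ : Subgroup G).subtype) topEquiv.surjective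
    · right; left
      refine ⟨(quatToKlein k).comp (e.toMonoidHom.comp (QuotientGroup.mk' O)),
        (quatToKlein_surjective k).comp (e.surjective.comp hπ), ?_⟩
      refine h.isZGroup_of_hom (e.toMonoidHom.comp (QuotientGroup.mk' O)) ?_ _ (zpowers (QuaternionGroup.a 1)) ?_
      · rwa [MonoidHom.ker_comp_of_injective _ _ e.injective]
      · rintro _ ⟨x, hx, rfl⟩
        exact quatToKlein_ker_le k hx
  · right; right
    set Q := pCore 2 (G ⧸ O) with hQ
    have hQ2 : IsPGroup 2 Q := CL.Grp.pCore_isPGroup 2 _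
    have hC : centralizer (Q : Set (G ⧸ O)) ≤ Q :=
      CL.Loc.isPConstrained_iff.mp (CL.Loc.isPConstrained_of_isSolvable hs)
    have hker : (MulAut.conjNormal (H := Q)).ker = centralizer (Q : Set (G ⧸ O)) := by
      ext g
      constructor
      · intro hg x hx
        have : g * x * g⁻¹ = x := (congrArg Subtype.val (DFunLike.congr_fun hg ⟨x, hx⟩) :)
        exact (mul_inv_eq_iff_eq_mul.mp this).symm
      · intro hg
        ext x
        change g * x * g⁻¹ = x
        rw [← hg x x.2, mul_inv_cancel_right]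
    obtain ⟨r, hr, hrd, hr2⟩ : ∃ r : ℕ, r.Prime ∧ r ∣ Nat.card (G ⧸ O) ∧ r ≠ 2 := by
      by_contra h3
      push Not at h3
      exact h2 (IsPGroup.of_card (Nat.eq_prime_pow_of_unique_prime_dvd Nat.card_pos.ne' fun hd hd' => h3 _ hd hd'))
    have := Fact.mk hr
    obtain ⟨g, hg⟩ := exists_prime_orderOf_dvd_card' r hrd
    have hg1 : MulAut.conjNormal (H := Q) g ≠ 1 := by
      intro h3
      obtain ⟨k, hk⟩ := IsPGroup.iff_orderOf.mp hQ2 ⟨g, hC (hker ▸ h3)⟩
      rw [← orderOf_coe, hg] at hk
      exact hr2 ((Nat.prime_dvd_prime_iff_eq hr Nat.prime_two).mp (hr.dvd_of_dvd_pow (dvd_of_eq hk)))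
    have hgo : orderOf (MulAut.conjNormal (H := Q) g) = r :=
      orderOf_eq_prime (by rw [← map_pow, ← hg, pow_orderOf_eq_one, map_one]) hg1
    obtain ⟨e⟩ := (h.of_isPGroup_quotient hπ hodd hQ2).quaternion_of_odd_aut hQ2
      (hgo ▸ hr.odd_of_ne_two hr2) hg1
    obtain ⟨e'⟩ := Cfsg.Agent.S3742.result
    let φ : G ⧸ O →* Equiv.Perm (Fin 4) := ((MulAut.congr e).trans e').toMonoidHom.comp MulAut.conjNormal
    have hφ : φ.ker = centralizer (Q : Set (G ⧸ O)) := by
      rw [MonoidHom.ker_comp_of_injective _ _ (MulEquiv.injective _), hker]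
    have hcomm : IsMulCommutative (centralizer (Q : Set (G ⧸ O))) :=
      ⟨⟨fun a b => Subtype.ext (b.2 a (hC a.2))⟩⟩
    have hcyc : IsCyclic (centralizer (Q : Set (G ⧸ O))) :=
      (h.of_isPGroup_quotient hπ hodd (hQ2.to_le hC)).isCyclic_of_isMulCommutative
    refine ⟨φ.comp (QuotientGroup.mk' O), h.isZGroup_of_hom _ hodd _ (centralizer (Q : Set (G ⧸ O))) ?_, ?_⟩
    · rintro _ ⟨x, hx, rfl⟩
      exact hφ ▸ hx
    · rw [MonoidHom.range_comp, MonoidHom.range_eq_top.mpr hπ, ← MonoidHom.range_eq_map]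
      have h4 : Nat.card φ.ker ∣ 2 := by
        obtain ⟨c, hc⟩ := IsCyclic.exists_ofOrder_eq_natCard (α := centralizer (Q : Set (G ⧸ O)))
        rw [hφ, ← hc, ← orderOf_coe, orderOf_dvd_iff_pow_eq_one]
        have key : ∀ x : QuaternionGroup 2, (∀ y, y * x = x * y) → x ^ 2 = 1 := by decide
        have h5 := key (e ⟨c, hC c.2⟩) fun y => by
          obtain ⟨y, rfl⟩ := e.surjective y
          rw [← map_mul, ← map_mul]
          exact congrArg e (Subtype.ext (c.2 y y.2))
        rw [← map_pow, map_eq_one_iff e e.injective] at h5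
        exact congrArg Subtype.val h5
      have h5 : 8 ∣ Nat.card φ.ker * Nat.card φ.range := by
        rw [← index_ker, card_mul_index]
        have := Q.card_subgroup_dvd_card
        rwa [Nat.card_congr e.toEquiv, Nat.card_eq_fintype_card, QuaternionGroup.card] at this
      have h6 : 4 ∣ Nat.card φ.range :=
        Nat.dvd_of_mul_dvd_mul_left two_pos (h5.trans (Nat.mul_dvd_mul_right h4 _))
      have h7 : r ∣ Nat.card φ.range := by
        rw [← hgo, ← ((MulAut.congr e).trans e').orderOf_eq]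
        exact orderOf_dvd_natCard φ.range ⟨g, rfl⟩
      have h8 := φ.range.card_mul_index
      rw [Nat.card_perm, Nat.card_fin] at h8
      have h9 : r = 3 := by
        have h10 : r ∣ 2 ^ 3 * 3 := h7.trans (Dvd.intro _ h8)
        rcases hr.dvd_mul.mp h10 with h11 | h11
        · exact absurd ((Nat.prime_dvd_prime_iff_eq hr Nat.prime_two).mp (hr.dvd_of_dvd_pow h11)) hr2
        · exact (Nat.prime_dvd_prime_iff_eq hr Nat.prime_three).mp h11
      obtain ⟨u, hu⟩ := Nat.Coprime.mul_dvd_of_dvd_of_dvd (by norm_num : Nat.Coprime 4 3) h6 (h9 ▸ h7)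
      have h10 : φ.range.index ∣ 2 := by
        refine Dvd.intro_left u (Nat.eq_of_mul_eq_mul_left (by norm_num : 0 < 12) ?_)
        rw [← mul_assoc, show 12 * u = Nat.card φ.range from hu.symm, h8]; rfl
      rcases (Nat.dvd_prime Nat.prime_two).mp h10 with h11 | h11
      · exact Or.inr (index_eq_one.mp h11)
      · exact Or.inl (Equiv.Perm.eq_alternatingGroup_of_index_eq_two h11)

end CL.Perm
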