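/-
Z-groups (all Sylow subgroups cyclic): generators and presentation; the extra congruence for Z-groups with a
fixed-point-free representation.
-/
import Cfsg.Agent.Perm.FCGroup
import Cfsg.Agent.Grp.FrobCompl

set_option autoImplicit false

namespace CL.Perm

open Subgroup

variable {G : Type*} [Group G]

theorem IsFpf.pqCyclic [Finite G] (h : IsFpf G) : CL.Grp.PQCyclic G :=
  fun B _ _ hp hq hB => h.isCyclic_subgroup_of_card_eq_mul B hp hq hB

theorem conj_pow_eq_pow_pow {x y : G} {r : ℕ} (h : x⁻¹ * y * x = y ^ r) (k : ℕ) :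
    (x ^ k)⁻¹ * y * x ^ k = y ^ r ^ k := by
  induction k with
  | zero => simp
  | succ k ih =>
    calc (x ^ (k + 1))⁻¹ * y * x ^ (k + 1) = x⁻¹ * ((x ^ k)⁻¹ * y * x ^ k) * x := by
          rw [pow_succ]; group
      _ = (x⁻¹ * y * x) ^ r ^ k := by
          rw [ih]; simpa using (conj_pow (a := x⁻¹) (b := y) (i := r ^ k)).symm
      _ = y ^ r ^ (k + 1) := by rw [h, ← pow_mul, pow_succ']

/-- Generators of a finite Z-group. -/
theorem zgroup_gens (G : Type*) [Group G] [Finite G] [IsZGroup G] :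
    ∃ (x y : G) (r : ℕ), closure {x, y} = ⊤ ∧ zpowers y = _root_.commutator G ∧ x⁻¹ * y * x = y ^ r ∧
      Nat.Coprime (r - 1) (orderOf y) ∧ Nat.Coprime (orderOf x) (orderOf y) ∧ 1 ≤ r ∧
      orderOf x * orderOf y = Nat.card G := by
  have hcop := IsZGroup.coprime_commutator_index G
  obtain ⟨H, hH⟩ := exists_right_complement'_of_coprime hcop
  have h1 : Abelianization G ≃* H := hH.symm.QuotientMulEquiv
  have hHc : IsCyclic H := isCyclic_of_surjective _ h1.surjective
  obtain ⟨x, hx⟩ := (Subgroup.isCyclic_iff_exists_zpowers_eq_top H).mp hHc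
  obtain ⟨y, hy⟩ := (Subgroup.isCyclic_iff_exists_zpowers_eq_top _).mp (IsZGroup.isCyclic_commutator G)
  have hox : orderOf x = Nat.card H := by rw [← Nat.card_zpowers, hx]
  have hoy : orderOf y = Nat.card (_root_.commutator G) := by rw [← Nat.card_zpowers, hy]
  have hmem : x⁻¹ * y * x ∈ zpowers y := by
    rw [hy]
    simpa using Normal.conj_mem inferInstance y (hy ▸ mem_zpowers y : y ∈ _root_.commutator G) x⁻¹
  obtain ⟨r, hr⟩ := mem_powers_iff_mem_zpowers.mpr hmem
  have hr' : x⁻¹ * y * x = y ^ (r + orderOf y) := by rw [pow_add, pow_orderOf_eq_one, mul_one]; exact hr.symm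
  have hpos := orderOf_pos y
  have htop : closure {x, y} = ⊤ := by
    rw [eq_top_iff, ← hH.sup_eq_top, ← hx, ← hy, sup_le_iff, zpowers_le, zpowers_le]
    exact ⟨subset_closure (by simp), subset_closure (by simp)⟩
  refine ⟨x, y, r + orderOf y, htop, hy, hr', ?_, ?_, by omega, ?_⟩
  · set s := r + orderOf y - 1 with hs
    have hN : (zpowers (y ^ s)).Normal := by
      rw [← normalizer_eq_top_iff, eq_top_iff]
      intro g _
      have := IsZGroup.isCyclic_commutator G
      exact CL.Grp.mem_normalizer_zpowers_of_conj_mem_zpowers (CL.Grp.conj_mem_zpowers_of_isCyclic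
        (C := _root_.commutator G) (hy ▸ pow_mem (mem_zpowers y) s) (le_normalizer_of_normal (mem_top g)))
    have hle : _root_.commutator G ≤ zpowers (y ^ s) := by
      rw [← Normal.quotient_commutative_iff_commutator_le]
      have hc : (x : G ⧸ zpowers (y ^ s)) * y = y * x := by
        rw [← QuotientGroup.mk_mul, ← QuotientGroup.mk_mul, QuotientGroup.eq]
        have : (x * y)⁻¹ * (y * x) = y ^ s := by
          calc (x * y)⁻¹ * (y * x) = y⁻¹ * (x⁻¹ * y * x) := by group
            _ = y ^ s := by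
              rw [hr', show r + orderOf y = s + 1 by omega, pow_succ', inv_mul_cancel_left]
        rw [this]; exact mem_zpowers _
      have h2 : IsMulCommutative (closure {(x : G ⧸ zpowers (y ^ s)), (y : G ⧸ zpowers (y ^ s))}) := by
        apply isMulCommutative_closure
        rintro a (rfl | rfl) b (rfl | rfl) <;> simp [hc]
      have h3 : closure {(x : G ⧸ zpowers (y ^ s)), (y : G ⧸ zpowers (y ^ s))} = ⊤ := by
        have := congrArg (map (QuotientGroup.mk' (zpowers (y ^ s)))) htop
        rw [MonoidHom.map_closure, Set.image_pair, map_top_of_surjective _ (QuotientGroup.mk'_surjective _)] at this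
        exact this
      rw [h3] at h2
      exact ⟨⟨fun a b => congrArg Subtype.val (mul_comm' (⟨a, mem_top a⟩ : (⊤ : Subgroup _)) ⟨b, mem_top b⟩)⟩⟩
    exact mem_zpowers_pow_iff.mp (hle (hy ▸ mem_zpowers y))
  · rw [hox, hoy, ← hH.symm.index_eq_card]; exact hcop.symm
  · rw [hox, hoy, mul_comm, hH.card_mul]

/-- The presentation of a metacyclic group. -/
theorem nonempty_equiv_presented [Finite G] {x y : G} {r : ℕ} (htop : closure {x, y} = ⊤)
    (hr : x⁻¹ * y * x = y ^ r) (hcard : orderOf x * orderOf y = Nat.card G) :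
    Nonempty (G ≃* PresentedGroup
      ({FreeGroup.of (0 : Fin 2) ^ orderOf x, FreeGroup.of (1 : Fin 2) ^ orderOf y,
        (FreeGroup.of (0 : Fin 2))⁻¹ * FreeGroup.of 1 * FreeGroup.of 0 * (FreeGroup.of (1 : Fin 2) ^ r)⁻¹} :
        Set (FreeGroup (Fin 2)))) := by
  set rels : Set (FreeGroup (Fin 2)) := {FreeGroup.of (0 : Fin 2) ^ orderOf x,
    FreeGroup.of (1 : Fin 2) ^ orderOf y,
    (FreeGroup.of (0 : Fin 2))⁻¹ * FreeGroup.of 1 * FreeGroup.of 0 * (FreeGroup.of (1 : Fin 2) ^ r)⁻¹}
  have hrel : ∀ w ∈ rels, FreeGroup.lift ![x, y] w = 1 := by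
    rintro w (rfl | rfl | rfl) <;> simp [hr]
  let φ := PresentedGroup.toGroup hrel
  set X : PresentedGroup rels := PresentedGroup.of 0
  set Y : PresentedGroup rels := PresentedGroup.of 1
  have hX : X ^ orderOf x = 1 := PresentedGroup.one_of_mem (rels := rels) (Or.inl rfl)
  have hY : Y ^ orderOf y = 1 := PresentedGroup.one_of_mem (rels := rels) (Or.inr (Or.inl rfl))
  have hXY : X⁻¹ * Y * X = Y ^ r :=
    mul_inv_eq_one.mp (PresentedGroup.one_of_mem (rels := rels) (Or.inr (Or.inr rfl)))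
  have hn := orderOf_pos x
  have hm := orderOf_pos y
  have hXf : IsOfFinOrder X := isOfFinOrder_iff_pow_eq_one.mpr ⟨_, hn, hX⟩
  have hYf : IsOfFinOrder Y := isOfFinOrder_iff_pow_eq_one.mpr ⟨_, hm, hY⟩
  have hmove : ∀ a b : ℕ, Y ^ b * X ^ a = X ^ a * Y ^ (r ^ a * b) := by
    intro a b
    rw [pow_mul, ← conj_pow_eq_pow_pow hXY a]
    have := conj_pow (a := (X ^ a)⁻¹) (b := Y) (i := b)
    rw [inv_inv] at this
    rw [this]; group
  let S : Submonoid (PresentedGroup rels) :=
    { carrier := {g | ∃ a b : ℕ, g = X ^ a * Y ^ b}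
      one_mem' := ⟨0, 0, by simp⟩
      mul_mem' := by
        rintro _ _ ⟨a, b, rfl⟩ ⟨c, d, rfl⟩
        refine ⟨a + c, r ^ c * b + d, ?_⟩
        rw [mul_assoc, ← mul_assoc (Y ^ b), hmove, pow_add, pow_add]; group }
  have hXS : X ∈ S := ⟨1, 0, by simp⟩
  have hYS : Y ∈ S := ⟨0, 1, by simp⟩
  have hS : ∀ g, g ∈ S := by
    intro g
    have hg : g ∈ closure (Set.range (PresentedGroup.of : Fin 2 → PresentedGroup rels)) := by
      rw [PresentedGroup.closure_range_of]; trivial
    induction hg using closure_induction_left with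
    | one => exact S.one_mem
    | mul_left a ha b _ hb =>
      obtain ⟨i, rfl⟩ := ha
      refine S.mul_mem ?_ hb
      fin_cases i
      · exact hXS
      · exact hYS
    | inv_mul_cancel a ha b _ hb =>
      obtain ⟨i, rfl⟩ := ha
      refine S.mul_mem ?_ hb
      fin_cases i
      · obtain ⟨k, hk⟩ := hXf.mem_powers_iff_mem_zpowers.mpr (inv_mem (mem_zpowers X))
        exact ⟨k, 0, by simpa using hk.symm⟩
      · obtain ⟨k, hk⟩ := hYf.mem_powers_iff_mem_zpowers.mpr (inv_mem (mem_zpowers Y))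
        exact ⟨0, k, by simpa using hk.symm⟩
  have hsurj : Function.Surjective
      (fun p : Fin (orderOf x) × Fin (orderOf y) => X ^ (p.1 : ℕ) * Y ^ (p.2 : ℕ)) := by
    intro g
    obtain ⟨a, b, rfl⟩ := hS g
    refine ⟨(⟨a % orderOf x, Nat.mod_lt _ hn⟩, ⟨b % orderOf y, Nat.mod_lt _ hm⟩), ?_⟩
    simp only
    rw [← pow_eq_pow_mod a hX, ← pow_eq_pow_mod b hY]
  have hfin : Finite (PresentedGroup rels) := Finite.of_surjective _ hsurj
  have hle := Nat.card_le_card_of_surjective _ hsurj
  rw [Nat.card_prod, Nat.card_fin, Nat.card_fin, hcard] at hle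
  have hφ : Function.Surjective φ := by
    rw [← MonoidHom.range_eq_top, eq_top_iff, ← htop, closure_le]
    rintro a (rfl | rfl)
    · exact ⟨X, PresentedGroup.toGroup.of hrel⟩
    · exact ⟨Y, PresentedGroup.toGroup.of hrel⟩
  exact ⟨(MulEquiv.ofBijective φ (hφ.bijective_of_nat_card_le hle)).symm⟩

/-- The extra congruence in a metacyclic group with a fixed-point-free representation. -/
theorem IsFpf.pow_div_radical [Finite G] (h : IsFpf G) {x y : G} {r : ℕ} (hr : x⁻¹ * y * x = y ^ r)
    (hcop : Nat.Coprime (orderOf x) (orderOf y)) :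
    r ^ (orderOf x / ∏ p ∈ (orderOf x).primeFactors, p) % orderOf y = 1 % orderOf y := by
  have hn := orderOf_pos x
  have key : ∀ k : ℕ, r ^ k % orderOf y = 1 % orderOf y ↔ x ^ k ∈ centralizer (zpowers y : Set G) := by
    intro k
    rw [← Nat.ModEq, ← pow_eq_pow_iff_modEq, pow_one, ← conj_pow_eq_pow_pow hr k]
    constructor
    · rintro h1 _ ⟨j, rfl⟩
      refine (Commute.zpow_left ?_ j).eq
      rw [mul_assoc, inv_mul_eq_iff_eq_mul] at h1
      exact h1
    · intro h1
      rw [mul_assoc, h1 y (mem_zpowers y), inv_mul_cancel_left]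
  have hxn : x ∈ normalizer (zpowers y : Set G) := by
    rw [← inv_mem_iff]
    refine CL.Grp.mem_normalizer_zpowers_of_conj_mem_zpowers ?_
    rw [inv_inv, hr]; exact pow_mem (mem_zpowers y) r
  have hp : ∀ p, p.Prime → p ∣ orderOf x → x ^ (orderOf x / p) ∈ centralizer (zpowers y : Set G) := by
    intro p hp hd
    have ho : orderOf (x ^ (orderOf x / p)) = p := orderOf_pow_orderOf_div hn.ne' hd
    refine h.pqCyclic.mem_centralizer_of_isCyclic (by rw [ho]; exact hp) (pow_mem hxn _) ?_
    rw [ho, Nat.card_zpowers]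
    exact Nat.Coprime.coprime_dvd_left hd hcop
  rw [key]
  -- the exponents `k` with `x ^ k` in the centraliser are the multiples of some `d`
  set C := (centralizer (zpowers y : Set G)).subgroupOf (normalizer (zpowers y : Set G))
  have hC : C.Normal := normal_subgroupOf_centralizer_normalizer _
  have hd : ∀ k : ℕ, x ^ k ∈ centralizer (zpowers y : Set G) ↔
      orderOf ((⟨x, hxn⟩ : normalizer (zpowers y : Set G)) : _ ⧸ C) ∣ k := by
    intro k
    rw [orderOf_dvd_iff_pow_eq_one, ← QuotientGroup.mk_pow, QuotientGroup.eq_one_iff]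
    rfl
  set d := orderOf ((⟨x, hxn⟩ : normalizer (zpowers y : Set G)) : _ ⧸ C)
  obtain ⟨e, he⟩ := (hd (orderOf x)).mp (by rw [pow_orderOf_eq_one]; exact one_mem _)
  have hd0 : 0 < d := orderOf_pos _
  have h1 : ∏ p ∈ (orderOf x).primeFactors, p ∣ e := by
    refine Finset.prod_primes_dvd e (fun p hp => (Nat.prime_of_mem_primeFactors hp).prime) fun p hp' => ?_
    have h2 := (hd _).mp (hp p (Nat.prime_of_mem_primeFactors hp') (Nat.dvd_of_mem_primeFactors hp'))
    have h3 := (Nat.dvd_div_iff_mul_dvd (Nat.dvd_of_mem_primeFactors hp')).mp h2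
    rw [he, mul_comm p d] at h3
    exact Nat.dvd_of_mul_dvd_mul_left hd0 h3
  rw [hd, Nat.dvd_div_iff_mul_dvd (Nat.prod_primeFactors_dvd _), mul_comm]
  conv_rhs => rw [he]
  exact Nat.mul_dvd_mul_left d h1

end CL.Perm
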