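/-
Half-transitive linear `2`-groups (Isaacs–Passman).
-/
import Cfsg.Agent.Suz.HuppertP
import Cfsg.Agent.Grp.PGroupCyc

set_option autoImplicit false

open MulAction Subgroup Cfsg CL.Grp

namespace CL.HalfT

variable {G V : Type*} [Group G] [Finite G] [AddCommGroup V] [Finite V] [DistribMulAction G V] [FaithfulSMul G V]

variable (G V) in
/-- a half-transitive, not semiregular `2`-group in odd characteristic -/
structure HT : Prop where
  pg : IsPGroup 2 G
  const : ∀ a b : V, a ≠ 0 → b ≠ 0 → Nat.card (stabilizer G a) = Nat.card (stabilizer G b)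
  odd : ∀ v : V, v + v = 0 → v = 0
  ns : ∃ v : V, v ≠ 0 ∧ ∃ g : G, g ≠ 1 ∧ g • v = v

variable (V) in
/-- fixed vectors -/
def Fx (t : G) : AddSubgroup V where
  carrier := {v | t • v = v}
  zero_mem' := smul_zero t
  add_mem' {a b} ha hb := by
    simp only [Set.mem_setOf_eq] at *
    rw [smul_add, ha, hb]
  neg_mem' {a} ha := by
    simp only [Set.mem_setOf_eq] at *
    rw [smul_neg, ha]

omit [Finite G] [Finite V] [FaithfulSMul G V] in
theorem card_Fx_conj (g t : G) : Nat.card (Fx V (g * t * g⁻¹)) = Nat.card (Fx V t) :=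
  (Nat.card_congr ((MulAction.toPerm g).subtypeEquiv fun v => by
    show t • v = v ↔ (g * t * g⁻¹) • g • v = g • v
    rw [← mul_smul, inv_mul_cancel_right, mul_smul, smul_left_cancel_iff])).symm

namespace HT

variable (h : HT G V)
include h

theorem exists_inv {v : V} (hv : v ≠ 0) : ∃ t : G, t ≠ 1 ∧ t * t = 1 ∧ t • v = v := by
  obtain ⟨w, hw, g, g1, hg⟩ := h.ns
  have h1 : Nontrivial (stabilizer G w) := ⟨⟨⟨g, hg⟩, 1, fun e => g1 (congrArg Subtype.val e)⟩⟩
  have h2 : Nontrivial (stabilizer G v) :=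
    Finite.one_lt_card_iff_nontrivial.1 (h.const w v hw hv ▸ Finite.one_lt_card)
  obtain ⟨n, hn, e⟩ := (h.pg.to_subgroup (stabilizer G v)).nontrivial_iff_card.1 h2
  obtain ⟨t, ht⟩ := exists_prime_orderOf_dvd_card' (G := stabilizer G v) 2 (e ▸ dvd_pow_self 2 hn.ne')
  refine ⟨t, fun e => ?_, ?_, t.2⟩
  · rw [show t = 1 from Subtype.ext e, orderOf_one] at ht; omega
  · have := pow_orderOf_eq_one t
    rw [ht, pow_two] at this
    exact congrArg Subtype.val this

omit [Finite G] [Finite V] [FaithfulSMul G V] in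
theorem eq_zero {v : V} (e : v = -v) : v = 0 := h.odd v (eq_neg_iff_add_eq_zero.1 e)

omit [Finite G] [Finite V] [FaithfulSMul G V] in
theorem split {t : G} {a b a' b' : V} (ha : t • a = a) (hb : t • b = -b) (ha' : t • a' = a') (hb' : t • b' = -b')
    (e : a + b = a' + b') : a = a' ∧ b = b' := by
  have h1 : a - a' = b' - b := by rw [sub_eq_sub_iff_add_eq_add, e, add_comm]
  have h2 : a - a' = 0 := h.eq_zero (by
    conv_lhs => rw [← ha, ← ha', ← smul_sub, h1, smul_sub, hb, hb']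
    rw [h1]; abel)
  exact ⟨sub_eq_zero.1 h2, (sub_eq_zero.1 (h1 ▸ h2)).symm⟩

omit [Finite V] [FaithfulSMul G V] in
/-- a sum of an eigenvector for `1` and one for `-1` is fixed by an element not centralising `t` -/
theorem exists_nc {t : G} {a b : V} (ha : t • a = a) (hb : t • b = -b) (a0 : a ≠ 0) (b0 : b ≠ 0) :
    ∃ y : G, ¬ Commute y t ∧ y • (a + b) = a + b := by
  by_contra! h1
  have h2 := CL.Suz.stabilizer_eq_of_add h.const a0 b0
    (fun e => a0 (h.split ha hb (smul_zero t) (by simp) (e.trans (add_zero 0).symm)).1) fun g hg => by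
      have c : Commute g t := by_contra fun c => h1 g c hg
      exact (h.split (by rw [← mul_smul, ← c.eq, mul_smul, ha]) (by rw [← mul_smul, ← c.eq, mul_smul, hb, smul_neg])
        ha hb ((smul_add g a b).symm.trans hg)).1
  exact b0 (h.eq_zero ((show t ∈ stabilizer G b from h2 ▸ ha).symm.trans hb))

omit [Finite V] in
theorem central {z : G} (z1 : z ≠ 1) (zz : z * z = 1) (hz : ∀ g, Commute g z) (v : V) : z • v = -v := by
  obtain ⟨e, he⟩ : ∃ e : V, z • e ≠ e := by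
    by_contra! h1
    exact z1 (eq_of_smul_eq_smul (α := V) fun e => by rw [h1, one_smul])
  have h1 : z • v + v = 0 := by_contra fun h1 => by
    obtain ⟨y, hy, -⟩ := h.exists_nc (t := z) (a := z • v + v) (b := z • e - e)
      (by rw [smul_add, ← mul_smul, zz, one_smul, add_comm]) (by rw [smul_sub, ← mul_smul, zz, one_smul, neg_sub]) h1
      (sub_ne_zero.2 he)
    exact hy (hz y)
  exact eq_neg_of_add_eq_zero_left h1

theorem not_all_central : ¬ ∀ t : G, t * t = 1 → ∀ g, Commute g t := fun h1 => by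
  obtain ⟨v, hv, -⟩ := h.ns
  obtain ⟨t, t1, tt, ht⟩ := h.exists_inv hv
  exact hv (h.eq_zero (ht.symm.trans (h.central t1 tt (h1 t tt) v)))

omit [Finite G] [FaithfulSMul G V] in
theorem card_Fx {t z g : G} (tt : t * t = 1) (hz : ∀ v : V, z • v = -v) (hg : g * t * g⁻¹ = z * t) :
    Nat.card (Fx V t) * Nat.card (Fx V t) = Nat.card V := by
  have k : ∀ w : Fx V (z * t), t • (w : V) = -w := fun w => by
    have : (z * t) • (w : V) = w := w.2
    rw [mul_smul, hz] at this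
    exact neg_eq_iff_eq_neg.1 this
  conv_lhs => enter [2]; rw [← card_Fx_conj g, hg]
  rw [← Nat.card_prod]
  refine Nat.card_congr (Equiv.ofBijective (fun p => (p.1 : V) + p.2) ⟨fun p p' e => ?_, fun v => ?_⟩)
  · have := h.split p.1.2 (k p.2) p'.1.2 (k p'.2) e
    exact Prod.ext (Subtype.ext this.1) (Subtype.ext this.2)
  · obtain ⟨w, rfl⟩ := Finite.surjective_of_injective (f := fun w : V => w + w) (fun w w' e => sub_eq_zero.1
      (h.odd _ (by rw [sub_add_sub_comm]; exact sub_eq_zero.2 e))) v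
    refine ⟨(⟨w + t • w, ?_⟩, ⟨w - t • w, ?_⟩), by simp⟩
    · show t • _ = _
      rw [smul_add, ← mul_smul, tt, one_smul, add_comm]
    · show (z * t) • _ = _
      rw [mul_smul, hz, smul_sub, ← mul_smul, tt, one_smul, neg_sub]

/-- the primitive case -/
theorem dqs {n : ℕ} {a b : G} (d : DQSGen n a b) {K : Subgroup G} (hK : K ≤ zpowers a)
    (hI : ∀ k ∈ zpowers a, k * b * (k * b) = 1 ↔ k ∈ K) :
    ∃ c, c ∣ Nat.card V ∧ c * c = Nat.card V ∧ c + 1 = Nat.card K := by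
  classical
  have n2 := d.two_le
  have z1 : a ^ 2 ^ (n - 1) ≠ 1 := fun e => by simpa [e] using d.orderOf_z
  have zz : a ^ 2 ^ (n - 1) * a ^ 2 ^ (n - 1) = 1 := by
    have := pow_orderOf_eq_one (a ^ 2 ^ (n - 1))
    rwa [d.orderOf_z, pow_two] at this
  have hz := h.central z1 zz fun g => mem_center_iff.1 (d.center_eq ▸ mem_zpowers _) g
  have k1 : ∀ k ∈ zpowers a, k * k = 1 → ∀ v : V, v ≠ 0 → k • v = v → k = 1 := fun k hk kk v hv e => by
    have h1 := mem_zpowers_pow_of_pow_eq_one (m := n - 1) two_ne_zero (by rw [d.ord]; congr 1; omega) hk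
      (by rw [pow_two, kk])
    obtain ⟨i, rfl⟩ := h1
    have h2 : (a ^ 2 ^ (n - 1)) ^ (2 : ℤ) = 1 := by rw [zpow_two, zz]
    rcases Int.emod_two_eq_zero_or_one i with e1 | e1 <;> simp only [zpow_eq_zpow_emod i h2, e1] at e ⊢
    · exact zpow_zero _
    · rw [zpow_one, hz] at e
      exact absurd (h.eq_zero e.symm) hv
  have k2 : ∀ v : V, v ≠ 0 → ∃ k : K, ((k : G) * b) • v = v := fun v hv => by
    obtain ⟨t, t1, tt, ht⟩ := h.exists_inv hv
    obtain ⟨i, rfl | rfl⟩ := d.elt t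
    · exact absurd (k1 _ ⟨i, rfl⟩ tt v hv ht) t1
    · exact ⟨⟨_, (hI _ ⟨i, rfl⟩).1 tt⟩, ht⟩
  have k3 : ∀ v : V, v ≠ 0 → ∀ k k' : K, ((k : G) * b) • v = v → ((k' : G) * b) • v = v → k = k' :=
    fun v hv k k' e e' => by
    by_contra ne
    have h1 : (k : G) * (k' : G)⁻¹ ∈ zpowers a ⊓ stabilizer G v := ⟨(zpowers a).mul_mem (hK k.2) ((zpowers a).inv_mem (hK k'.2)), by
      have := (stabilizer G v).mul_mem (mem_stabilizer_iff.2 e) ((stabilizer G v).inv_mem (mem_stabilizer_iff.2 e'))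
      simpa [mul_assoc] using this⟩
    have h2 : Nontrivial ↥(zpowers a ⊓ stabilizer G v) :=
      ⟨⟨⟨_, h1⟩, 1, fun e => ne (Subtype.ext (mul_inv_eq_one.1 (congrArg Subtype.val e)))⟩⟩
    obtain ⟨m, hm, e1⟩ := (h.pg.to_subgroup _).nontrivial_iff_card.1 h2
    obtain ⟨t, ht⟩ := exists_prime_orderOf_dvd_card' (G := ↥(zpowers a ⊓ stabilizer G v)) 2
      (e1 ▸ dvd_pow_self 2 hm.ne')
    have h3 := pow_orderOf_eq_one t
    rw [ht, pow_two] at h3
    rw [show t = 1 from Subtype.ext (k1 t t.2.1 (congrArg Subtype.val h3) v hv t.2.2), orderOf_one] at ht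
    omega
  have k4 : ∀ k : K, Nat.card (Fx V ((k : G) * b)) * Nat.card (Fx V ((k : G) * b)) = Nat.card V := fun k => by
    refine h.card_Fx (g := a ^ 2 ^ (n - 2)) ((hI _ (hK k.2)).2 k.2) hz ?_
    obtain ⟨r, hr, ⟨s, hs⟩, -⟩ := d.exists_conj
    have h1 : orderOf (a ^ 2 ^ (n - 2)) = 4 := by
      rw [d.orderOf_pow_two_pow (by omega), show n - (n - 2) = 2 by omega]; rfl
    have h2 : b * a ^ 2 ^ (n - 2) * b⁻¹ = (a ^ 2 ^ (n - 2))⁻¹ := by
      rw [← conj_pow, hr, ← zpow_natCast, ← zpow_mul, mul_comm, zpow_mul, zpow_natCast, eq_inv_iff_mul_eq_one,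
        ← zpow_add_one, hs, zpow_mul, show (4 : ℤ) = ((4 : ℕ) : ℤ) from rfl, zpow_natCast, ← h1, pow_orderOf_eq_one,
        one_zpow]
    have h3 : a ^ 2 ^ (n - 1) = a ^ 2 ^ (n - 2) * a ^ 2 ^ (n - 2) := by
      rw [← pow_add, ← two_mul, ← pow_succ', show n - 2 + 1 = n - 1 by omega]
    have h4 : Commute (a ^ 2 ^ (n - 2)) k := (commute_of_mem_zpowers (hK k.2)).pow_left _
    generalize a ^ 2 ^ (n - 2) = u at *
    calc _ = u * k * (b * u * b⁻¹)⁻¹ * b := by group
      _ = _ := by rw [h2, inv_inv, h3, mul_assoc u, ← h4.eq]; group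
  obtain ⟨v, hv, -⟩ := h.ns
  obtain ⟨k₀, hk₀⟩ := k2 v hv
  have k5 : ∀ k : K, Nat.card (Fx V ((k : G) * b)) = Nat.card (Fx V ((k₀ : G) * b)) := fun k =>
    Nat.mul_self_inj.1 ((k4 k).trans (k4 k₀).symm)
  have k6 : ∀ A : AddSubgroup V, Nat.card {w : V // w ≠ 0 ∧ w ∈ A} + 1 = Nat.card A := fun A => by
    have := Set.ncard_diff_singleton_add_one (s := (A : Set V)) A.zero_mem (Set.toFinite _)
    rw [← Nat.card_coe_set_eq, ← Nat.card_coe_set_eq] at this
    exact (congrArg (· + 1) (Nat.card_congr (Equiv.subtypeEquivRight fun w => and_comm))).trans this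
  have k7 : Nat.card (Σ k : K, {w : V // w ≠ 0 ∧ w ∈ Fx V ((k : G) * b)}) =
      Nat.card {w : V // w ≠ 0 ∧ w ∈ (⊤ : AddSubgroup V)} :=
    Nat.card_congr (Equiv.ofBijective (fun p => ⟨p.2.1, p.2.2.1, trivial⟩) ⟨by
      rintro ⟨k, w, h1, h2⟩ ⟨k', w', h1', h2'⟩ e
      obtain rfl : w = w' := congrArg Subtype.val e
      obtain rfl := k3 w h1 k k' h2 h2'
      rfl, fun w => let ⟨k, hk⟩ := k2 w.1 w.2.1; ⟨⟨k, w.1, w.2.1, hk⟩, rfl⟩⟩)
  letI := Fintype.ofFinite K
  have k8 := k6 ⊤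
  have k9 : 1 < Nat.card (Fx V ((k₀ : G) * b)) :=
    Finite.one_lt_card_iff_nontrivial.2 ⟨⟨⟨v, hk₀⟩, 0, fun e => hv (congrArg Subtype.val e)⟩⟩
  obtain ⟨c, hc⟩ : ∃ c, Nat.card (Fx V ((k₀ : G) * b)) = c + 1 := ⟨_, (Nat.sub_add_cancel k9.le).symm⟩
  rw [← k7, Nat.card_sigma, Finset.sum_congr rfl fun (k : K) _ => show _ = c from
    Nat.add_right_cancel ((k6 _).trans ((k5 k).trans hc)), Finset.sum_const, Finset.card_univ, smul_eq_mul,
    AddSubgroup.card_top, ← k4 k₀, hc, ← Nat.card_eq_fintype_card] at k8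
  refine ⟨_, AddSubgroup.card_addSubgroup_dvd_card _, k4 k₀, ?_⟩
  rw [hc] at k9 ⊢
  exact Nat.eq_of_mul_eq_mul_right (show 0 < c by omega) (by linarith)

variable {a z : G} (aa : a * a = 1) (hz : ∀ v : V, z • v = -v) (hc : ∀ g, Commute g a ∨ g * a * g⁻¹ = z * a)
include hz hc

omit [Finite G] [Finite V] [FaithfulSMul G V] h in
theorem swap {y : G} (n : ¬ Commute y a) (v : V) : a • y • v = -(y • a • v) := by
  have h1 : y * a = z * (a * y) := by rw [← mul_assoc, ← (hc y).resolve_left n, inv_mul_cancel_right]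
  rw [← mul_smul y, h1, mul_smul z, hz, neg_neg, mul_smul]

omit [Finite G] [Finite V] [FaithfulSMul G V] h hz in
theorem cm_mul {y y' : G} (n : ¬ Commute y a) (n' : ¬ Commute y' a) : Commute (y⁻¹ * y') a := by
  have h1 := ((hc y).resolve_left n).trans ((hc y').resolve_left n').symm
  show _ = _
  calc y⁻¹ * y' * a = y⁻¹ * (y' * a * y'⁻¹) * y' := by group
    _ = _ := by rw [← h1]; group

omit [Finite V] [FaithfulSMul G V] in
theorem exists_swap {u w : V} (hu : a • u = u) (hw : a • w = -w) (u0 : u ≠ 0) (w0 : w ≠ 0) :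
    ∃ y : G, ¬ Commute y a ∧ y • u = w ∧ y • w = u := by
  obtain ⟨y, n, hy⟩ := h.exists_nc hu hw u0 w0
  have := h.split (t := a) (a := y • w) (b := y • u) (by rw [swap hz hc n, hw, smul_neg, neg_neg])
    (by rw [swap hz hc n, hu]) hu hw (by rw [← hy, smul_add, add_comm])
  exact ⟨y, n, this.2, this.1⟩

omit [FaithfulSMul G V] in
/-- the imprimitive case: the fixed vectors of `a` -/
theorem card_imp {x : G} (n : ¬ Commute x a) {u : V} (hu : a • u = u) (u0 : u ≠ 0) :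
    ∃ m, Nat.card (Fx V a) = 2 ^ m + 1 := by
  have h1 : orbit (centralizer ({a} : Set G)) u = (Fx V a : Set V) \ {0} := by
    ext w
    constructor
    · rintro ⟨g, rfl⟩
      refine ⟨?_, fun e => u0 ((smul_eq_zero_iff_eq _).1 e)⟩
      show a • (g : G) • u = (g : G) • u
      rw [← mul_smul, ← mem_centralizer_singleton_iff.1 g.2, mul_smul, hu]
    · rintro ⟨hw, w0⟩
      have x0 : x • u ≠ 0 := fun e => u0 ((smul_eq_zero_iff_eq _).1 e)
      have hx : a • x • u = -(x • u) := by rw [swap hz hc n, hu]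
      obtain ⟨y, n1, e1, -⟩ := h.exists_swap hz hc hu hx u0 x0
      obtain ⟨y', n2, e2, -⟩ := h.exists_swap hz hc hw hx w0 x0
      exact ⟨⟨_, mem_centralizer_singleton_iff.2 (cm_mul hc n2 n1)⟩, by
        show (y'⁻¹ * y) • u = w
        rw [mul_smul, e1, ← e2, inv_smul_smul]⟩
  obtain ⟨m, hm⟩ := (h.pg.to_subgroup (centralizer ({a} : Set G))).card_orbit u
  have := Set.ncard_diff_singleton_add_one (s := (Fx V a : Set V)) (Fx V a).zero_mem (Set.toFinite _)
  rw [← h1, ← Nat.card_coe_set_eq, hm, ← Nat.card_coe_set_eq] at this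
  exact ⟨m, this.symm⟩

end HT

/-- the imprimitive case in dimension two -/
theorem HT.dim_two {F : Type*} [Field F] [Finite F] [Module F V] [SMulCommClass G F V] (h : HT G V) {a z : G}
    (a1 : a ≠ 1) (hz : ∀ v : V, z • v = -v) (hc : ∀ g, Commute g a ∨ g * a * g⁻¹ = z * a)
    {u w : V} (hu : a • u = u) (hw : a • w = -w) (u0 : u ≠ 0) (w0 : w ≠ 0) (hV : Nat.card V = Nat.card F ^ 2) :
    ∃ e : V ≃ₗ[F] (Fin 2 → F), ∀ f : (Fin 2 → F) → (Fin 2 → F), (∃ g : G, ∀ v, f v = e (g • e.symm v)) ↔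
      ∃ α s : F, α ≠ 0 ∧ (s = 1 ∨ s = -1) ∧
        ((∀ v, f v = ![α * v 0, s * α⁻¹ * v 1]) ∨ (∀ v, f v = ![s * α⁻¹ * v 1, α * v 0])) := by
  let φ : (Fin 2 → F) →ₗ[F] V := (LinearMap.proj 0).smulRight u + (LinearMap.proj 1).smulRight w
  have hφ : ∀ v, φ v = v 0 • u + v 1 • w := fun _ => rfl
  have p1 : ∀ c : F, a • c • u = c • u := fun c => by rw [smul_comm, hu]
  have p2 : ∀ c : F, a • c • w = -c • w := fun c => by rw [smul_comm, hw, smul_neg, neg_smul]
  have p2' : ∀ c : F, a • c • w = -(c • w) := fun c => by rw [p2, neg_smul]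
  have inj : Function.Injective φ := fun v v' e => by
    have := h.split (p1 _) (p2' _) (p1 _) (p2' _) e
    exact funext fun i => by
      fin_cases i
      exacts [smul_left_injective F u0 this.1, smul_left_injective F w0 this.2]
  have bij : Function.Bijective φ := inj.bijective_of_nat_card_le (by rw [hV, Nat.card_fun, Nat.card_eq_fintype_card (α := Fin 2), Fintype.card_fin])
  have q1 : ∀ v : V, a • v = v → ∃ c : F, v = c • u := fun v hv => by
    obtain ⟨t, rfl⟩ := bij.2 v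
    exact ⟨t 0, (h.split hv (b := 0) (by simp) (p1 _) (p2' _) (add_zero _)).1⟩
  have q2 : ∀ v : V, a • v = -v → ∃ c : F, v = c • w := fun v hv => by
    obtain ⟨t, rfl⟩ := bij.2 v
    exact ⟨t 1, (h.split (smul_zero a) hv (p1 _) (p2' _) (zero_add _)).2⟩
  have q3 : ∀ g : G, g • u = u → g • w = w → g = 1 := fun g h1 h2 => eq_of_smul_eq_smul (α := V) fun v => by
    obtain ⟨t, rfl⟩ := bij.2 v
    rw [hφ, smul_add, smul_comm g, smul_comm g, h1, h2, one_smul]
  obtain ⟨y, ny, y1, y2⟩ := h.exists_swap hz hc hu hw u0 w0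
  have q4 : ∀ α : F, α ≠ 0 → ∃ g : G, g • u = α • u ∧ g • w = α⁻¹ • w := fun α hα => by
    obtain ⟨y', -, e1, e2⟩ := h.exists_swap hz hc (p1 α) hw (smul_ne_zero hα u0) w0
    refine ⟨y' * y, by rw [mul_smul, y1, e2], ?_⟩
    rw [mul_smul, y2, ← e1, smul_comm y', inv_smul_smul₀ hα]
  have q5 : ∀ g : G, g • u = u → g = 1 ∨ g = a := fun g hg => by
    classical
    by_contra! hne
    have uw : u + w ≠ 0 := fun e => u0 (h.split hu hw (smul_zero a) (by simp) (e.trans (add_zero 0).symm)).1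
    have k : ∀ g : G, Commute g a → g • (u + w) = u + w → g = 1 := fun g c hg => by
      have := h.split (by rw [← mul_smul, ← c.eq, mul_smul, hu]) (by rw [← mul_smul, ← c.eq, mul_smul, hw, smul_neg])
        hu hw ((smul_add g u w).symm.trans hg)
      exact q3 g this.1 this.2
    have h1 : (stabilizer G (u + w) : Set G) ⊆ {1, y} := fun g hg => by
      by_cases c : Commute g a
      · exact Or.inl (k g c hg)
      · exact Or.inr (inv_mul_eq_one.1 (k _ (HT.cm_mul hc ny c) (by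
          rw [mul_smul, show g • (u + w) = u + w from hg, inv_smul_eq_iff, smul_add, y1, y2, add_comm]))).symm
    have h2 := (Set.ncard_le_ncard h1 (Set.toFinite _)).trans (Set.ncard_insert_le _ _)
    have h3 := Set.ncard_le_ncard (s := ([1, a, g].toFinset : Set G)) (t := stabilizer G u) (fun x hx => by
      simp only [List.coe_toFinset, List.mem_cons, List.not_mem_nil, or_false, Set.mem_setOf_eq] at hx
      rcases hx with rfl | rfl | rfl
      exacts [one_smul _ _, hu, hg]) (Set.toFinite _)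
    rw [Set.ncard_coe_finset, List.toFinset_card_of_nodup (by simp [a1.symm, hne.1.symm, hne.2.symm]),
      ← Nat.card_coe_set_eq, SetLike.coe_sort_coe, h.const u (u + w) u0 uw] at h3
    rw [Set.ncard_singleton, ← Nat.card_coe_set_eq, SetLike.coe_sort_coe] at h2
    simp only [List.length_cons, List.length_nil] at h3
    omega
  have q6 : ∀ g : G, Commute g a → ∃ α s : F, α ≠ 0 ∧ (s = 1 ∨ s = -1) ∧ g • u = α • u ∧ g • w = (s * α⁻¹) • w :=
    fun g c => by
    obtain ⟨α, hα⟩ := q1 (g • u) (by rw [← mul_smul, ← c.eq, mul_smul, hu])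
    have α0 : α ≠ 0 := fun e => u0 ((smul_eq_zero_iff_eq g).1 (by rw [hα, e, zero_smul]))
    obtain ⟨d, d1, d2⟩ := q4 α α0
    rcases q5 (d⁻¹ * g) (by rw [mul_smul, hα, ← d1, inv_smul_smul]) with e | e
    · exact ⟨α, 1, α0, Or.inl rfl, hα, by rw [← inv_mul_eq_one.1 e, d2, one_mul]⟩
    · exact ⟨α, -1, α0, Or.inr rfl, hα, by
        rw [inv_mul_eq_iff_eq_mul.1 e, mul_smul, hw, smul_neg, d2, neg_one_mul, neg_smul]⟩
  have q7 : ∀ α s : F, α ≠ 0 → (s = 1 ∨ s = -1) → ∃ g : G, g • u = α • u ∧ g • w = (s * α⁻¹) • w :=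
    fun α s α0 hs => by
    obtain ⟨d, d1, d2⟩ := q4 α α0
    rcases hs with rfl | rfl
    · exact ⟨d, d1, by rw [d2, one_mul]⟩
    · exact ⟨d * a, by rw [mul_smul, hu, d1], by rw [mul_smul, hw, smul_neg, d2, neg_one_mul, neg_smul]⟩
  let e := LinearEquiv.ofBijective φ bij
  have r1 : ∀ {g : G} {α β : F}, g • u = α • u → g • w = β • w → ∀ v, e.symm (g • e v) = ![α * v 0, β * v 1] :=
    fun {g α β} h1 h2 v => by
    rw [LinearEquiv.symm_apply_eq]
    show g • φ v = φ _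
    rw [hφ, hφ, smul_add, smul_comm g, smul_comm g, h1, h2, smul_smul, smul_smul, mul_comm, mul_comm (v 1)]
    rfl
  have r2 : ∀ {g : G} {α β : F}, g • u = α • w → g • w = β • u → ∀ v, e.symm (g • e v) = ![β * v 1, α * v 0] :=
    fun {g α β} h1 h2 v => by
    rw [LinearEquiv.symm_apply_eq]
    show g • φ v = φ _
    rw [hφ, hφ, smul_add, smul_comm g, smul_comm g, h1, h2, smul_smul, smul_smul, mul_comm, mul_comm (v 1), add_comm]
    rfl
  refine ⟨e.symm, fun f => ⟨?_, ?_⟩⟩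
  · rintro ⟨g, hg⟩
    by_cases c : Commute g a
    · obtain ⟨α, s, α0, hs, h1, h2⟩ := q6 g c
      exact ⟨α, s, α0, hs, Or.inl fun v => (hg v).trans (r1 h1 h2 v)⟩
    · obtain ⟨α, s, α0, hs, h1, h2⟩ := q6 _ (HT.cm_mul hc ny c)
      rw [mul_smul, inv_smul_eq_iff, smul_comm] at h1 h2
      exact ⟨α, s, α0, hs, Or.inr fun v => (hg v).trans (r2 (y1 ▸ h1) (y2 ▸ h2) v)⟩
  · rintro ⟨α, s, α0, hs, hf⟩
    obtain ⟨g, h1, h2⟩ := q7 α s α0 hs
    rcases hf with hf | hf
    · exact ⟨g, fun v => (hf v).trans (r1 h1 h2 v).symm⟩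
    · exact ⟨y * g, fun v => (hf v).trans (r2 (by rw [mul_smul, h1, smul_comm, y1])
        (by rw [mul_smul, h2, smul_comm, y2]) v).symm⟩

end CL.HalfT
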