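/-
Half-transitive automorphism groups (Isaacs–Passman).
-/
import Cfsg.Agent.Base

set_option autoImplicit false

namespace CL.Perm

open MulAction

theorem dvd_ncard_of_orbits {K X : Type*} [Group K] [MulAction K X] (s : ℕ) (C : Set X) (hC : C.Finite)
    (h1 : ∀ y ∈ C, orbit K y ⊆ C) (h2 : ∀ y ∈ C, (orbit K y).ncard = s) : s ∣ C.ncard := by
  induction hn : C.ncard using Nat.strong_induction_on generalizing C with
  | _ n ih =>
    rcases C.eq_empty_or_nonempty with rfl | ⟨y, hy⟩
    · rw [← hn]; simp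
    have h3 := Set.ncard_sdiff_add_ncard_of_subset (h1 y hy) hC
    have h4 : 0 < (orbit K y).ncard := (Set.ncard_pos (hC.subset (h1 y hy))).2 ⟨y, mem_orbit_self y⟩
    have h5 := ih (C \ orbit K y).ncard (by omega) (C \ orbit K y) hC.sdiff (fun z hz w hw =>
      ⟨h1 z hz.1 hw, fun h => hz.2 (by rw [← orbit_eq_iff.2 h, orbit_eq_iff.2 hw]; exact mem_orbit_self z)⟩)
      (fun z hz => h2 z hz.1) rfl
    rw [← hn, ← h3, h2 y hy]
    exact dvd_add h5 dvd_rfl

/-- A block of size prime to the common orbit length is fixed pointwise by the stabiliser of any of its points. -/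
theorem smul_eq_of_block {H X : Type*} [Group H] [Finite H] [MulAction H X] (C : Set X) (hC : C.Finite) (k : ℕ)
    (hblock : ∀ h : H, ∀ y ∈ C, h • y ∈ C → ∀ z ∈ C, h • z ∈ C)
    (hk : ∀ y ∈ C, (stabilizer H y).index = k) (hcop : Nat.Coprime C.ncard k) {x : X} (hx : x ∈ C) {h : H}
    (hh : h • x = x) : ∀ y ∈ C, h • y = y := by
  let K : Subgroup H :=
    { carrier := {h | ∀ z ∈ C, h • z ∈ C}
      one_mem' := fun z hz => by rwa [one_smul]
      mul_mem' := fun {a b} ha hb z hz => by rw [mul_smul]; exact ha _ (hb z hz)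
      inv_mem' := fun {a} ha => hblock a⁻¹ (a • x) (ha x hx) (by rwa [inv_smul_smul]) }
  have hle : ∀ y ∈ C, stabilizer H y ≤ K := fun y hy g hg => hblock g y hy (by rwa [show g • y = y from hg])
  have hidx : ∀ y ∈ C, (stabilizer H y).relIndex K * K.index = k := fun y hy => by
    rw [Subgroup.relIndex_mul_index (hle y hy), hk y hy]
  have hK : K.index ≠ 0 := K.index_ne_zero_of_finite
  have hs : ∀ y ∈ C, (stabilizer H y).relIndex K = (stabilizer H x).relIndex K := fun y hy =>
    Nat.eq_of_mul_eq_mul_right (Nat.pos_of_ne_zero hK) (by rw [hidx y hy, hidx x hx])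
  have h1 : (stabilizer H x).relIndex K ∣ C.ncard := by
    refine dvd_ncard_of_orbits (K := K) _ C hC ?_ fun y hy => ?_
    · rintro y hy _ ⟨g, rfl⟩
      exact g.2 y hy
    · rw [← hs y hy, ← index_stabilizer]
      rfl
  have h2 : (stabilizer H x).relIndex K = 1 := Nat.eq_one_of_dvd_coprimes hcop h1 ⟨_, (hidx x hx).symm⟩
  intro y hy
  exact Subgroup.relIndex_eq_one.1 ((hs y hy).trans h2) (hle x hx hh)

theorem eq_top_of_compl_subset {A : Type*} [Group A] {B C : Subgroup A} (hB : B ≠ ⊤) (h : ∀ y, y ∉ B → y ∈ C) :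
    C = ⊤ := by
  obtain ⟨y, hy⟩ : ∃ y, y ∉ B := by
    by_contra hc
    exact hB (eq_top_iff.2 fun y _ => not_not.1 fun h => hc ⟨y, h⟩)
  refine eq_top_iff.2 fun z _ => ?_
  by_cases hz : z ∈ B
  · have := C.mul_mem (h (z * y) fun h' => hy ((B.mul_mem_cancel_left hz).1 h')) (C.inv_mem (h y hy))
    rwa [mul_inv_cancel_right] at this
  · exact h z hz

/-- The fixed points of the stabiliser of `x`. -/
def fixOfStab (H : Type*) {A : Type*} [Group H] [Group A] [MulDistribMulAction H A] (x : A) : Subgroup A where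
  carrier := {y | stabilizer H x ≤ stabilizer H y}
  one_mem' := fun g _ => smul_one g
  mul_mem' := fun {a b} ha hb g hg => by
    show g • (a * b) = a * b
    rw [smul_mul', show g • a = a from ha hg, show g • b = b from hb hg]
  inv_mem' := fun {a} ha g hg => by
    show g • a⁻¹ = a⁻¹
    rw [smul_inv', show g • a = a from ha hg]

/-- Isaacs–Passman: a half-transitive automorphism group which is not semiregular acts irreducibly on an
elementary abelian group. -/
theorem isaacs_passman {H A : Type*} [Group H] [Finite H] [Group A] [Finite A] [MulDistribMulAction H A]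
    (hf : ∀ h : H, (∀ x : A, h • x = x) → h = 1) (k : ℕ) (hk : ∀ x : A, x ≠ 1 → (stabilizer H x).index = k)
    (hns : ∃ x : A, x ≠ 1 ∧ stabilizer H x ≠ ⊥) :
    (∃ p : ℕ, p.Prime ∧ (∀ x y : A, x * y = y * x) ∧ ∀ x : A, x ^ p = 1) ∧
      ∀ B : Subgroup A, (∀ h : H, ∀ x ∈ B, h • x ∈ B) → B = ⊥ ∨ B = ⊤ := by
  obtain ⟨x0, hx0, hx0'⟩ := hns
  have hcop : ∀ B : Subgroup A, (∀ h : H, ∀ x ∈ B, h • x ∈ B) → Nat.Coprime (Nat.card B) k := by
    intro B hB
    have h1 : k ∣ ((B : Set A) \ {1}).ncard := by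
      refine dvd_ncard_of_orbits (K := H) k _ (Set.toFinite _) ?_ fun y hy => ?_
      · rintro y hy _ ⟨g, rfl⟩
        exact ⟨hB g y hy.1, fun h => hy.2 (MulAction.injective g (h.trans (smul_one g).symm))⟩
      · rw [← index_stabilizer, hk y hy.2]
    rw [Set.ncard_sdiff_singleton_of_mem B.one_mem, ← Nat.card_coe_set_eq] at h1
    obtain ⟨c, hc⟩ := h1
    have h2 : Nat.card B = k * c + 1 := by
      have : 0 < Nat.card B := Nat.card_pos
      have h3 : Nat.card (B : Set A) = Nat.card B := rfl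
      omega
    rw [h2]
    simp
  have heq : ∀ x y : A, x ≠ 1 → y ≠ 1 → y ∈ fixOfStab H x → stabilizer H x = stabilizer H y := by
    intro x y hx hy h
    refine Subgroup.eq_of_le_of_card_ge h (le_of_eq ?_)
    have h1 := (stabilizer H x).card_mul_index
    have h2 := (stabilizer H y).card_mul_index
    rw [hk x hx] at h1
    rw [hk y hy, ← h1] at h2
    exact Nat.eq_of_mul_eq_mul_right (Nat.pos_of_ne_zero (hk x hx ▸ Subgroup.index_ne_zero_of_finite)) h2
  have hne : ∀ x : A, x ≠ 1 → fixOfStab H x ≠ ⊤ := by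
    intro x hx h
    have h1 : stabilizer H x = ⊥ := eq_bot_iff.2 fun g hg =>
      hf g fun y => (h ▸ Subgroup.mem_top y : y ∈ fixOfStab H x) hg
    exact hx0' (by rw [← heq x x0 hx hx0 (h ▸ Subgroup.mem_top x0), h1])
  have hself : ∀ x : A, x ∈ fixOfStab H x := fun x => le_refl (stabilizer H x)
  have hconj : ∀ x g : A, x ≠ 1 → g * x * g⁻¹ ∈ fixOfStab H x := by
    intro x g hx h hh
    refine smul_eq_of_block (orbit (ConjAct A) x) (Set.toFinite _) k ?_ ?_ ?_ (mem_orbit_self x) hh _
      ⟨ConjAct.toConjAct g, rfl⟩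
    · intro h y hy hy' z hz
      rw [ConjAct.mem_orbit_conjAct] at hy hy' hz ⊢
      exact ((MulDistribMulAction.toMonoidHom A h).map_isConj (hz.trans hy.symm)).trans hy'
    · intro y hy
      rw [ConjAct.mem_orbit_conjAct] at hy
      exact hk y fun h => hx (isConj_one_right.1 (h ▸ hy))
    · rw [← index_stabilizer]
      refine Nat.Coprime.coprime_dvd_left (stabilizer (ConjAct A) x).index_dvd_card ?_
      have := hcop ⊤ fun _ _ _ => trivial
      rwa [Subgroup.card_top] at this
  have hcomm : ∀ x y : A, x * y = y * x := by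
    intro x y
    by_cases hx : x = 1
    · simp [hx]
    have : Subgroup.centralizer ({x} : Set A) = ⊤ := by
      refine eq_top_of_compl_subset (hne x hx) fun y hy => Subgroup.mem_centralizer_singleton_iff.2 ?_
      have hy1 : y ≠ 1 := fun h => hy (h ▸ one_mem _)
      by_contra hc
      have h1 : y * x * y⁻¹ * x⁻¹ ≠ 1 := fun h => hc (by
        rw [mul_inv_eq_one, mul_inv_eq_iff_eq_mul] at h; exact h)
      have h2 := heq x _ hx h1 (mul_mem (hconj x y hx) (inv_mem (hself x)))
      have h3 := heq y _ hy1 h1 (by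
        have := mul_mem (hself y) (inv_mem (hconj y x hy1))
        rwa [show y * (x * y * x⁻¹)⁻¹ = y * x * y⁻¹ * x⁻¹ by group] at this)
      exact hy (h2.trans h3.symm).le
    exact (Subgroup.mem_centralizer_singleton_iff.1 (this ▸ Subgroup.mem_top y)).symm
  refine ⟨?_, fun B hB => ?_⟩
  · have : Nontrivial A := ⟨x0, 1, hx0⟩
    obtain ⟨p, hp, hpd⟩ := Nat.exists_prime_and_dvd (Finite.one_lt_card (α := A)).ne'
    have := Fact.mk hp
    obtain ⟨x, hx⟩ := exists_prime_orderOf_dvd_card' p hpd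
    have hx1 : x ≠ 1 := fun h => hp.one_lt.ne (by rw [← hx, h, orderOf_one])
    refine ⟨p, hp, hcomm, ?_⟩
    let _ : CommGroup A := { (inferInstance : Group A) with mul_comm := hcomm }
    have : (powMonoidHom p : A →* A).ker = ⊤ := by
      refine eq_top_of_compl_subset (hne x hx1) fun y hy => ?_
      have hy1 : y ≠ 1 := fun h => hy (h ▸ one_mem _)
      have hxy : x * y ≠ 1 := fun h => hy ((fixOfStab H x).mul_mem_cancel_left (hself x) |>.1 (h ▸ one_mem _))
      by_contra hc
      have h1 : y ^ p ≠ 1 := hc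
      have h2 := heq y _ hy1 h1 (pow_mem (hself y) p)
      have h3 := heq (x * y) _ hxy h1 (by
        have := pow_mem (hself (x * y)) p
        rwa [mul_pow, ← hx, pow_orderOf_eq_one, one_mul, hx] at this)
      have h4 : x * y ∈ fixOfStab H y := (h2.trans h3.symm).le
      have h5 := ((fixOfStab H y).mul_mem_cancel_right (hself y)).1 h4
      exact hy (heq y x hy1 hx1 h5).ge
    exact fun y => (this ▸ Subgroup.mem_top y : y ∈ (powMonoidHom p : A →* A).ker)
  · by_contra hc
    rw [not_or] at hc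
    obtain ⟨⟨b, hb⟩, hb1⟩ := (Subgroup.ne_bot_iff_exists_ne_one).1 hc.1
    have hb2 : b ≠ 1 := fun h => hb1 (Subtype.ext h)
    refine hne b hb2 (eq_top_of_compl_subset hc.2 fun x hx => ?_)
    have hx1 : x ≠ 1 := fun h => hx (h ▸ one_mem _)
    refine (heq x b hx1 hb2 ?_).ge
    refine ((fixOfStab H x).mul_mem_cancel_left (hself x)).1 fun h hh => ?_
    refine smul_eq_of_block ((fun c => x * c) '' (B : Set A)) (Set.toFinite _) k ?_ ?_ ?_
      ⟨1, B.one_mem, mul_one x⟩ hh _ ⟨b, hb, rfl⟩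
    · rintro g _ ⟨c, hc, rfl⟩ ⟨d, hd, hcd⟩ _ ⟨e, he, rfl⟩
      refine ⟨d * g • (c⁻¹ * e), B.mul_mem hd (hB g _ (B.mul_mem (B.inv_mem hc) he)), ?_⟩
      simp only at hcd ⊢
      rw [← mul_assoc, hcd, ← smul_mul']
      congr 1
      group
    · rintro _ ⟨c, hc, rfl⟩
      exact hk _ fun h => hx ((B.mul_mem_cancel_right hc).1 (by simp only at h; rw [h]; exact one_mem _))
    · rw [Set.ncard_image_of_injective _ (mul_right_injective x), ← Nat.card_coe_set_eq]
      exact hcop B hB

end CL.Perm
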