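/-
Project HKS (S1145): a nilpotent normal subgroup of a point stabiliser of a doubly transitive group that is
transitive on the remaining points is regular on them (Kantor, Seitz). Definitions and the steps as propositions.
-/
import Cfsg.Agent.Perm.KosDefs

set_option autoImplicit false
set_option linter.unusedSectionVars false

namespace CL.Perm.Hks

open MulAction Cfsg CL.Perm.V4 CL.Perm.V4D CL.Perm.Kos

universe u v

/-- `U` is a nilpotent normal subgroup of the stabiliser of `a`, transitive on the other points. -/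
structure Sp (G : Type u) (Ω : Type v) [Group G] [MulAction G Ω] (a : Ω) (U : Subgroup G) : Prop where
  t2 : T2 G Ω
  le : U ≤ stabilizer G a
  nrm : ∀ g ∈ stabilizer G a, ∀ y ∈ U, g * y * g⁻¹ ∈ U
  nil : Group.IsNilpotent U
  tr : ∀ c d : Ω, c ≠ a → d ≠ a → ∃ y ∈ U, y • c = d

/-- An element of `U` that fixes a second point fixes all points. -/
def Rg {G : Type u} (Ω : Type v) [Group G] [MulAction G Ω] (a : Ω) (U : Subgroup G) : Prop :=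
  ∀ y ∈ U, ∀ b : Ω, b ≠ a → y • b = b → ∀ c : Ω, y • c = c

/-- faithful action -/
def Fa (G : Type u) (Ω : Type v) [Group G] [MulAction G Ω] : Prop := ∀ g : G, (∀ x : Ω, g • x = x) → g = 1

/-- The exceptional affine case: a regular subgroup of index two. -/
structure Exc {G : Type u} (Ω : Type v) [Group G] [MulAction G Ω] (a : Ω) (U U₀ : Subgroup G) : Prop where
  le : U₀ ≤ U
  cyc : IsCyclic U₀
  nrm : ∀ g ∈ stabilizer G a, ∀ y ∈ U₀, g * y * g⁻¹ ∈ U₀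
  tr : ∀ c d : Ω, c ≠ a → d ≠ a → ∃ y ∈ U₀, y • c = d
  reg : ∀ y ∈ U₀, ∀ b : Ω, b ≠ a → y • b = b → y = 1
  card : Nat.card U = 2 * Nat.card U₀
  eight : 8 ∣ Nat.card U₀

/-- even degree -/
def KSeven : Prop := ∀ (G : Type u) (Ω : Type v) [Group G] [Finite G] [Finite Ω] [MulAction G Ω] (a : Ω)
  (U : Subgroup G), Sp G Ω a U → Even (Nat.card Ω) → Rg Ω a U

/-- odd degree, no regular normal subgroup -/
def KSodd : Prop := ∀ (G : Type u) (Ω : Type v) [Group G] [Finite G] [Finite Ω] [MulAction G Ω] (a : Ω)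
  (U : Subgroup G), Sp G Ω a U → Fa G Ω → Odd (Nat.card Ω) → ¬ RegN G Ω → Rg Ω a U

/-- affine case: no normal subgroup of type `(p, p)` -/
def Aff0 : Prop := ∀ (G : Type u) (Ω : Type v) [Group G] [Finite G] [Finite Ω] [MulAction G Ω] (a : Ω)
  (U A : Subgroup G) (p : ℕ), Sp G Ω a U → Fa G Ω → RegN G Ω → p.Prime → A ≤ U →
  (∀ g ∈ U, ∀ y ∈ A, g * y * g⁻¹ ∈ A) → Nat.card A = p ^ 2 → IsCyclic A

/-- affine case, even degree -/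
def AffE : Prop := ∀ (G : Type u) (Ω : Type v) [Group G] [Finite G] [Finite Ω] [MulAction G Ω] (a : Ω)
  (U : Subgroup G), Sp G Ω a U → Fa G Ω → RegN G Ω → Even (Nat.card Ω) → Rg Ω a U

/-- affine case, odd degree -/
def AffO : Prop := ∀ (G : Type u) (Ω : Type v) [Group G] [Finite G] [Finite Ω] [MulAction G Ω] (a : Ω)
  (U : Subgroup G), Sp G Ω a U → Fa G Ω → RegN G Ω → Odd (Nat.card Ω) → Rg Ω a U ∨ ∃ U₀, Exc Ω a U U₀

/-- all cases -/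
def KSall : Prop := ∀ (G : Type u) (Ω : Type v) [Group G] [Finite G] [Finite Ω] [MulAction G Ω] (a : Ω)
  (U : Subgroup G), Sp G Ω a U → Fa G Ω → Rg Ω a U ∨ (RegN G Ω ∧ Odd (Nat.card Ω) ∧ ∃ U₀, Exc Ω a U U₀)

/-! ### Even degree -/

/-- `g` maps the set `Φ` into itself. -/
def St {G : Type u} {Ω : Type v} [Group G] [MulAction G Ω] (Φ : Set Ω) (g : G) : Prop := ∀ c ∈ Φ, g • c ∈ Φ

/-- `g` fixes every point of `Φ`. -/
def Pw {G : Type u} {Ω : Type v} [Group G] [MulAction G Ω] (Φ : Set Ω) (g : G) : Prop := ∀ c ∈ Φ, g • c = c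

/-- A minimal counterexample in even degree: `P c` is the largest normal `p`-subgroup of the stabiliser of `c`. -/
structure Ks (G : Type u) (Ω : Type v) [Group G] [MulAction G Ω] (p : ℕ) (P Q : Ω → Subgroup G) : Prop where
  t2 : T2 G Ω
  faith : Fa G Ω
  even : Even (Nat.card Ω)
  prime : p.Prime
  odd : p ≠ 2
  Pc : ∀ (g : G) (c : Ω), ∀ y ∈ P c, g * y * g⁻¹ ∈ P (g • c)
  Qc : ∀ (g : G) (c : Ω), ∀ y ∈ Q c, g * y * g⁻¹ ∈ Q (g • c)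
  Pfix : ∀ c : Ω, ∀ y ∈ P c, y • c = c
  Qfix : ∀ c : Ω, ∀ y ∈ Q c, y • c = c
  Pp : ∀ c : Ω, IsPGroup p (P c)
  Qp : ∀ c : Ω, ¬ p ∣ Nat.card (Q c)
  Qodd : ∀ c : Ω, Odd (Nat.card (Q c))
  comm : ∀ c : Ω, ∀ y ∈ P c, ∀ x ∈ Q c, y * x = x * y
  tr : ∀ c d e : Ω, d ≠ c → e ≠ c → ∃ y ∈ P c, ∃ x ∈ Q c, (y * x) • d = e
  max : ∀ (c : Ω) (R : Subgroup G), IsPGroup p R → R ≤ stabilizer G c →
    (∀ g ∈ stabilizer G c, ∀ r ∈ R, g * r * g⁻¹ ∈ R) → R ≤ P c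
  gen : ∀ N : Subgroup G, N.Normal → (∀ c, P c ≤ N) → (∀ c, Q c ≤ N) → N = ⊤
  ne : ∃ a b : Ω, a ≠ b ∧ ∃ y ∈ P a, y ≠ 1 ∧ y • b = b
  loc : ∀ (Φ : Set Ω) (a : Ω), a ∈ Φ → Φ ≠ Set.univ →
    (∀ d ∈ Φ, ∀ e ∈ Φ, d ≠ a → e ≠ a → ∃ y ∈ P a, ∃ x ∈ Q a, St Φ (y * x) ∧ (y * x) • d = e) →
    (∃ g : G, St Φ g ∧ g • a ≠ a) →
    ∀ y ∈ P a ⊔ Q a, St Φ y → ∀ b ∈ Φ, b ≠ a → y • b = b → Pw Φ y
  nreg : ¬ RegN G Ω

section

variable {G : Type u} {Ω : Type v} [Group G] [MulAction G Ω]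

/-- the stabiliser of `b` in `P a` -/
abbrev Kk (P : Ω → Subgroup G) (a b : Ω) : Subgroup G := P a ⊓ stabilizer G b

/-- the block through `a` and `b` -/
def Bl (P : Ω → Subgroup G) (a b : Ω) : Set Ω := {c | ∀ k ∈ Kk P a b, k • c = c}

/-- the centraliser of `K` -/
abbrev Cc (P : Ω → Subgroup G) (a b : Ω) : Subgroup G := Subgroup.centralizer (Kk P a b : Set G)

/-- the normaliser of `K` -/
abbrev Nn (P : Ω → Subgroup G) (a b : Ω) : Subgroup G := Subgroup.normalizer (Kk P a b : Set G)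

/-- the centre of `P a` -/
abbrev Zz (P : Ω → Subgroup G) (a : Ω) : Subgroup G := P a ⊓ Subgroup.centralizer (P a : Set G)

/-- the group `C N_P(K) Q` -/
abbrev Gs (P Q : Ω → Subgroup G) (a b : Ω) : Subgroup G := Cc P a b ⊔ (P a ⊓ Nn P a b) ⊔ Q a

end

/-- symmetry -/
def SymF {G : Type u} {Ω : Type v} [Group G] [MulAction G Ω] (P : Ω → Subgroup G) : Prop :=
  ∀ c d : Ω, ∀ y ∈ P c, y • d = d → y ∈ P d

/-- The blocks. -/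
structure Bk {G : Type u} {Ω : Type v} [Group G] [MulAction G Ω] (p : ℕ) (P Q : Ω → Subgroup G) : Prop where
  sym : SymF P
  Kne : ∀ a b : Ω, a ≠ b → Kk P a b ≠ ⊥
  Keq : ∀ a b c d : Ω, a ≠ b → c ≠ d → c ∈ Bl P a b → d ∈ Bl P a b → Kk P c d = Kk P a b
  Kconj : ∀ (g : G) (a b : Ω) (k : G), g * k * g⁻¹ ∈ Kk P (g • a) (g • b) ↔ k ∈ Kk P a b
  Kcard : ∀ a b c d : Ω, a ≠ b → c ≠ d → Nat.card (Kk P c d) = Nat.card (Kk P a b)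
  Blconj : ∀ (g : G) (a b c : Ω), g • c ∈ Bl P (g • a) (g • b) ↔ c ∈ Bl P a b
  memN : ∀ (a b : Ω) (g : G), a ≠ b → (g ∈ Nn P a b ↔ St (Bl P a b) g)
  memN' : ∀ (a b : Ω) (g : G), a ≠ b → g • a ∈ Bl P a b → g • b ∈ Bl P a b → g ∈ Nn P a b
  trN : ∀ a b : Ω, a ≠ b → ∀ d ∈ Bl P a b, ∀ e ∈ Bl P a b, d ≠ a → e ≠ a →
    ∃ y ∈ P a ⊓ Nn P a b, ∃ x ∈ Q a, (y * x) • d = e
  QC : ∀ a b : Ω, Q a ≤ Cc P a b
  ZC : ∀ a b : Ω, a ≠ b → ∀ c ∈ Bl P a b, Zz P c ≤ Cc P a b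
  Zne : ∀ a : Ω, Zz P a ≠ ⊥
  Zreg : ∀ a c : Ω, c ≠ a → ∀ z ∈ Zz P a, z • c = c → z = 1
  split : ∀ a b : Ω, a ≠ b → ∀ y ∈ P a, ∀ x ∈ Q a, (y * x) • b = b → y • b = b ∧ x • b = b
  out : ∀ a b : Ω, a ≠ b → ∃ y ∈ P a, y ∉ Nn P a b
  out2 : ∀ a b : Ω, a ≠ b → ∃ y ∈ P a, y ∉ Nn P a b ∧ ∀ n ∈ P a ⊓ Nn P a b, y * n * y⁻¹ ∈ P a ⊓ Nn P a b
  evenB : ∀ a b : Ω, a ≠ b → Even (Bl P a b).ncard
  modB : ∀ a b : Ω, a ≠ b → (Bl P a b).ncard % p = 1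
  fourB : ∀ a b : Ω, a ≠ b → 4 ≤ (Bl P a b).ncard
  modO : Nat.card Ω % p = 1
  pfix : ∀ a b : Ω, a ≠ b → ∀ R : Subgroup G, IsPGroup p R → (∀ r ∈ R, St (Bl P a b) r) →
    ∃ e ∈ Bl P a b, ∀ r ∈ R, r • e = e
  numB : ∀ a b : Ω, a ≠ b → {X : Subgroup G | ∃ e : Ω, e ≠ a ∧ X = Kk P a e}.ncard * Nat.card ↥(P b ⊓ Nn P a b) =
    Nat.card (P b)

/-- The elements centralising `K`. -/
structure Lw {G : Type u} {Ω : Type v} [Group G] [MulAction G Ω] (p : ℕ) (P Q : Ω → Subgroup G) : Prop where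
  Qreg : ∀ a b : Ω, a ≠ b → ∀ x ∈ Q a, x • b = b → x = 1
  CW : ∀ a b : Ω, a ≠ b → ∀ g ∈ Cc P a b, Pw (Bl P a b) g → g ∈ Kk P a b
  AB : ∀ a b : Ω, a ≠ b → ∀ x : G, x • a = a → ¬ p ∣ orderOf x → (∀ n ∈ P a ⊓ Nn P a b, n * x = x * n) →
    ∀ y ∈ P a, y * x = x * y
  trC : ∀ a b : Ω, a ≠ b → ∀ x : G, x • a = a → x • b = b → ¬ p ∣ orderOf x → ∀ e : Ω, e ≠ a → x • e = e →
    ∃ y ∈ P a, ∃ q ∈ Q a, y * x = x * y ∧ q * x = x * q ∧ (y * q) • b = e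
  PP : ∀ a b : Ω, a ≠ b → ∀ x ∈ Cc P a b, x ≠ 1 → x • a = a → x • b = b → ¬ p ∣ orderOf x →
    (∀ c : Ω, x • c = c → c ∈ Bl P a b) ∧ ∀ y ∈ P a, y * x = x * y → y ∈ Nn P a b

/-- No involution centralising `K` fixes a point of the block. -/
def NoA {G : Type u} {Ω : Type v} [Group G] [MulAction G Ω] (P : Ω → Subgroup G) : Prop :=
  ∀ a b : Ω, a ≠ b → ∀ s ∈ Cc P a b, s * s = 1 → s ≠ 1 → ∀ c ∈ Bl P a b, s • c ≠ c

/-- The involution `u`. -/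
structure Cb {G : Type u} {Ω : Type v} [Group G] [MulAction G Ω] (P Q : Ω → Subgroup G) (a b : Ω) (u : G) : Prop where
  ne : a ≠ b
  fpf : Fpf a b u
  uC : u ∈ Cc P a b
  free : ∀ s ∈ Cc P a b, s * s = 1 → s ≠ 1 → ∀ c : Ω, s • c ≠ c
  inC : ∀ s ∈ Gs P Q a b, s * s = 1 → s ∈ Cc P a b
  oddS : ∀ g ∈ Gs P Q a b, g • a = a → Odd (orderOf g)
  GsN : Gs P Q a b ≤ Nn P a b
  nrm : ∀ g ∈ Nn P a b, ∀ x ∈ Gs P Q a b, g * x * g⁻¹ ∈ Gs P Q a b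
  Ctr : ∀ c ∈ Bl P a b, ∃ g ∈ Cc P a b, g • a = c

/-- The elements of `C` inverted by `u` and fixing `a`, `b`. -/
def Iv {G : Type u} {Ω : Type v} [Group G] [MulAction G Ω] (P : Ω → Subgroup G) (a b : Ω) (u x : G) : Prop :=
  x • a = a ∧ x • b = b ∧ x ∈ Cc P a b ∧ u * x * u⁻¹ = x⁻¹

/-- The affine block. -/
structure Ab {G : Type u} {Ω : Type v} [Group G] [MulAction G Ω] (P : Ω → Subgroup G) (a b : Ω) (u : G)
    (V : Subgroup G) : Prop where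
  le : V ≤ Cc P a b
  mem : u ∈ V
  sq : ∀ v ∈ V, v * v = 1
  nrm : ∀ g ∈ Nn P a b, ∀ v ∈ V, g * v * g⁻¹ ∈ V
  tr : ∀ c ∈ Bl P a b, ∃ v ∈ V, v • a = c

/-- The torus. -/
structure Tor {G : Type u} {Ω : Type v} [Group G] [MulAction G Ω] (p : ℕ) (P : Ω → Subgroup G) (a b : Ω) (u : G)
    (D : Subgroup G) : Prop where
  mem : ∀ x : G, x ∈ D ↔ Iv P a b u x
  cyc : IsCyclic D
  ne : D ≠ ⊥
  odd : Odd (Nat.card D)
  cop : ¬ p ∣ Nat.card D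
  fix : ∀ x ∈ D, x ≠ 1 → ∀ c : Ω, x • c = c → c = a ∨ c = b
  nrm : ∀ g : G, (g • a = a ∧ g • b = b) ∨ (g • a = b ∧ g • b = a) → ∀ x ∈ D, g * x * g⁻¹ ∈ D

/-- The linear block. -/
structure Lin {G : Type u} {Ω : Type v} [Group G] [MulAction G Ω] (P Q : Ω → Subgroup G) (a b : Ω)
    (D : Subgroup G) : Prop where
  Q1 : ∀ c : Ω, Q c = ⊥
  cardB : (Bl P a b).ncard = 2 * Nat.card D + 2
  cardZ : Nat.card (Zz P a) = 2 * Nat.card D + 1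
  Ztr : ∀ e ∈ Bl P a b, e ≠ a → ∃ z ∈ Zz P a, z • b = e
  N1 : ∀ y ∈ P a ⊓ Nn P a b, ∃ k ∈ Kk P a b, ∃ z ∈ Zz P a, y = k * z
  orb : ∀ v ∈ Zz P a, v ≠ 1 → ∀ z ∈ Zz P a, z ≠ 1 → ∃ x ∈ D, z = x * v * x⁻¹ ∨ z = x * v⁻¹ * x⁻¹
  norb : ∀ v ∈ Zz P a, v ≠ 1 → ∀ x ∈ D, x * v * x⁻¹ ≠ v⁻¹
  CD : ∀ x ∈ D, x ≠ 1 → ∀ y ∈ P a, y * x = x * y → y ∈ Kk P a b

/-- trivial intersection -/
structure Ti {G : Type u} {Ω : Type v} [Group G] [MulAction G Ω] (P : Ω → Subgroup G) (a b : Ω) : Prop where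
  fix : ∀ k ∈ Kk P a b, k ≠ 1 → ∀ c : Ω, k • c = c → c ∈ Bl P a b
  ab : ∀ k ∈ Kk P a b, ∀ k' ∈ Kk P a b, k * k' = k' * k

/-- The kernel on the block. -/
structure Wf (G : Type u) {Ω : Type v} [Group G] [MulAction G Ω] (P : Ω → Subgroup G) (a b : Ω) : Prop where
  wf : ∀ y : G, Pw (Bl P a b) y → ∀ k ∈ Kk P a b, k ≠ 1 → y * k = k * y → y ∈ Kk P a b
  sol : Group.IsSolvable (stab2 G a b)

/-- The involutions without fixed points that interchange `a` and `b`. -/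
def Hs {G : Type u} {Ω : Type v} [Group G] [MulAction G Ω] (P : Ω → Subgroup G) (a b : Ω) (u : G)
    (D : Subgroup G) : Prop :=
  ∀ s : G, Fpf a b s → ∃ x ∈ D, ∃ w : G, Pw (Bl P a b) w ∧ w * w ∈ Kk P a b ∧ u * s = x * w

/-- `H = K D` -/
def H1 (G : Type u) {Ω : Type v} [Group G] [MulAction G Ω] (P : Ω → Subgroup G) (a b : Ω) (D : Subgroup G) : Prop :=
  ∀ h ∈ stab2 G a b, ∃ k ∈ Kk P a b, ∃ x ∈ D, h = k * x

/-- `H = K D ⟨w⟩` -/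
def H2 (G : Type u) {Ω : Type v} [Group G] [MulAction G Ω] (P : Ω → Subgroup G) (a b : Ω) (D : Subgroup G) : Prop :=
  ∃ w : G, w * w = 1 ∧ w ≠ 1 ∧ Pw (Bl P a b) w ∧
    ∀ h ∈ stab2 G a b, ∃ k ∈ Kk P a b, ∃ x ∈ D, h = k * x ∨ h = k * x * w

/-- A statement about all minimal counterexamples. -/
def All (F : ∀ (G : Type u) (Ω : Type v) [Group G] [MulAction G Ω], ℕ → (Ω → Subgroup G) → (Ω → Subgroup G) → Prop) :
    Prop :=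
  ∀ (G : Type u) (Ω : Type v) [Group G] [Finite G] [Finite Ω] [MulAction G Ω] (p : ℕ) (P Q : Ω → Subgroup G),
    Ks G Ω p P Q → F G Ω p P Q

def RedE : Prop := AffE.{u, v} → All.{u, v} (fun _ _ _ _ _ _ _ => False) → KSeven.{u, v}

def SymS : Prop := All.{u, v} fun _ _ _ _ _ P _ => SymF P

def BkS : Prop := All.{u, v} fun _ _ _ _ p P Q => SymF P → Bk p P Q

def LwS : Prop := All.{u, v} fun _ _ _ _ p P Q => Bk p P Q → Lw p P Q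

def NoAS : Prop := All.{u, v} fun _ _ _ _ p P Q => Bk p P Q → Lw p P Q → NoA P

def CbS : Prop := All.{u, v} fun _ _ _ _ p P Q => Bk p P Q → Lw p P Q → NoA P → ∀ a b, a ≠ b → ∃ u, Cb P Q a b u

def AbS : Prop := All.{u, v} fun _ _ _ _ p P Q => Bk p P Q → Lw p P Q → ∀ a b u, Cb P Q a b u →
  (∀ x, Iv P a b u x → x = 1) → ∃ V, Ab P a b u V

def AbF : Prop := All.{u, v} fun _ _ _ _ p P Q => Bk p P Q → Lw p P Q → ∀ a b u V, Cb P Q a b u → Ab P a b u V → False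

def IvS : Prop := All.{u, v} fun _ _ _ _ p P Q => Bk p P Q → Lw p P Q → ∀ a b u, Cb P Q a b u →
  ∀ x, Iv P a b u x → x ≠ 1 → ¬ p ∣ orderOf x ∧ ∀ c, x • c = c → c = a ∨ c = b

def TorS : Prop := All.{u, v} fun _ _ _ _ p P Q => Bk p P Q → Lw p P Q → ∀ a b u, Cb P Q a b u →
  (∀ x, Iv P a b u x → x ≠ 1 → ¬ p ∣ orderOf x ∧ ∀ c, x • c = c → c = a ∨ c = b) →
  (∃ x, Iv P a b u x ∧ x ≠ 1) → ∃ D, Tor p P a b u D

def ZasS : Prop := All.{u, v} fun _ _ _ _ p P Q => Bk p P Q → Lw p P Q → ∀ a b u D, Cb P Q a b u → Tor p P a b u D →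
  (Bl P a b).ncard = 2 * Nat.card D + 2 ∧ ∃ f : ℕ, (Bl P a b).ncard = p ^ f + 1

def LinS : Prop := All.{u, v} fun _ _ _ _ p P Q => Bk p P Q → Lw p P Q → ∀ a b u D, Cb P Q a b u → Tor p P a b u D →
  (Bl P a b).ncard = 2 * Nat.card D + 2 → (∃ f : ℕ, (Bl P a b).ncard = p ^ f + 1) → Lin P Q a b D ∧ Ti P a b

def WfS : Prop := All.{u, v} fun G _ _ _ p P Q => Bk p P Q → Lw p P Q → ∀ a b u D, Cb P Q a b u → Tor p P a b u D →
  Lin P Q a b D → Ti P a b → Wf G P a b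

def HsS : Prop := All.{u, v} fun _ _ _ _ p P Q => Bk p P Q → Lw p P Q → ∀ a b u D, Cb P Q a b u → Tor p P a b u D →
  Lin P Q a b D → Hs P a b u D

def H0S : Prop := All.{u, v} fun G _ _ _ p P Q => Bk p P Q → Lw p P Q → ∀ a b u D, Cb P Q a b u → Tor p P a b u D →
  Lin P Q a b D → Ti P a b → Wf G P a b → Hs P a b u D → H1 G P a b D ∨ H2 G P a b D

def H1F : Prop := All.{u, v} fun G _ _ _ p P Q => Bk p P Q → Lw p P Q → ∀ a b u D, Cb P Q a b u → Tor p P a b u D →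
  Lin P Q a b D → Ti P a b → H1 G P a b D → False

def H2F : Prop := All.{u, v} fun G _ _ _ p P Q => Bk p P Q → Lw p P Q → ∀ a b u D, Cb P Q a b u → Tor p P a b u D →
  Lin P Q a b D → Ti P a b → H2 G P a b D → False

theorem ksEven_of (red : RedE.{u, v}) (aff : AffE.{u, v}) (sym : SymS.{u, v}) (bk : BkS.{u, v}) (lw : LwS.{u, v})
    (noA : NoAS.{u, v}) (cb : CbS.{u, v}) (abS : AbS.{u, v}) (abF : AbF.{u, v}) (iv : IvS.{u, v}) (tor : TorS.{u, v})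
    (zas : ZasS.{u, v}) (lin : LinS.{u, v}) (wf : WfS.{u, v}) (hs : HsS.{u, v}) (h0 : H0S.{u, v}) (h1 : H1F.{u, v})
    (h2 : H2F.{u, v}) : KSeven.{u, v} := by
  refine red aff fun G Ω _ _ _ _ p P Q h => ?_
  have b := bk G Ω p P Q h (sym G Ω p P Q h)
  have l := lw G Ω p P Q h b
  obtain ⟨x, y, hxy, -⟩ := h.ne
  obtain ⟨u, c⟩ := cb G Ω p P Q h b l (noA G Ω p P Q h b l) x y hxy
  by_cases e : ∀ z, Iv P x y u z → z = 1
  · obtain ⟨V, hV⟩ := abS G Ω p P Q h b l x y u c e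
    exact abF G Ω p P Q h b l x y u V c hV
  · push Not at e
    obtain ⟨D, t⟩ := tor G Ω p P Q h b l x y u c (iv G Ω p P Q h b l x y u c) e
    obtain ⟨z1, z2⟩ := zas G Ω p P Q h b l x y u D c t
    obtain ⟨li, ti⟩ := lin G Ω p P Q h b l x y u D c t z1 z2
    rcases h0 G Ω p P Q h b l x y u D c t li ti (wf G Ω p P Q h b l x y u D c t li ti)
      (hs G Ω p P Q h b l x y u D c t li) with e | e
    · exact h1 G Ω p P Q h b l x y u D c t li ti e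
    · exact h2 G Ω p P Q h b l x y u D c t li ti e

/-! ### Odd degree -/

/-- The local form of the statement in odd degree: subsets carrying a four-group without further fixed points. -/
def LocO {G : Type u} (Ω : Type v) [Group G] [MulAction G Ω] (a : Ω) (U : Subgroup G) : Prop :=
  ∀ Φ : Set Ω, a ∈ Φ → Φ ≠ Set.univ →
    (∀ d ∈ Φ, ∀ e ∈ Φ, d ≠ a → e ≠ a → ∃ y ∈ U, St Φ y ∧ y • d = e) → (∃ g : G, St Φ g ∧ g • a ≠ a) →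
    (∃ x ∈ U, ∃ y ∈ U, St Φ x ∧ St Φ y ∧ x * x = 1 ∧ y * y = 1 ∧ x * y = y * x ∧
      ∀ c : Ω, x • c = c ∨ y • c = c ∨ (x * y) • c = c → c = a) →
    ∀ y ∈ U, St Φ y → ∀ b ∈ Φ, b ≠ a → y • b = b → Pw Φ y

/-- The normal subgroup `L` with a strongly embedded point stabiliser. -/
structure Oa (G : Type u) (Ω : Type v) [Group G] [MulAction G Ω] (a : Ω) (U L Z : Subgroup G) : Prop where
  Ln : L.Normal
  t2 : ∀ {x y x' y' : Ω}, x ≠ y → x' ≠ y' → ∃ g ∈ L, g • x = x' ∧ g • y = y'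
  ZU : Z ≤ U
  ZL : Z ≤ L
  Zc : ∀ z ∈ Z, ∀ y ∈ U, y * z = z * y
  Zsq : ∀ z ∈ Z, z * z = 1
  four : 4 ≤ Nat.card Z
  inv : ∀ s ∈ L, s * s = 1 → s • a = a → s ∈ Z
  one : ∀ s ∈ L, s * s = 1 → s ≠ 1 → ∀ c d : Ω, s • c = c → s • d = d → c = d
  gen : ∀ M : Subgroup G, (∀ s ∈ L, s * s = 1 → s ∈ M) → L ≤ M
  two : IsPGroup 2 U

/-- The involution `k` outside `L`. -/
structure Ob (G : Type u) (Ω : Type v) [Group G] [MulAction G Ω] (a b : Ω) (L S Z : Subgroup G) (t k : G) : Prop where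
  faith : Fa G Ω
  ne : a ≠ b
  Ln : L.Normal
  t2 : ∀ {x y x' y' : Ω}, x ≠ y → x' ≠ y' → ∃ g ∈ L, g • x = x' ∧ g • y = y'
  tL : t ∈ L
  tt : t * t = 1
  ta : t • a = b
  SL : S ≤ L
  Sa : S ≤ stabilizer G a
  Sn : ∀ g ∈ stabilizer G a, ∀ y ∈ S, g * y * g⁻¹ ∈ S
  S2 : IsPGroup 2 S
  Str : ∀ c : Ω, c ≠ a → ∃ y ∈ S, y • b = c
  Sreg : ∀ y ∈ S, ∀ c : Ω, c ≠ a → y • c = c → y = 1
  oddD : Odd (Nat.card ↥(L ⊓ stab2 G a b))
  ZS : Z ≤ S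
  Zc : ∀ z ∈ Z, ∀ y ∈ S, y * z = z * y
  Zsq : ∀ z ∈ Z, z * z = 1
  four : 4 ≤ Nat.card Z
  inv : ∀ s ∈ L, s * s = 1 → s • a = a → s ∈ Z
  gen : ∀ M : Subgroup G, (∀ s ∈ L, s * s = 1 → s ∈ M) → L ≤ M
  kk : k * k = 1
  k1 : k ≠ 1
  ka : k • a = a
  kb : k • b = b
  kZ : ∀ z ∈ Z, k * z = z * k
  kD : ∀ d ∈ L ⊓ stab2 G a b, k * d = d * k
  kt : k * t = t * k
  loc : ∀ w ∈ L ⊓ stab2 G a b, w ≠ 1 → (∀ z ∈ Z, w * z = z * w) → ∀ y ∈ S, y * w = w * y → y * k = k * y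

/-- The rank one set-up of `L`. -/
structure Os (G : Type u) (Ω : Type v) [Group G] [MulAction G Ω] (a b : Ω) (L S Z : Subgroup G) (t : G) : Prop where
  setup : ∀ ht : t ∈ L, IsRankOneSetup L Ω a ⟨t, ht⟩ (S.subgroupOf L)
  Dtr : ∀ z ∈ Z, ∀ z' ∈ Z, z ≠ 1 → z' ≠ 1 → ∃ d ∈ L ⊓ stab2 G a b, t * d * t⁻¹ = d⁻¹ ∧ d * z * d⁻¹ = z'
  cardI : {d : G | d ∈ L ⊓ stab2 G a b ∧ t * d * t⁻¹ = d⁻¹}.ncard + 1 = Nat.card Z
  cardO : Nat.card Ω = Nat.card S + 1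
  cardL : Nat.card L = (Nat.card S + 1) * Nat.card S * Nat.card ↥(L ⊓ stab2 G a b)
  one : ∀ s ∈ L, s * s = 1 → s ≠ 1 → ∀ c d : Ω, s • c = c → s • d = d → c = d

def OsS : Prop := ∀ (G : Type u) (Ω : Type v) [Group G] [Finite G] [Finite Ω] [MulAction G Ω] (a b : Ω)
  (L S Z : Subgroup G) (t k : G), Ob G Ω a b L S Z t k → Os G Ω a b L S Z t

def RedO : Prop := (∀ (G : Type u) (Ω : Type v) [Group G] [Finite G] [Finite Ω] [MulAction G Ω] (a : Ω)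
  (U : Subgroup G), Sp G Ω a U → Fa G Ω → Odd (Nat.card Ω) → ¬ RegN G Ω → LocO Ω a U → Rg Ω a U) → KSodd.{u, v}

def OaS : Prop := ∀ (G : Type u) (Ω : Type v) [Group G] [Finite G] [Finite Ω] [MulAction G Ω] (a : Ω)
  (U : Subgroup G), Sp G Ω a U → Fa G Ω → Odd (Nat.card Ω) → ¬ RegN G Ω → ∃ L Z, Oa G Ω a U L Z

def ObS : Prop := ∀ (G : Type u) (Ω : Type v) [Group G] [Finite G] [Finite Ω] [MulAction G Ω] (a : Ω)
  (U L Z : Subgroup G), Sp G Ω a U → Fa G Ω → Odd (Nat.card Ω) → LocO Ω a U → Oa G Ω a U L Z →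
  Rg Ω a U ∨ ∃ b t k, Ob G Ω a b L (U ⊓ L) Z t k

def OcS : Prop := ∀ (G : Type u) (Ω : Type v) [Group G] [Finite G] [Finite Ω] [MulAction G Ω] (a b : Ω)
  (L S Z : Subgroup G) (t k : G), Ob G Ω a b L S Z t k → Os G Ω a b L S Z t →
  (∀ w ∈ L ⊓ stab2 G a b, (∀ z ∈ Z, w * z = z * w) → w = 1) ∧ ∀ z ∈ Z, ∃ g ∈ L, g * k * g⁻¹ = k * z

def OdS : Prop := ∀ (G : Type u) (Ω : Type v) [Group G] [Finite G] [Finite Ω] [MulAction G Ω] (a b : Ω)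
  (L S Z : Subgroup G) (t k : G), Ob G Ω a b L S Z t k → Os G Ω a b L S Z t →
  (∀ z ∈ Z, ∃ g ∈ L, g * k * g⁻¹ = k * z) →
  Nat.card S = Nat.card Z ^ 3

def OeF : Prop := ∀ (G : Type u) (Ω : Type v) [Group G] [Finite G] [Finite Ω] [MulAction G Ω] (a b : Ω)
  (L S Z : Subgroup G) (t k : G), Ob G Ω a b L S Z t k → Os G Ω a b L S Z t →
  (∀ w ∈ L ⊓ stab2 G a b, (∀ z ∈ Z, w * z = z * w) → w = 1) → Nat.card S = Nat.card Z ^ 3 → False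

theorem ksOdd_of (red : RedO.{u, v}) (oa : OaS.{u, v}) (ob : ObS.{u, v}) (os : OsS.{u, v}) (oc : OcS.{u, v}) 
    (od : OdS.{u, v}) (oe : OeF.{u, v}) : KSodd.{u, v} := by
  refine red fun G Ω _ _ _ _ a U h hf ho hr hl => ?_
  obtain ⟨L, Z, h1⟩ := oa G Ω a U h hf ho hr
  refine (ob G Ω a U L Z h hf ho hl h1).resolve_right ?_
  rintro ⟨b, t, k, h2⟩
  have h3 := os G Ω a b L _ Z t k h2
  obtain ⟨e1, e2⟩ := oc G Ω a b L _ Z t k h2 h3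
  exact oe G Ω a b L _ Z t k h2 h3 e1 (od G Ω a b L _ Z t k h2 h3 e2)

theorem ksAll_of (e : KSeven.{u, v}) (o : KSodd.{u, v}) (af : AffO.{u, v}) : KSall.{u, v} := by
  intro G Ω _ _ _ _ a U h hf
  rcases Nat.even_or_odd (Nat.card Ω) with h1 | h1
  · exact .inl (e G Ω a U h h1)
  · by_cases r : RegN G Ω
    · exact (af G Ω a U h hf r h1).imp id fun x => ⟨r, h1, x⟩
    · exact .inl (o G Ω a U h hf h1 r)

end CL.Perm.Hks
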