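/-
Project HKS: the affine block does not occur.
-/
import Cfsg.Agent.Perm.HksDefs
import Cfsg.Agent.Perm.KosEig
import Cfsg.Agent.Perm.KosCfg
import Cfsg.Agent.Perm.KosQuo
import Cfsg.Agent.S0058

set_option autoImplicit false
set_option linter.unusedSectionVars false

namespace CL.Perm.Hks

open MulAction Cfsg Subgroup CL.Perm.V4 CL.Perm.V4D CL.Perm.Kos

universe u v

namespace AbF

variable {G : Type u} {Ω : Type v} [Group G] [Finite G] [Finite Ω] [MulAction G Ω] {a b : Ω} {u z : G}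

/-- The conjugates of `z` correspond to the points; the products of two of them are conjugates of `z ^ 2`. -/
theorem regN (t2 : T2 G Ω) (ab : a ≠ b) (ua : u • a = b) (za : z • a = a) (zf : ∀ c : Ω, z • c = c → c = a)
    (zc : ∀ g : G, g • a = a → g * z = z * g) (hp : IsConj (z * z) (z * (u * z * u⁻¹))) : RegN G Ω := by
  have uniq : ∀ g k : G, g • a = k • a → g * z * g⁻¹ = k * z * k⁻¹ := fun g k e => by
    have := zc (k⁻¹ * g) (by rw [mul_smul, e, inv_smul_smul])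
    calc g * z * g⁻¹ = k * (k⁻¹ * g * z) * g⁻¹ := by group
      _ = _ := by rw [this]; group
  have prod : ∀ s r : G, IsConj z s → IsConj z r → IsConj (z * z) (s * r) := fun s r hs hr => by
    obtain ⟨g, rfl⟩ := isConj_iff.1 hs
    obtain ⟨k, rfl⟩ := isConj_iff.1 hr
    by_cases e : g • a = k • a
    · exact isConj_iff.2 ⟨k, by rw [uniq g k e, conj_mul]⟩
    · obtain ⟨l, l1, l2⟩ := t2 ab e
      refine hp.trans (isConj_iff.2 ⟨l, ?_⟩)
      rw [uniq g l l1.symm, uniq k (l * u) (by rw [mul_smul, ua, l2])]; group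
  have key : ∀ s : G, IsConj z s → ∀ r : G, IsConj (z * z) (s * r) ↔ IsConj z r := fun s hs r => by
    refine ⟨fun e => ?_, prod s r hs⟩
    have e1 : (s * ·) '' {r | IsConj z r} = {r | IsConj (z * z) r} := Set.eq_of_subset_of_ncard_le (by
      rintro _ ⟨r, hr, rfl⟩; exact prod s r hs hr) (by
      rw [Set.ncard_image_of_injective _ (mul_right_injective s)]
      refine (Set.ncard_le_ncard (t := (fun r => r * r) '' {r | IsConj z r}) fun r hr => ?_).trans Set.ncard_image_le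
      obtain ⟨g, rfl⟩ := isConj_iff.1 hr
      exact ⟨_, isConj_iff.2 ⟨g, rfl⟩, conj_mul⟩)
    obtain ⟨r', hr', e2⟩ := e1.ge e
    exact mul_left_cancel e2 ▸ hr'
  let R : Subgroup G :=
    { carrier := {g | ∀ s, IsConj z (g * s) ↔ IsConj z s}
      one_mem' := fun s => by rw [one_mul]
      mul_mem' := fun {g k} hg hk s => by rw [mul_assoc, hg, hk]
      inv_mem' := fun {g} hg s => by rw [← hg, mul_inv_cancel_left] }
  have cj : ∀ k s : G, IsConj z (k * s * k⁻¹) ↔ IsConj z s := fun k s =>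
    ⟨fun e => e.trans (isConj_iff.2 ⟨k, rfl⟩).symm, fun e => e.trans (isConj_iff.2 ⟨k, rfl⟩)⟩
  have hR : R.Normal := ⟨fun g hg k s => by
    rw [show k * g * k⁻¹ * s = k * (g * (k⁻¹ * s * k⁻¹⁻¹)) * k⁻¹ by group, cj, hg, cj]⟩
  have r1 : z⁻¹ * (u * z * u⁻¹) ∈ R := fun s => by
    rw [← key z (IsConj.refl z), mul_assoc z⁻¹, mul_inv_cancel_left, key _ (isConj_iff.2 ⟨u, rfl⟩)]
  have r2 : a ≠ (z⁻¹ * (u * z * u⁻¹)) • a := fun e => by
    rw [mul_smul, eq_inv_smul_iff, za, mul_smul, mul_smul, ← inv_smul_eq_iff] at e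
    exact ab ((inv_smul_eq_iff.1 (zf _ e.symm)).trans ua)
  refine ⟨R, hR, fun x y => ?_, fun x r hr e => ?_⟩
  · by_cases e : x = y
    · exact ⟨1, one_mem R, by rw [one_smul, e]⟩
    · obtain ⟨g, rfl, rfl⟩ := t2 r2 e
      exact ⟨_, hR.conj_mem _ r1 g, conj_smul_smul _ _ _⟩
  · obtain ⟨g, rfl⟩ : ∃ g : G, g • a = x := by
      by_cases e : x = a
      · exact ⟨1, by rw [one_smul, e]⟩
      · exact (t2 ab e).imp fun _ => And.left
    obtain ⟨k, hk⟩ := isConj_iff.1 ((hr _).2 (isConj_iff.2 ⟨g, rfl⟩))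
    have e1 : (k * z * k⁻¹) • g • a = g • a := by rw [hk, mul_smul, conj_smul_smul, za, e]
    rw [mul_smul, mul_smul, ← eq_inv_smul_iff] at e1
    rw [← uniq g k (inv_smul_eq_iff.1 (zf _ e1))] at hk
    simpa using hk

variable {p : ℕ} {P Q : Ω → Subgroup G} {V : Subgroup G} (h : Ks G Ω p P Q) (bk : Bk p P Q) (lw : Lw p P Q)
  (c : Cb P Q a b u) (A : Ab P a b u V)
include h bk lw c A

omit bk lw c A in
theorem aB : a ∈ Bl P a b := fun k hk => h.Pfix a k hk.1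

omit h bk lw c A in
theorem bB : b ∈ Bl P a b := fun _ hk => hk.2

omit h bk lw c in
theorem comm {v w : G} (hv : v ∈ V) (hw : w ∈ V) : v * w = w * v := by
  rw [← inv_eq_of_mul_eq_one_right (A.sq _ (mul_mem hv hw)), mul_inv_rev, inv_eq_of_mul_eq_one_right (A.sq v hv),
    inv_eq_of_mul_eq_one_right (A.sq w hw)]

omit h bk lw in
theorem reg {v w : G} (hv : v ∈ V) (hw : w ∈ V) {x : Ω} (e : v • x = w • x) : v = w := by
  have h1 := mul_mem (inv_mem hw) hv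
  exact (inv_mul_eq_one.1 (by_contra fun e' => c.free _ (A.le h1) (A.sq _ h1) e' x (by
    rw [mul_smul, e, inv_smul_smul]))).symm

omit lw in
theorem conj_u {g v : G} (ga : g • a = a) (gb : g • b ∈ Bl P a b) (hv : v ∈ V) (e : v • a = g • b) :
    g ∈ Nn P a b ∧ g * u * g⁻¹ = v := by
  have hg := bk.memN' a b g c.ne (ga.symm ▸ aB h) gb
  exact ⟨hg, reg c A (A.nrm g hg u A.mem) hv (by rw [e, ← c.fpf.ua, ← conj_smul_smul g u a, ga])⟩

omit lw A in
theorem ZN : Zz P a ≤ Nn P a b := (bk.ZC a b c.ne a (aB h)).trans (centralizer_le_normalizer _)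

omit lw in
theorem fpf (hz : z ∈ Zz P a) (z1 : z ≠ 1) {v : G} (hv : v ∈ V) (e : v * z = z * v) : v = 1 :=
  by_contra fun v1 => z1 (bk.Zreg a (v • a) (c.free v (A.le hv) (A.sq v hv) v1 a) z hz (by
    rw [← mul_smul, ← e, mul_smul, h.Pfix a z hz.1]))

omit bk lw c A in
theorem cop : (Nat.card (Zz P a)).Coprime 2 := by
  have := Fact.mk h.prime
  obtain ⟨n, hn⟩ := ((h.Pp a).to_inf_left (K := centralizer (P a : Set G))).exists_card_eq
  exact hn ▸ ((Nat.coprime_primes h.prime Nat.prime_two).2 h.odd).pow_left n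

omit lw in
theorem cyc : IsCyclic (Zz P a) := by
  by_contra e
  have : IsMulCommutative (Zz P a) := ⟨⟨fun x y => Subtype.ext (y.2.2 x x.2.1)⟩⟩
  have := Fact.mk Nat.prime_two
  obtain ⟨n, hn⟩ := (show IsPGroup 2 V from fun v => ⟨1, Subtype.ext (by
    simpa [pow_two] using A.sq v v.2)⟩).exists_card_eq
  have h1 := Cfsg.Agent.S0058.result (Zz P a) V e (fun g hg => mem_normalizer_fintype fun v hv =>
    A.nrm g (ZN h bk c hg) v hv) (hn ▸ (cop h).pow_right n)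
  have h2 : V ≤ ⊥ := h1.ge.trans (iSup₂_le fun z hz v hv => fpf h bk c A hz.1 hz.2 hv.1 (mem_Ce.1 hv.2))
  exact c.ne (by rw [← c.fpf.ua, mem_bot.1 (h2 A.mem), one_smul])

theorem pw {s : G} (hs : IsConj u s) (sa : s • a = b) : Pw (Bl P a b) (u * s) := by
  have s2 := sq_of_isConj c.fpf.sq hs
  have ka : (u * s) • a = a := by rw [mul_smul, sa, c.fpf.ub]
  have kb : (u * s) • b = b := by rw [mul_smul, swap_of_sq s2 sa, c.fpf.ua]
  obtain ⟨kN, ku⟩ := conj_u h bk c A ka (kb.symm ▸ bB) A.mem (c.fpf.ua.trans kb.symm)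
  obtain ⟨k, hk⟩ : ∃ k, k = u * s := ⟨_, rfl⟩
  obtain rfl : s = u * k := by rw [hk, ← mul_assoc, c.fpf.sq, one_mul]
  rw [← hk] at ka kb kN ku ⊢
  have k2 : k * k = 1 := by
    rwa [mul_assoc, ← mul_assoc k, mul_inv_eq_iff_eq_mul.1 ku, mul_assoc, ← mul_assoc u, c.fpf.sq, one_mul] at s2
  intro x hx
  obtain ⟨v, hv, rfl⟩ := A.tr x hx
  have h1 := A.nrm k kN v hv
  have h2 := mul_mem hv h1
  have h3 : k * (v * (k * v * k⁻¹)) = v * (k * v * k⁻¹) * k := by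
    nth_rw 2 [comm A hv h1]
    simp only [inv_eq_of_mul_eq_one_right k2, mul_assoc]
  by_contra e
  have h4 : (v * (k * v * k⁻¹)) • a ≠ a := fun e' => e (by
    rw [mul_smul, ← eq_inv_smul_iff, inv_eq_of_mul_eq_one_right (A.sq v hv)] at e'
    rw [← conj_smul_smul, ka, e'])
  obtain ⟨y, hy, q, hq, yk, qk, e1⟩ := lw.trC a b c.ne k ka kb (fun e => h.odd ((Nat.prime_dvd_prime_iff_eq h.prime
    Nat.prime_two).1 (e.trans (orderOf_dvd_of_pow_eq_one (by rw [pow_two, k2]))))) _ h4 (by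
      rw [← mul_smul, h3, mul_smul, ka])
  obtain ⟨gN, gu⟩ := conj_u h bk c A (g := y * q) (by rw [mul_smul, h.Qfix a q hq, h.Pfix a y hy])
    (e1 ▸ (bk.memN a b _ c.ne).1 (centralizer_le_normalizer _ (A.le h2)) a (aB h)) h2 e1.symm
  have gk : y * q * k = k * (y * q) := (show Commute y k from yk).mul_left qk
  generalize y * q = g at gN gu gk
  have h5 := A.nrm _ (inv_mem gN) v hv
  have h6 : u = g⁻¹ * v * g⁻¹⁻¹ * (k * (g⁻¹ * v * g⁻¹⁻¹) * k⁻¹) :=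
    calc u = g⁻¹ * (g * u * g⁻¹) * g := by group
      _ = g⁻¹ * v * (g * k * g⁻¹) * v * (g * k * g⁻¹)⁻¹ * g := by rw [gu, gk]; group
      _ = _ := by group
  generalize g⁻¹ * v * g⁻¹⁻¹ = w at h5 h6
  refine c.fpf.free_of_isConj hs (w • a) ?_
  rw [mul_smul, ← conj_smul_smul k w a, ka, ← mul_smul, h6, mul_assoc, A.sq _ (A.nrm k kN w h5), mul_one]

omit lw A in
theorem Z_conj {g : G} (ga : g • a = a) (hz : z ∈ Zz P a) : g * z * g⁻¹ ∈ Zz P a :=
  ⟨ga ▸ h.Pc g a z hz.1, fun y hy => by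
    have := hz.2 _ (inv_smul_eq_iff.2 ga.symm ▸ h.Pc g⁻¹ a y hy)
    calc y * (g * z * g⁻¹) = g * (g⁻¹ * y * g⁻¹⁻¹ * z) * g⁻¹ := by group
      _ = _ := by rw [this]; group⟩

omit lw A in
theorem pw_comm {k : G} (hk : Pw (Bl P a b) k) (hz : z ∈ Zz P a) : k * z = z * k := by
  have := bk.Zreg a b c.ne.symm _ (mul_mem hz (Z_conj h bk c (hk a (aB h)) (inv_mem hz))) (by
    rw [mul_smul, mul_smul, mul_smul, inv_smul_eq_iff.2 (hk b bB).symm,
      hk _ ((bk.memN a b _ c.ne).1 (inv_mem (ZN h bk c hz)) b bB), smul_inv_smul])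
  calc k * z = z * (k * z⁻¹ * k⁻¹) * (k * z) := by rw [this, one_mul]
    _ = _ := by group

theorem cent (e : zpowers z = Zz P a) (z1 : z ≠ 1) {g : G} (ga : g • a = a) : g * z = z * g := by
  have hz : z ∈ Zz P a := e ▸ mem_zpowers z
  have nz : ∀ g : stabilizer G a, (g : G) ∈ Nz z := fun g => mem_normalizer_fintype fun x hx =>
    show _ ∈ zpowers z from e ▸ Z_conj h bk c g.2 (e ▸ hx)
  by_contra e1
  obtain ⟨l, l1, l2⟩ := cfg_lam (N := (Ce z).subgroupOf (stabilizer G a)) (k := ⟨g, ga⟩)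
    (commutator_le.2 fun x _ y _ => mem_Ce.2 (by
      show x.1 * y.1 * x.1⁻¹ * y.1⁻¹ * z = z * (x.1 * y.1 * x.1⁻¹ * y.1⁻¹)
      calc _ = x.1 * y.1 * (x.1⁻¹ * y.1⁻¹ * z * (x.1⁻¹ * y.1⁻¹)⁻¹) * x.1⁻¹ * y.1⁻¹ := by group
        _ = _ := by rw [Nz_comm (inv_mem (nz x)) (inv_mem (nz y))]; group)) fun e => e1 (mem_Ce.1 e)
  obtain ⟨χ, hχ⟩ := eig G Ω a b u z l h.t2 c.ne
    (by have := (bk.fourB a b c.ne).trans (Set.ncard_le_card _); omega) c.fpf
    (fun s k h1 h2 h3 => l1 k (mem_Ce.2 (show (k : G) * z = z * k from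
      h3 ▸ pw_comm h bk c (pw h bk lw c A h1 h2) hz))) (h.Pfix a z hz.1)
    (fun x hx => by_contra fun e => z1 (bk.Zreg a x e z hz hx)) fun x y hx hy => by
      obtain ⟨m, hm, q, hq, e⟩ := h.tr a x y hx hy
      exact ⟨_, (show Commute m z from hz.2 m hm).mul_left (h.comm a z hz.1 q hq).symm, e⟩
  have tr : ∀ x : Ω, ∃ k : G, k • x = a := fun x => by
    by_cases e : x = a
    · exact ⟨1, by rw [one_smul, e]⟩
    · exact (h.t2 e c.ne).imp fun _ => And.left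
  have k1 : ∀ y : G, y • a = a → y * z = z * y → ∀ k x : G, k * x * k⁻¹ = y → x ∈ χ.ker := fun y ya yz k x e =>
    ((inferInstance : χ.ker.Normal).mem_comm (by
      rw [mul_assoc] at e
      exact e ▸ (hχ ⟨y, ya⟩).trans (l1 _ (mem_Ce.2 yz)) : k * (x * k⁻¹) ∈ χ.ker) : _) |> fun e => by simpa using e
  have := h.gen χ.ker inferInstance (fun x y hy => by
      obtain ⟨k, hk⟩ := tr x
      have h1 := hk ▸ h.Pc k x y hy
      exact k1 _ (h.Pfix a _ h1) (hz.2 _ h1) k y rfl) fun x y hy => by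
    obtain ⟨k, hk⟩ := tr x
    have h1 := hk ▸ h.Qc k x y hy
    exact k1 _ (h.Qfix a _ h1) (h.comm a z hz.1 _ h1).symm k y rfl
  exact l2 ((hχ ⟨g, ga⟩).symm.trans (this.ge (mem_top g)))

omit lw in
theorem sq_conj (hz : z ∈ Zz P a) (z1 : z ≠ 1) : IsConj (z * z) (z * (u * z * u⁻¹)) := by
  have h1 := mul_mem hz hz
  have h2 : z * z ≠ 1 := fun e => z1 (orderOf_eq_one_iff.1 (Nat.eq_one_of_dvd_coprimes (cop h)
    ((Zz P a).orderOf_dvd_natCard hz) (orderOf_dvd_of_pow_eq_one (by rw [pow_two, e]))))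
  have h3 := inv_mem (ZN h bk c h1)
  obtain ⟨y, hy⟩ : ∃ y, y = z * z := ⟨_, rfl⟩
  rw [show z * (u * z * u⁻¹) = y * (z⁻¹ * u * z⁻¹⁻¹ * u⁻¹) by rw [hy, mul_assoc z z]; group]
  rw [← hy] at h1 h2 h3 ⊢
  obtain ⟨v, e⟩ := Finite.injective_iff_surjective.1 (show Function.Injective fun v : V =>
      (⟨y⁻¹ * v * y⁻¹⁻¹ * v.1⁻¹, mul_mem (A.nrm _ h3 v v.2) (inv_mem v.2)⟩ : V) from fun v w e => by
    have e : y⁻¹ * v * y⁻¹⁻¹ * v.1⁻¹ = y⁻¹ * w * y⁻¹⁻¹ * w.1⁻¹ := congrArg Subtype.val e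
    refine Subtype.ext (inv_mul_eq_one.1 (fpf h bk c A h1 h2 (mul_mem (inv_mem w.2) v.2) ?_)).symm
    calc (w : G)⁻¹ * v * y = w.1⁻¹ * y * (y⁻¹ * v * y⁻¹⁻¹ * v.1⁻¹) * v := by group
      _ = _ := by rw [e]; group)
    ⟨z⁻¹ * u * z⁻¹⁻¹ * u⁻¹, mul_mem (A.nrm _ (inv_mem (ZN h bk c hz)) u A.mem) (inv_mem A.mem)⟩
  have e : y⁻¹ * v * y⁻¹⁻¹ * v.1⁻¹ = z⁻¹ * u * z⁻¹⁻¹ * u⁻¹ := congrArg Subtype.val e
  exact isConj_iff.2 ⟨v, by rw [← e]; group⟩

end AbF

theorem abF : AbF.{u, v} := by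
  intro G Ω _ _ _ _ p P Q h bk lw a b u V c A
  obtain ⟨z, e⟩ := (Subgroup.isCyclic_iff_exists_zpowers_eq_top _).1 (AbF.cyc h bk c A)
  have hz : z ∈ Zz P a := e ▸ mem_zpowers z
  have z1 : z ≠ 1 := fun e' => bk.Zne a (by rw [← e, e', zpowers_one_eq_bot])
  exact h.nreg (AbF.regN h.t2 c.ne c.fpf.ua (h.Pfix a z hz.1) (fun x hx => by_contra fun e => z1 (bk.Zreg a x e z hz hx))
    (fun g ga => AbF.cent h bk lw c A e z1 ga) (AbF.sq_conj h bk c A hz z1))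

end CL.Perm.Hks
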