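/-
Project HKS (S1145): the blocks of a minimal counterexample.
-/
import Cfsg.Agent.Perm.HksDefs

set_option autoImplicit false
set_option linter.unusedSectionVars false

namespace CL.Perm.Hks

open MulAction Cfsg CL.Perm.V4 CL.Perm.V4D CL.Perm.Kos Subgroup
open scoped Pointwise

universe u v

namespace BkP

variable {G : Type u} {Ω : Type v} [Group G] [Finite G] [Finite Ω] [MulAction G Ω] {p : ℕ} {P Q : Ω → Subgroup G}

theorem card_conj {A B : Subgroup G} (g : G) (h : ∀ x, g * x * g⁻¹ ∈ B ↔ x ∈ A) : Nat.card B = Nat.card A :=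
  (Nat.card_congr ((MulAut.conj g).toEquiv.subtypeEquiv fun x => (h x).symm)).symm

theorem fixc (hp : p.Prime) {R : Subgroup G} (hR : IsPGroup p R) {Φ : Set Ω} (hΦ : ∀ r ∈ R, St Φ r) :
    Φ.ncard ≡ {c | c ∈ Φ ∧ ∀ r ∈ R, r • c = c}.ncard [MOD p] := by
  have := Fact.mk hp
  let S : SubMulAction R Ω := ⟨Φ, fun r _ hc => hΦ r r.2 _ hc⟩
  have := hR.card_modEq_card_fixedPoints S
  rwa [show Nat.card (fixedPoints R S) = Nat.card {c | c ∈ Φ ∧ ∀ r ∈ R, r • c = c} from Nat.card_eq_of_bijective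
    (fun c => ⟨c.1.1, c.1.2, fun r hr => congrArg Subtype.val (c.2 ⟨r, hr⟩)⟩)
    ⟨fun c d e => Subtype.ext (Subtype.ext (congrArg Subtype.val e :)),
      fun c => ⟨⟨⟨c.1, c.2.1⟩, fun r => Subtype.ext (c.2.2 r r.2)⟩, rfl⟩⟩] at this

theorem memb (a b : Ω) : b ∈ Bl P a b := fun _ hk => hk.2

variable (h : Ks G Ω p P Q)
include h

theorem mema (a b : Ω) : a ∈ Bl P a b := fun k hk => h.Pfix a k hk.1

theorem Pconj (g : G) (c : Ω) (y : G) : g * y * g⁻¹ ∈ P (g • c) ↔ y ∈ P c :=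
  ⟨fun e => by simpa [mul_assoc] using h.Pc g⁻¹ _ _ e, h.Pc g c y⟩

theorem Kconj (g : G) (a b : Ω) (k : G) : g * k * g⁻¹ ∈ Kk P (g • a) (g • b) ↔ k ∈ Kk P a b :=
  and_congr (Pconj h g a k) (by simp [mul_smul])

theorem Blconj (g : G) (a b c : Ω) : g • c ∈ Bl P (g • a) (g • b) ↔ c ∈ Bl P a b :=
  ⟨fun e k hk => by simpa [mul_smul] using e _ ((Kconj h g a b k).2 hk), fun e k hk => by
    have := e (g⁻¹ * k * g) ((Kconj h g a b _).1 (by simpa [mul_assoc] using hk))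
    rwa [mul_smul, mul_smul, inv_smul_eq_iff] at this⟩

theorem Kcard (a b c d : Ω) (h1 : a ≠ b) (h2 : c ≠ d) : Nat.card (Kk P c d) = Nat.card (Kk P a b) := by
  obtain ⟨g, rfl, rfl⟩ := h.t2 h1 h2
  exact card_conj g (Kconj h g a b)

theorem Kne (a b : Ω) (h1 : a ≠ b) : Kk P a b ≠ ⊥ := fun e => by
  obtain ⟨c, d, h2, y, y1, y2, y3⟩ := h.ne
  have := Kcard h a b c d h1 h2
  rw [e, card_bot, card_eq_one] at this
  exact y2 (this.le ⟨y1, y3⟩)

theorem QC (a b : Ω) : Q a ≤ Cc P a b := fun x hx k hk => h.comm a k hk.1 x hx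

theorem other (a : Ω) : ∃ b, a ≠ b := by
  obtain ⟨c, d, e, -⟩ := h.ne
  by_cases e' : a = c
  exacts [⟨d, e' ▸ e⟩, ⟨c, e'⟩]

theorem Zne (a : Ω) : Zz P a ≠ ⊥ := fun e => by
  have := Fact.mk h.prime
  obtain ⟨b, hb⟩ := other h a
  have : Nontrivial (P a) := (nontrivial_iff_ne_bot _).2 fun e => Kne h a b hb (eq_bot_iff.2 (e ▸ inf_le_left))
  have := (h.Pp a).center_nontrivial
  obtain ⟨z, hz⟩ := exists_ne (1 : center (P a))
  exact hz (Subtype.ext (Subtype.ext (e.le ⟨z.1.2, fun y hy => congrArg Subtype.val (mem_center_iff.1 z.2 ⟨y, hy⟩)⟩)))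

theorem Zreg (a c : Ω) (hc : c ≠ a) (z : G) (hz : z ∈ Zz P a) (e : z • c = c) : z = 1 := h.faith z fun d => by
  by_cases hd : d = a
  · exact hd ▸ h.Pfix a z hz.1
  obtain ⟨y, hy, x, hx, rfl⟩ := h.tr a c d hc hd
  rw [← mul_smul, ← mul_assoc, ← hz.2 y hy, mul_assoc, h.comm a z hz.1 x hx, ← mul_assoc, mul_smul, e]

theorem split (a b : Ω) (y : G) (hy : y ∈ P a) (x : G) (hx : x ∈ Q a) (e : (y * x) • b = b) : y • b = b ∧ x • b = b := by
  have := Fact.mk h.prime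
  obtain ⟨k, hk⟩ := IsPGroup.iff_orderOf.1 (h.Pp a) ⟨y, hy⟩
  obtain ⟨m, hm⟩ := exists_pow_eq_self_of_coprime (x := y) (n := Nat.card (Q a)) (by
    rw [← orderOf_mk y hy, hk]
    exact ((Nat.Prime.coprime_iff_not_dvd h.prime).2 (h.Qp a)).symm.pow_right k)
  have h1 : y ∈ stabilizer G b := by
    have := pow_mem (pow_mem (show y * x ∈ stabilizer G b from e) (Nat.card (Q a))) m
    rwa [Commute.mul_pow (h.comm a y hy x hx), show x ^ Nat.card (Q a) = 1 from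
      congrArg Subtype.val (pow_card_eq_one' (x := (⟨x, hx⟩ : Q a))), mul_one, hm] at this
  exact ⟨h1, (mul_mem_cancel_left h1).1 (show y * x ∈ stabilizer G b from e)⟩

theorem nc (a : Ω) {R : Subgroup G} (hR : R ≤ P a) (h1 : ∃ y ∈ P a, y ∉ R) :
    ∃ y ∈ P a, y ∉ R ∧ ∀ n ∈ R, y * n * y⁻¹ ∈ R := by
  have := Fact.mk h.prime
  have := (h.Pp a).isNilpotent
  obtain ⟨y, y1, y2⟩ := h1
  obtain ⟨w, w1, w2⟩ := SetLike.exists_of_lt (Group.normalizerCondition_of_isNilpotent (R.subgroupOf (P a))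
    (lt_top_iff_ne_top.2 fun e => y2 (e.ge (mem_top (⟨y, y1⟩ : P a)))))
  exact ⟨w, w.2, w2, fun n hn => (mem_normalizer_iff.1 w1 ⟨n, hR hn⟩).1 hn⟩

theorem fix1 {a b e : Ω} {R : Subgroup G} (hR : R ≤ P a) {w y x : G} (hw : w ∈ R) (hy : y ∈ R) (hx : x ∈ Q a)
    (h1 : (y * x) • e = b) (h2 : ∀ r ∈ R, r • e = e) : w • b = b := by
  have := mul_mem (mul_mem (inv_mem hy) hw) hy
  rw [← h1, ← mul_smul, show w * (y * x) = y * (y⁻¹ * w * y * x) by group, h.comm a _ (hR this) x hx, ← mul_assoc,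
    mul_smul, h2 _ this]

variable (sy : SymF P)
include sy

theorem Keq (a b c d : Ω) (h1 : a ≠ b) (h2 : c ≠ d) (hc : c ∈ Bl P a b) (hd : d ∈ Bl P a b) : Kk P c d = Kk P a b :=
  (eq_of_le_of_card_ge (H := Kk P a b) (K := Kk P c d) (fun k hk => ⟨sy a c k hk.1 (hc k hk), hd k hk⟩) (Kcard h a b c d h1 h2).le).symm

theorem memN' (a b : Ω) (g : G) (h1 : a ≠ b) (ha : g • a ∈ Bl P a b) (hb : g • b ∈ Bl P a b) : g ∈ Nn P a b :=
  mem_normalizer_iff.2 fun k => by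
    rw [← Kconj h g a b k, Keq h sy a b _ _ h1 (fun e => h1 (smul_left_cancel g e)) ha hb]

theorem memN (a b : Ω) (g : G) (h1 : a ≠ b) : g ∈ Nn P a b ↔ St (Bl P a b) g :=
  ⟨fun e c hc k hk => by
    have := hc _ ((mem_normalizer_iff.1 (inv_mem e) k).1 hk)
    rwa [inv_inv, mul_smul, mul_smul, inv_smul_eq_iff] at this,
  fun e => memN' h sy a b g h1 (e a (mema h a b)) (e b (memb a b))⟩

theorem trN (a b : Ω) (h1 : a ≠ b) (d : Ω) (hd : d ∈ Bl P a b) (e : Ω) (he : e ∈ Bl P a b) (d1 : d ≠ a) (e1 : e ≠ a) :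
    ∃ y ∈ P a ⊓ Nn P a b, ∃ x ∈ Q a, (y * x) • d = e := by
  obtain ⟨y, hy, x, hx, rfl⟩ := h.tr a d e d1 e1
  have k := Keq h sy a b a d h1 d1.symm (mema h a b) hd
  have h2 := memN' h sy a d (y * x) d1.symm (by rw [mul_smul, h.Qfix a x hx, h.Pfix a y hy]; exact mema h a d)
    fun z hz => he z (k ▸ hz)
  rw [Nn, k] at h2
  exact ⟨y, ⟨hy, (mul_mem_cancel_right (centralizer_le_normalizer _ (QC h a b hx))).1 h2⟩, x, hx, rfl⟩

theorem out (a b : Ω) (h1 : a ≠ b) : ∃ y ∈ P a, y ∉ Nn P a b := by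
  by_contra! c
  refine Kne h a b h1 (eq_bot_iff.2 fun k hk => h.faith k fun e => ?_)
  by_cases he : e = a
  · exact he ▸ mema h a b k hk
  obtain ⟨y, hy, x, hx, rfl⟩ := h.tr a b e h1.symm he
  exact (memN h sy a b _ h1).1 (mul_mem (c y hy) (centralizer_le_normalizer _ (QC h a b hx))) b (memb a b) k hk

theorem move (a b : Ω) (h1 : a ≠ b) : ∃ w ∈ P a ⊓ Nn P a b, w • b ≠ b := by
  obtain ⟨y, y1, y2⟩ := out h sy a b h1
  obtain ⟨w, w1, w2, w3⟩ := nc h a (R := Kk P a b) inf_le_left ⟨y, y1, fun e => y2 (le_normalizer e)⟩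
  exact ⟨w, ⟨w1, mem_normalizer_fintype w3⟩, fun e => w2 ⟨w1, e⟩⟩

theorem modB (a b : Ω) (h1 : a ≠ b) : (Bl P a b).ncard % p = 1 := by
  obtain ⟨w, w1, w2⟩ := move h sy a b h1
  have := fixc h.prime ((h.Pp a).to_le (inf_le_left (b := Nn P a b))) fun r hr => (memN h sy a b r h1).1 hr.2
  rw [show {c | c ∈ Bl P a b ∧ ∀ r ∈ P a ⊓ Nn P a b, r • c = c} = {a} from Set.eq_singleton_iff_unique_mem.2
    ⟨⟨mema h a b, fun r hr => h.Pfix a r hr.1⟩, fun e he => by_contra fun e1 => by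
      obtain ⟨y, hy, x, hx, k⟩ := trN h sy a b h1 e he.1 b (memb a b) e1 h1.symm
      exact w2 (fix1 h inf_le_left w1 hy hx k he.2)⟩, Set.ncard_singleton] at this
  exact Eq.trans this (Nat.mod_eq_of_lt h.prime.one_lt)

theorem modO : Nat.card Ω % p = 1 := by
  obtain ⟨a, b, h1, -⟩ := h.ne
  obtain ⟨w, w1, w2⟩ := move h sy a b h1
  have := fixc h.prime (h.Pp a) (Φ := (Set.univ : Set Ω)) fun _ _ _ _ => trivial
  rw [show {c | c ∈ Set.univ ∧ ∀ r ∈ P a, r • c = c} = {a} from Set.eq_singleton_iff_unique_mem.2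
    ⟨⟨trivial, h.Pfix a⟩, fun e he => by_contra fun e1 => by
      obtain ⟨y, hy, x, hx, k⟩ := h.tr a e b e1 h1.symm
      exact w2 (fix1 h le_rfl w1.1 hy hx k he.2)⟩, Set.ncard_singleton, Set.ncard_univ] at this
  exact Eq.trans this (Nat.mod_eq_of_lt h.prime.one_lt)

theorem evenB (a b : Ω) (h1 : a ≠ b) : Even (Bl P a b).ncard := by
  have := Fact.mk h.prime
  let φ := (P a ⊓ Nn P a b).subtype.noncommCoprod (Q a).subtype fun y x => h.comm a y y.2.1 x x.2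
  have h2 : orbit φ.range b = Bl P a b \ {a} := Set.ext fun e => ⟨by
    rintro ⟨⟨_, ⟨y, x⟩, rfl⟩, rfl⟩
    refine ⟨(memN h sy a b _ h1).1 (mul_mem y.2.2 (centralizer_le_normalizer _ (QC h a b x.2))) b (memb a b),
      fun e => h1 (smul_left_cancel (y.1 * x.1) (Eq.trans ?_ (Eq.symm e)))⟩
    rw [mul_smul, h.Qfix a x x.2, h.Pfix a y y.2.1], fun he => by
    obtain ⟨y, hy, x, hx, k⟩ := trN h sy a b h1 b (memb a b) e he.1 h1.symm he.2
    exact ⟨⟨_, (⟨y, hy⟩, ⟨x, hx⟩), rfl⟩, k⟩⟩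
  have h3 := (stabilizer φ.range b).index_dvd_card.trans (card_dvd_of_surjective _ φ.rangeRestrict_surjective)
  obtain ⟨k, hk⟩ := IsPGroup.iff_card.1 ((h.Pp a).to_le (inf_le_left (b := Nn P a b)))
  rw [index_stabilizer, h2, Nat.card_prod, hk] at h3
  rw [← Set.ncard_sdiff_singleton_add_one (mema h a b)]
  exact (Odd.of_dvd_nat (((h.prime.odd_of_ne_two h.odd).pow).mul (h.Qodd a)) h3).add_one

theorem numB (a b : Ω) (h1 : a ≠ b) : {X : Subgroup G | ∃ e : Ω, e ≠ a ∧ X = Kk P a e}.ncard *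
    Nat.card ↥(P b ⊓ Nn P a b) = Nat.card (P b) := by
  obtain ⟨g, g1, g2⟩ := h.t2 h1 h1.symm
  have gN := memN' h sy a b g h1 (by rw [g1]; exact memb a b) (by rw [g2]; exact mema h a b)
  have e1 : Nat.card (P b) = Nat.card (P a) := g1 ▸ card_conj g (Pconj h g a)
  have e2 : Nat.card ↥(P b ⊓ Nn P a b) = Nat.card ↥(P a ⊓ Nn P a b) := card_conj g fun x => and_congr
    (g1 ▸ Pconj h g a x) ((mul_mem_cancel_right (inv_mem gN)).trans (mul_mem_cancel_left gN))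
  let _ : MulAction (P a) (Subgroup G) := MulAction.compHom _ (MulAut.conj.comp (P a).subtype)
  have k : ∀ (y : P a) e, y • Kk P a e = Kk P a (y.1 • e) := fun y e => Subgroup.ext fun z => by
    change z ∈ MulAut.conj y.1 • Kk P a e ↔ _
    rw [mem_pointwise_smul_iff_inv_smul_mem, ← Kconj h y.1, h.Pfix a y y.2]
    simp [mul_assoc]
  have h2 : orbit (P a) (Kk P a b) = {X : Subgroup G | ∃ e : Ω, e ≠ a ∧ X = Kk P a e} := Set.ext fun X => ⟨by
    rintro ⟨y, rfl⟩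
    exact ⟨y.1 • b, fun e => h1 (smul_left_cancel y.1 ((h.Pfix a y y.2).trans e.symm)), k y b⟩, by
    rintro ⟨e, he, rfl⟩
    obtain ⟨y, hy, x, hx, rfl⟩ := h.tr a b e h1.symm he
    refine ⟨⟨y, hy⟩, ?_⟩
    have h3 := (memN h sy a b x h1).1 (centralizer_le_normalizer _ (QC h a b hx)) b (memb a b)
    show (⟨y, hy⟩ : P a) • Kk P a b = _
    rw [mul_smul, ← k ⟨y, hy⟩, Keq h sy a b a _ h1 (fun e => h1 (smul_left_cancel x ((h.Qfix a x hx).trans e)))
      (mema h a b) h3]⟩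
  have h3 : stabilizer (P a) (Kk P a b) = (P a ⊓ Nn P a b).subgroupOf (P a) := Subgroup.ext fun y => by
    rw [mem_stabilizer_iff, k, mem_subgroupOf, mem_inf, and_iff_right y.2]
    refine ⟨fun e => memN' h sy a b y h1 ((h.Pfix a y y.2).symm ▸ mema h a b) fun z hz => (e.ge hz).2, fun e => ?_⟩
    exact Keq h sy a b a _ h1 (fun e => h1 (smul_left_cancel y.1 ((h.Pfix a y y.2).trans e))) (mema h a b)
      ((memN h sy a b y h1).1 e b (memb a b))
  rw [e1, e2, ← h2, ← index_stabilizer, h3, ← Nat.card_congr (subgroupOfEquivOfLe inf_le_left).toEquiv,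
    index_mul_card]

end BkP

open BkP in
theorem bkS : BkS.{u, v} := fun G Ω _ _ _ _ p P Q h sy =>
  { sym := sy
    Kne := Kne h
    Keq := Keq h sy
    Kconj := Kconj h
    Kcard := Kcard h
    Blconj := Blconj h
    memN := memN h sy
    memN' := memN' h sy
    trN := trN h sy
    QC := QC h
    ZC := fun a b _ c hc z hz k hk => hz.2 k (sy a c k hk.1 (hc k hk))
    Zne := Zne h
    Zreg := Zreg h
    split := fun a b _ => split h a b
    out := out h sy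
    out2 := fun a b h1 =>
      let ⟨y, y1, y2⟩ := out h sy a b h1
      let ⟨w, w1, w2, w3⟩ := nc h a (R := P a ⊓ Nn P a b) inf_le_left ⟨y, y1, fun e => y2 e.2⟩
      ⟨w, w1, fun e => w2 ⟨w1, e⟩, w3⟩
    evenB := evenB h sy
    modB := modB h sy
    fourB := fun a b h1 => by
      have h2 := modB h sy a b h1
      have h3 := Set.ncard_le_ncard (show {a, b} ⊆ Bl P a b from Set.pair_subset (mema h a b) (memb a b))
      have h4 := h.prime.two_le
      have h5 := h.odd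
      rw [Set.ncard_pair h1] at h3
      have h6 := Nat.le_of_dvd (by omega) ((Nat.modEq_iff_dvd' (by omega)).1
        (show 1 ≡ (Bl P a b).ncard [MOD p] from (Nat.mod_eq_of_lt h4).trans h2.symm))
      omega
    modO := modO h sy
    pfix := fun a b h1 R hR hs => by
      by_contra! c
      have := fixc h.prime hR hs
      rw [show {c | c ∈ Bl P a b ∧ ∀ r ∈ R, r • c = c} = ∅ from Set.eq_empty_of_forall_notMem fun e he =>
        let ⟨r, r1, r2⟩ := c e he.1; r2 (he.2 r r1), Set.ncard_empty, Nat.ModEq, modB h sy a b h1] at this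
      simp at this
    numB := numB h sy }

end CL.Perm.Hks
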