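/-
Project HKS: the involution `u` centralising `K`.
-/
import Cfsg.Agent.Perm.HksDefs
import Cfsg.Agent.Perm.KosBase
import Cfsg.Agent.Perm.Homog1

set_option autoImplicit false
set_option linter.unusedSectionVars false

namespace CL.Perm.Hks

open MulAction Cfsg CL.Perm.V4 CL.Perm.V4D CL.Perm.Kos Subgroup

universe u v

namespace CbA

variable {G : Type u} {Ω : Type v} [Group G] [Finite G] [Finite Ω] [MulAction G Ω] {p : ℕ} {P Q : Ω → Subgroup G}
  {a b : Ω}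

theorem bB (a b : Ω) : b ∈ Bl P a b := fun _ hk => hk.2

theorem CN : Cc P a b ≤ Nn P a b := centralizer_le_normalizer _

theorem Cn {g c : G} (hg : g ∈ Nn P a b) (hc : c ∈ Cc P a b) : g * c * g⁻¹ ∈ Cc P a b := fun k hk => by
  have := hc _ ((mem_normalizer_iff.1 (inv_mem hg) k).1 hk)
  calc k * (g * c * g⁻¹) = g * (g⁻¹ * k * g⁻¹⁻¹ * c) * g⁻¹ := by group
    _ = _ := by rw [this]; group

theorem pow_odd {s : G} (hs : s * s = 1) {m : ℕ} (hm : Odd m) : s ^ m = s := by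
  obtain ⟨k, rfl⟩ := hm
  rw [pow_succ, pow_mul, sq, hs, one_pow, one_mul]

variable (h : Ks G Ω p P Q) (bk : Bk p P Q)
include h

theorem aB (a b : Ω) : a ∈ Bl P a b := fun k hk => h.Pfix a k hk.1

include bk

theorem dec {g : G} (hg : g ∈ Gs P Q a b) : ∃ c ∈ Cc P a b, ∃ y ∈ P a ⊓ Nn P a b, c * y = g := by
  rw [Gs, sup_eq_left.2 ((bk.QC a b).trans le_sup_left), ← SetLike.mem_coe, coe_mul_of_right_le_normalizer_left _
    (P a ⊓ Nn P a b) fun y hy => mem_normalizer_fintype fun c hc => Cn hy.2 hc] at hg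
  exact hg

theorem powC {g : G} (hg : g ∈ Gs P Q a b) : ∃ m, Odd m ∧ g ^ m ∈ Cc P a b := by
  obtain ⟨c, hc, y, hy, rfl⟩ := dec h bk hg
  obtain ⟨k, hk⟩ := h.Pp a ⟨y, hy.1⟩
  have e : ∀ n : ℕ, (c * y) ^ n * (y ^ n)⁻¹ ∈ Cc P a b := fun n => by
    induction n with
    | zero => simp
    | succ n ih => convert mul_mem hc (Cn hy.2 ih) using 1; rw [pow_succ', pow_succ']; group
  exact ⟨p ^ k, (h.prime.odd_of_ne_two h.odd).pow, by
    simpa [show y ^ p ^ k = 1 from congrArg Subtype.val hk] using e (p ^ k)⟩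

theorem oddS (na : NoA P) (ab : a ≠ b) (g : G) (hg : g ∈ Gs P Q a b) (ga : g • a = a) : Odd (orderOf g) := by
  obtain ⟨m, h1, h2⟩ := powC h bk hg
  by_contra c
  have h3 := orderOf_pow_orderOf_div (orderOf_pos g).ne' (Nat.not_odd_iff_even.1 c).two_dvd
  have h4 : g ^ (orderOf g / 2) * g ^ (orderOf g / 2) = 1 := by
    rw [← sq]; exact orderOf_dvd_iff_pow_eq_one.1 h3.dvd
  refine na a b ab _ ?_ h4 (fun e => by simp [e] at h3) a (aB h a b) (pow_mem (mem_stabilizer_iff.2 ga) _)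
  rw [← pow_odd h4 h1, ← pow_mul, mul_comm, pow_mul]
  exact pow_mem h2 _

theorem Ctr (ab : a ≠ b) (c : Ω) (hc : c ∈ Bl P a b) : ∃ g ∈ Cc P a b, g • a = c := by
  by_cases e : c = a
  · exact ⟨1, one_mem _, by rw [one_smul, e]⟩
  obtain ⟨⟨z, hz⟩, z1⟩ := ne_bot_iff_exists_ne_one.1 (bk.Zne b)
  have zC := bk.ZC a b ab b (bB a b) hz
  obtain ⟨y, hy, x, hx, k⟩ := bk.trN a b ab _ ((bk.memN a b z ab).1 (CN zC) a (aB h a b)) c hc
    (fun e => z1 (Subtype.ext (bk.Zreg b a ab z hz e))) e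
  refine ⟨_, Cn (mul_mem hy.2 (CN (bk.QC a b hx))) zC, ?_⟩
  rw [mul_smul, mul_smul, inv_smul_eq_iff.2 (by rw [mul_smul, h.Qfix a x hx, h.Pfix a y hy.1] : a = (y * x) • a), ← mul_smul, mul_smul, k]

theorem free (lw : Lw p P Q) (na : NoA P) (ab : a ≠ b) (s : G) (sC : s ∈ Cc P a b) (ss : s * s = 1) (s1 : s ≠ 1)
    (c : Ω) (hc : s • c = c) : False := by
  have := Fact.mk h.prime
  have h1 := ncard_modEq_pow (k := 1) (Set.univ : Set Ω) s (fun _ _ => trivial) (by rw [pow_one, sq, ss])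
  rw [Set.univ_inter, Set.ncard_univ] at h1
  obtain ⟨d, hd, dc⟩ := exists_second (A := fixedBy Ω s) (Nat.even_iff.2 (Eq.trans h1.symm (Nat.even_iff.1 h.even))) hc
  have tr := lw.trC c d dc.symm s hc hd (by
    rw [orderOf_eq_prime (by rw [sq, ss]) s1]
    exact fun e => h.odd ((Nat.prime_dvd_prime_iff_eq h.prime Nat.prime_two).1 e))
  have st : ∀ k, k * s = s * k → ∀ x ∈ fixedBy Ω s, k • x ∈ fixedBy Ω s := fun k hk x hx => by
    rw [mem_fixedBy, ← mul_smul, ← hk, mul_smul, mem_fixedBy.1 hx]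
  have Kp : IsPGroup p (Kk P a b) := (h.Pp a).to_inf_left
  have nf := na a b ab s sC ss s1
  by_cases c1 : ∀ y ∈ P c, y * s = s * y → y • d = d
  · have FB : ∀ e ∈ fixedBy Ω s, e ∈ Bl P c d := fun e he => by
      by_cases ec : e = c
      · exact ec ▸ aB h c d
      obtain ⟨y, hy, q, hq, e1, -, rfl⟩ := tr e ec he
      rw [h.comm c y hy q hq, mul_smul, c1 y hy e1]
      exact (bk.memN c d q dc.symm).1 (CN (bk.QC c d hq)) d (bB c d)
    have m : ∀ k, k * s = s * k → St (Bl P c d) k := fun k hk =>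
      (bk.memN c d k dc.symm).1 (bk.memN' c d k dc.symm (FB _ (st k hk c hc)) (FB _ (st k hk d hd)))
    obtain ⟨e, he, e1⟩ := bk.pfix c d dc.symm _ Kp fun k hk => m k (sC k hk)
    refine nf c (fun k hk => aB h c d k ?_) hc
    rwa [← bk.Keq c d e (s • e) dc.symm (nf e e1).symm he (m s rfl e he),
      bk.Keq a b e (s • e) ab (nf e e1).symm e1 ((bk.memN a b s ab).1 (CN sC) e e1)]
  have h2 := ncard_modEq_ncard_fixed ((h.Pp c).to_inf_left (K := Ce s)) (fixedBy Ω s) (Set.toFinite _)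
    fun g hg => st g (mem_Ce.1 hg.2)
  have h3 := ncard_modEq_ncard_fixed Kp (fixedBy Ω s) (Set.toFinite _) fun g hg => st g (sC g hg)
  rw [show {x | x ∈ fixedBy Ω s ∧ ∀ g ∈ Kk P a b, g • x = x} = ∅ from
    Set.eq_empty_of_forall_notMem fun x hx => nf x hx.2 hx.1, Set.ncard_empty] at h3
  rw [show {x | x ∈ fixedBy Ω s ∧ ∀ g ∈ P c ⊓ Ce s, g • x = x} = {c} from Set.eq_singleton_iff_unique_mem.2
    ⟨⟨hc, fun g hg => h.Pfix c g hg.1⟩, fun e he => by_contra fun ec => c1 fun r hr rs => by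
      obtain ⟨y, hy, q, hq, e1, -, rfl⟩ := tr e ec he.1
      have := he.2 (y * r * y⁻¹) (mul_mem (mul_mem ⟨hy, mem_Ce.2 e1⟩ ⟨hr, mem_Ce.2 rs⟩) (inv_mem ⟨hy, mem_Ce.2 e1⟩))
      rwa [← mul_smul, mul_assoc, inv_mul_cancel_left, mul_assoc, h.comm c r hr q hq, ← mul_assoc, mul_smul,
        smul_left_cancel_iff] at this⟩, Set.ncard_singleton] at h2
  exact h.prime.one_lt.ne' (Nat.dvd_one.1 (Nat.modEq_zero_iff_dvd.1 (h2.symm.trans h3)))

end CbA

open CbA in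
theorem cbS : CbS.{u, v} := fun G Ω _ _ _ _ p P Q h bk lw na a b ab => by
  have inC : ∀ s ∈ Gs P Q a b, s * s = 1 → s ∈ Cc P a b := fun s hs ss =>
    let ⟨_, h1, h2⟩ := powC h bk hs; pow_odd ss h1 ▸ h2
  have CG : Cc P a b ≤ Gs P Q a b := le_sup_left.trans le_sup_left
  have NG : P a ⊓ Nn P a b ≤ Gs P Q a b := le_sup_right.trans le_sup_left
  have st := fun g hg => (bk.memN a b g ab).1 (CN hg)
  obtain ⟨c, hc, ca⟩ := Ctr h bk ab b (bB a b)
  obtain ⟨y, hy, x, hx, k⟩ := bk.trN a b ab b (bB a b) _ (st _ (inv_mem hc) a (aB h a b)) ab.symm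
    fun e => ab ((inv_smul_eq_iff.1 e).trans ca)
  have gG : c * (y * x) ∈ Gs P Q a b := mul_mem (CG hc) (mul_mem (NG hy) (mem_sup_right hx))
  have ga : (c * (y * x)) • a = b := by rw [mul_smul, mul_smul, h.Qfix a x hx, h.Pfix a y hy.1, ca]
  have gb : (c * (y * x)) • b = a := by rw [mul_smul, k, smul_inv_smul]
  generalize c * (y * x) = g at gG ga gb
  have g2 : g ^ 2 ∈ stabilizer G a := by rw [mem_stabilizer_iff, sq, mul_smul, ga, gb]
  obtain ⟨n, hn⟩ := oddS h bk na ab _ (pow_mem gG 2) g2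
  have uu : g ^ (2 * n + 1) * g ^ (2 * n + 1) = 1 := by rw [← sq, ← pow_mul, mul_comm, pow_mul, ← hn, pow_orderOf_eq_one]
  have ua : g ^ (2 * n + 1) • a = b := by rw [pow_succ', mul_smul, pow_mul, mem_stabilizer_iff.1 (pow_mem g2 n), ga]
  have uC := inC _ (pow_mem gG _) uu
  refine ⟨_, ab, ⟨uu, ua, free h bk lw na ab _ uC uu fun e => ab (by rw [← ua, e, one_smul])⟩, uC,
    free h bk lw na ab, inC, oddS h bk na ab, sup_le (sup_le CN inf_le_right) ((bk.QC a b).trans CN),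
    fun g hg x hx => ?_, Ctr h bk ab⟩
  obtain ⟨c, hc, e⟩ := Ctr h bk ab _ ((bk.memN a b g ab).1 hg a (aB h a b))
  obtain ⟨c', hc', y, hy, rfl⟩ := dec h bk hx
  have hn := mul_mem (inv_mem (CN hc)) hg
  have h1 := h.Pc (c⁻¹ * g) a y hy.1
  rw [mul_smul, ← e, inv_smul_smul] at h1
  convert mul_mem (mul_mem (CG hc) (mul_mem (CG (Cn hn hc'))
    (NG (mem_inf.2 ⟨h1, mul_mem (mul_mem hn hy.2) (inv_mem hn)⟩)))) (inv_mem (CG hc)) using 1
  group

end CL.Perm.Hks
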