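/-
Project HKS (S1145): the statement for (B,N)-pairs of rank one.
-/
import Cfsg.Agent.Perm.HksDefs
import Cfsg.Agent.S0322

set_option autoImplicit false

namespace CL.Perm.Hks

open MulAction Cfsg

universe u

theorem s1145_of (h : KSall.{u, u}) {G : Type u} [Group G] [Finite G] (P : Cfsg.BNPair G)
    (h1 : P.rank = 1) (hcore : P.B.normalCore = ⊥) (U : Subgroup G) (hUB : U ≤ P.B)
    (hUn : ∀ b ∈ P.B, ∀ u ∈ U, b * u * b⁻¹ ∈ U) (hUnil : Group.IsNilpotent U) (hsplit : U ⊔ (P.B ⊓ P.N) = P.B) :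
    ∃ U₀ : Subgroup G, U₀ ≤ U ∧ (∀ b ∈ P.B, ∀ u ∈ U₀, b * u * b⁻¹ ∈ U₀) ∧
      U₀ ⊔ (P.B ⊓ P.N) = P.B ∧ U₀ ⊓ (P.B ⊓ P.N) = ⊥ := by
  have t2 : V4D.T2 G (G ⧸ P.B) := is_two_pretransitive_iff.1 (Cfsg.Agent.S0322.result P h1)
  have st : stabilizer G ((1 : G) : G ⧸ P.B) = P.B := stabilizer_quotient P.B
  have fa : Fa G (G ⧸ P.B) := fun g hg => by
    rw [← Subgroup.mem_bot, ← hcore, Subgroup.normalCore_eq_ker]
    exact Equiv.ext hg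
  obtain ⟨⟨s, hs⟩⟩ : Nonempty P.S := (Nat.card_pos_iff.1 (h1.ge : 1 ≤ Nat.card P.S)).1
  have hb : (s : G ⧸ P.B) ≠ (1 : G) := fun e => Chev.BN.gen_notMem_B ⟨s, hs⟩ (by simpa using QuotientGroup.eq.1 e)
  have hH : ∀ t ∈ P.B ⊓ P.N, t • (s : G ⧸ P.B) = s := fun t ht => QuotientGroup.eq.2 (by
    simpa [mul_assoc] using P.conj_mem _ (inv_mem (P.subset hs)) _ (inv_mem ht))
  have tr : ∀ c : G ⧸ P.B, c ≠ (1 : G) → ∃ y ∈ U, y • (s : G ⧸ P.B) = c := fun c hc => by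
    obtain ⟨g, g1, g2⟩ := t2 hb.symm hc.symm
    have hg : g ∈ (U ⊔ (P.B ⊓ P.N) : Subgroup G) := by rw [hsplit, ← st]; exact g1
    rw [← SetLike.mem_coe, Subgroup.coe_mul_of_right_le_normalizer_left U (P.B ⊓ P.N) fun t ht => Subgroup.mem_normalizer_iff.2
      fun x => ⟨hUn t ht.1 x, fun hx => by simpa [mul_assoc] using hUn _ (inv_mem ht.1) _ hx⟩] at hg
    obtain ⟨y, hy, t, ht, rfl⟩ := hg
    exact ⟨y, hy, by rw [← g2, mul_smul, hH t ht]⟩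
  have sp : Sp G (G ⧸ P.B) (1 : G) U := ⟨t2, st.symm ▸ hUB, st.symm ▸ hUn, hUnil, fun c d hc hd => by
    obtain ⟨x, hx, rfl⟩ := tr c hc
    obtain ⟨y, hy, rfl⟩ := tr d hd
    exact ⟨y * x⁻¹, mul_mem hy (inv_mem hx), by rw [mul_smul, inv_smul_smul]⟩⟩
  rcases h G _ _ U sp fa with r | ⟨-, -, V, e⟩
  · exact ⟨U, le_rfl, hUn, hsplit, eq_bot_iff.2 fun y hy => fa y (r y hy.1 _ hb (hH y hy.2))⟩
  rcases (U ⊓ (P.B ⊓ P.N)).bot_or_exists_ne_one with e0 | ⟨ρ, hρ, ρ1⟩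
  · exact ⟨U, le_rfl, hUn, hsplit, e0⟩
  refine ⟨V, e.le, st ▸ e.nrm, le_antisymm (sup_le (e.le.trans hUB) inf_le_left) (hsplit.ge.trans
    (sup_le (fun y hy => ?_) le_sup_right)), eq_bot_iff.2 fun y hy => e.reg y hy.1 _ hb (hH y hy.2)⟩
  have hi : (V.subgroupOf U).index = 2 := Nat.eq_of_mul_eq_mul_right (Nat.card_pos (α := V)) (by
    rw [← e.card, ← Nat.card_congr (Subgroup.subgroupOfEquivOfLe e.le).toEquiv, Subgroup.index_mul_card])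
  by_cases hy' : y ∈ V
  · exact Subgroup.mem_sup_left hy'
  · have := (Subgroup.mul_mem_iff_of_index_two hi (a := ⟨y, hy⟩) (b := ⟨ρ, hρ.1⟩)).2
      (iff_of_false hy' fun h => ρ1 (e.reg ρ h _ hb (hH ρ hρ.2)))
    rw [← mul_inv_cancel_right y ρ]
    exact Subgroup.mul_mem_sup this (inv_mem hρ.2)

end CL.Perm.Hks
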