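/-
Project HKS (S1145): the structure of the two-point stabiliser.
-/
import Cfsg.Agent.Perm.HksDefs
import Cfsg.Agent.Perm.KosBase
import Cfsg.Agent.Perm.KosCfg
import Cfsg.Agent.Perm.KosEig
import Cfsg.Agent.Even.Amb

set_option autoImplicit false
set_option linter.unusedSectionVars false

namespace CL.Perm.Hks

open MulAction Cfsg CL.Perm.V4 CL.Perm.V4D CL.Perm.Kos Subgroup

universe u v

namespace H0

variable {G : Type u} {Ω : Type v} [Group G] [Finite G] [Finite Ω] [MulAction G Ω] {p : ℕ} {P Q : Ω → Subgroup G}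
  {a b : Ω} {u w w' g : G} {D : Subgroup G}

theorem a_mem (h : Ks G Ω p P Q) : a ∈ Bl P a b := fun k hk => h.Pfix a k hk.1

theorem b_mem : b ∈ Bl P a b := fun _ hk => hk.2

theorem pw_H (h : Ks G Ω p P Q) (hw : Pw (Bl P a b) w) : w ∈ stab2 G a b := ⟨hw a (a_mem h), hw b b_mem⟩

theorem H_N (h : Ks G Ω p P Q) (bk : Bk p P Q) (hab : a ≠ b) (hg : g ∈ stab2 G a b) : g ∈ Nn P a b :=
  bk.memN' a b g hab ((show g • a = a from hg.1).symm ▸ a_mem h) ((show g • b = b from hg.2).symm ▸ b_mem)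

section
variable (h : Ks G Ω p P Q) (bk : Bk p P Q) (lw : Lw p P Q) (hab : a ≠ b) (ti : Ti P a b) (wf : Wf G P a b)
include h bk hab ti wf

theorem inverts (hw : Pw (Bl P a b) w) (h2 : w * w ∈ Kk P a b) (hK : w ∉ Kk P a b) {k : G} (hk : k ∈ Kk P a b) :
    w * k * w⁻¹ = k⁻¹ := by
  have h1 := Even.conj_mem (H_N h bk hab (pw_H h hw)) hk
  by_contra e
  refine hK (wf.wf w hw _ (mul_mem hk h1) (fun e' => e (eq_inv_of_mul_eq_one_right e')) ?_)
  calc w * (k * (w * k * w⁻¹)) = w * k * w⁻¹ * (w * w * k) * w⁻¹ := by group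
    _ = w * k * w⁻¹ * k * w := by rw [ti.ab _ h2 _ hk]; group
    _ = _ := by rw [ti.ab _ h1 _ hk]

include lw

theorem mul_mem_K (hw : Pw (Bl P a b) w) (h2 : w * w ∈ Kk P a b) (hK : w ∉ Kk P a b) (hw' : Pw (Bl P a b) w')
    (h2' : w' * w' ∈ Kk P a b) (hK' : w' ∉ Kk P a b) : w * w' ∈ Kk P a b := by
  refine lw.CW a b hab _ (fun k hk => ?_) fun c hc => by rw [mul_smul, hw' c hc, hw c hc]
  rw [eq_comm, ← mul_inv_eq_iff_eq_mul, show w * w' * k * (w * w')⁻¹ = w * (w' * k * w'⁻¹) * w⁻¹ by group,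
    inverts h bk hab ti wf hw' h2' hK' hk, inverts h bk hab ti wf hw h2 hK (inv_mem hk), inv_inv]

/-- the elements fixing the block pointwise whose square is in `K` -/
def R0 : Subgroup G where
  carrier := {w | Pw (Bl P a b) w ∧ w * w ∈ Kk P a b}
  one_mem' := ⟨fun c _ => one_smul _ c, by rw [mul_one]; exact one_mem _⟩
  inv_mem' := fun {w} hw => ⟨fun c hc => inv_smul_eq_iff.2 (hw.1 c hc).symm, by
    rw [← mul_inv_rev]; exact inv_mem hw.2⟩
  mul_mem' := fun {w w'} hw hw' => by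
    refine ⟨fun c hc => by rw [mul_smul, hw'.1 c hc, hw.1 c hc], ?_⟩
    by_cases k : w ∈ Kk P a b
    · rw [show w * w' * (w * w') = w * (w' * w * w'⁻¹) * (w' * w') by group]
      exact mul_mem (mul_mem k (Even.conj_mem (H_N h bk hab (pw_H h hw'.1)) k)) hw'.2
    by_cases k' : w' ∈ Kk P a b
    · rw [show w * w' * (w * w') = w * w' * w⁻¹ * (w * w) * w' by group]
      exact mul_mem (mul_mem (Even.conj_mem (H_N h bk hab (pw_H h hw.1)) k') hw.2) k'
    have := mul_mem_K h bk lw hab ti wf hw.1 hw.2 k hw'.1 hw'.2 k'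
    exact mul_mem this this

theorem H_nR : stab2 G a b ≤ normalizer (R0 h bk lw hab ti wf : Set G) := Even.le_norm_of_cj_le fun g hg => by
  rintro _ ⟨w, hw, rfl⟩
  refine ⟨fun c hc => ?_, ?_⟩
  · change (g * w * g⁻¹) • c = c
    rw [mul_smul, mul_smul, hw.1 _ ((bk.memN a b _ hab).1 (H_N h bk hab (inv_mem hg)) c hc), smul_inv_smul]
  · change g * w * g⁻¹ * (g * w * g⁻¹) ∈ _
    rw [conj_mul]
    exact Even.conj_mem (H_N h bk hab hg) hw.2

end

/-- a normal subgroup of the stabiliser containing `P a` and the products `u s` is everything -/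
theorem stab_le (h : Ks G Ω p P Q) (bk : Bk p P Q) (f : Fpf a b u) (q1 : ∀ c, Q c = ⊥) (wf : Wf G P a b)
    {T : Subgroup G} (hP : P a ≤ T) (hn : stab2 G a b ≤ normalizer (T : Set G)) (hs : ∀ s, Fpf a b s → u * s ∈ T) :
    stabilizer G a ≤ T := by
  have hab := f.ne
  have tr : ∀ c d : Ω, c ≠ a → d ≠ a → ∃ y ∈ P a, y • c = d := fun c d hc hd => by
    obtain ⟨y, hy, x, hx, e⟩ := h.tr a c d hc hd
    rw [q1, mem_bot] at hx
    exact ⟨y, hy, by rwa [hx, mul_one] at e⟩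
  have dec : ∀ g ∈ stabilizer G a, ∃ y ∈ P a, y⁻¹ * g ∈ stab2 G a b := fun g hg => by
    obtain ⟨y, hy, e⟩ := tr b (g • b) hab.symm fun e => hab (smul_left_cancel g (hg.trans e.symm))
    exact ⟨y, hy, (stabilizer G a).mul_mem (inv_mem (h.Pfix a y hy)) hg, show _ • b = b by
      rw [mul_smul, ← e, inv_smul_smul]⟩
  have hN : (T.subgroupOf (stabilizer G a)).Normal := normal_subgroupOf_of_le_normalizer fun g hg =>
    let ⟨y, k1, k2⟩ := dec g hg
    mul_inv_cancel_left y g ▸ mul_mem (le_normalizer (hP k1)) (hn k2)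
  by_contra ne
  obtain ⟨g, hg, hg'⟩ := SetLike.not_le_iff_exists.1 ne
  let π := QuotientGroup.mk' (T.subgroupOf (stabilizer G a))
  have : Nontrivial (stabilizer G a ⧸ T.subgroupOf (stabilizer G a)) :=
    ⟨π ⟨g, hg⟩, 1, fun e => hg' ((QuotientGroup.eq_one_iff (⟨g, hg⟩ : stabilizer G a)).1 e)⟩
  have := wf.sol
  have : Group.IsSolvable (stabilizer G a ⧸ T.subgroupOf (stabilizer G a)) :=
    Group.isSolvable_of_surjective (f := π.comp (inclusion (inf_le_left : stab2 G a b ≤ _))) fun x => by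
      obtain ⟨⟨g, hg⟩, rfl⟩ := QuotientGroup.mk_surjective x
      obtain ⟨y, k1, k2⟩ := dec g hg
      refine ⟨⟨_, k2⟩, ?_⟩
      change π ((⟨y, h.Pfix a y k1⟩ : stabilizer G a)⁻¹ * ⟨g, hg⟩) = π _
      rw [map_mul, map_inv, show π ⟨y, h.Pfix a y k1⟩ = 1 from (QuotientGroup.eq_one_iff _).2 (hP k1), inv_one, one_mul]
  obtain ⟨x, -, hx⟩ := SetLike.exists_of_lt
    (Group.IsSolvable.commutator_lt_top_of_nontrivial (stabilizer G a ⧸ T.subgroupOf (stabilizer G a)))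
  obtain ⟨k, rfl⟩ := QuotientGroup.mk_surjective x
  obtain ⟨l, l1, l2⟩ := cfg_lam (N := (_root_.commutator _).comap π) (k := k) (map_le_iff_le_comap.1 (by
    rw [_root_.commutator, map_commutator]; exact commutator_mono le_top le_top)) hx
  have l3 : ∀ y : stabilizer G a, (y : G) ∈ T → l y = 1 := fun y hy => l1 y (by
    rw [mem_comap, show π y = 1 from (QuotientGroup.eq_one_iff _).2 hy]; exact one_mem _)
  obtain ⟨⟨z, hz⟩, z1⟩ := ne_bot_iff_exists_ne_one.1 (bk.Zne a)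
  have h4 := (bk.fourB a b hab).trans (Set.ncard_le_card _)
  obtain ⟨χ, hχ⟩ := eig G Ω a b u z l h.t2 hab (by omega) f
    (fun s y h1 h2 h3 => l3 y (h3 ▸ hs s ⟨sq_of_isConj f.sq h1, h2, f.free_of_isConj h1⟩)) (h.Pfix a z hz.1)
    (fun c e => by_contra fun k => z1 (Subtype.ext (bk.Zreg a c k z hz e)))
    fun c d hc hd => let ⟨y, k1, k2⟩ := tr c d hc hd; ⟨y, hz.2 y k1, k2⟩
  have e := h.gen χ.ker inferInstance (fun c y hy => by
    obtain ⟨g, hg⟩ : ∃ g : G, g • c = a := by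
      by_cases k : c = a
      · exact ⟨1, by rw [one_smul, k]⟩
      · exact (h.t2 k hab).imp fun _ e => e.1
    have h1 := hg ▸ h.Pc g c y hy
    have h2 := χ.normal_ker.conj_mem _ ((hχ ⟨_, h.Pfix a _ h1⟩).trans (l3 _ (hP h1))) g⁻¹
    simpa [mul_assoc] using h2) fun c => q1 c ▸ bot_le
  exact l2 ((hχ k).symm.trans (e.ge (mem_top (k : G))))

end H0

open H0

theorem h0S : H0S.{u, v} := by
  intro G Ω _ _ _ _ p P Q h bk lw a b u D c t li ti wf hs
  have hab := c.ne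
  have hD : D ≤ stab2 G a b := fun x hx => ⟨((t.mem x).1 hx).1, ((t.mem x).1 hx).2.1⟩
  have hR : R0 h bk lw hab ti wf ≤ stab2 G a b := fun w hw => pw_H h hw.1
  have nP : stab2 G a b ≤ normalizer (P a : Set G) := Even.le_norm_of_cj_le fun g hg => by
    rintro _ ⟨y, hy, rfl⟩
    exact (show g • a = a from hg.1) ▸ h.Pc g a y hy
  have nD : stab2 G a b ≤ normalizer (D : Set G) := Even.le_norm_of_cj_le fun g hg => by
    rintro _ ⟨y, hy, rfl⟩
    exact t.nrm g (.inl hg) y hy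
  have key := stab_le h bk c.fpf li.Q1 wf (T := P a ⊔ (D ⊔ R0 h bk lw hab ti wf)) le_sup_left
    (Even.le_norm_sup nP (Even.le_norm_sup nD (H_nR h bk lw hab ti wf))) fun s f => by
      obtain ⟨x, hx, w, w1, w2, e⟩ := hs s f
      exact e ▸ mem_sup_right (mul_mem_sup hx ⟨w1, w2⟩)
  have dec : ∀ g ∈ stab2 G a b, ∃ k ∈ Kk P a b, ∃ x ∈ D, ∃ w ∈ R0 h bk lw hab ti wf, g = k * (x * w) := fun g hg => by
    obtain ⟨y, hy, r, hr, rfl⟩ := (Even.mem_sup_nl ((sup_le hD hR).trans nP)).1 (key hg.1)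
    obtain ⟨x, hx, w, hw, rfl⟩ := (Even.mem_sup_nl (hR.trans nD)).1 hr
    exact ⟨y, ⟨hy, ((mul_mem_cancel_right (sup_le hD hR hr)).1 hg).2⟩, x, hx, w, hw, rfl⟩
  have cm : ∀ x ∈ D, ∀ k ∈ Kk P a b, x * k = k * x := fun x hx k hk => (((t.mem x).1 hx).2.2.1 k hk).symm
  by_cases e : R0 h bk lw hab ti wf ≤ Kk P a b
  · refine .inl fun g hg => ?_
    obtain ⟨k, hk, x, hx, w, hw, rfl⟩ := dec g hg
    exact ⟨k * w, mul_mem hk (e hw), x, hx, by rw [cm x hx w (e hw), mul_assoc]⟩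
  obtain ⟨w, hw, hK⟩ := SetLike.not_le_iff_exists.1 e
  obtain ⟨n, hn⟩ := h.Pp a ⟨_, hw.2.1⟩
  obtain ⟨m, hm⟩ : Odd (p ^ n) := (h.prime.odd_of_ne_two h.odd).pow
  have h1 : w ^ p ^ n * w ^ p ^ n = 1 := by
    rw [← (Commute.refl w).mul_pow]; exact congrArg Subtype.val hn
  have h2 : w ^ p ^ n ∉ Kk P a b := fun k => hK (by
    rw [hm, pow_succ, pow_mul, pow_two] at k
    exact (mul_mem_cancel_left (pow_mem hw.2 m)).1 k)
  have h3 := pow_mem hw (p ^ n)
  generalize w ^ p ^ n = w1 at h1 h2 h3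
  refine .inr ⟨w1, h1, fun k => h2 (k ▸ one_mem _), h3.1, fun g hg => ?_⟩
  obtain ⟨k, hk, x, hx, r, hr, rfl⟩ := dec g hg
  by_cases k' : r ∈ Kk P a b
  · exact ⟨k * r, mul_mem hk k', x, hx, .inl (by rw [cm x hx r k', mul_assoc])⟩
  · have h4 := mul_mem_K h bk lw hab ti wf hr.1 hr.2 k' h3.1 h3.2 h2
    refine ⟨k * (r * w1), mul_mem hk h4, x, hx, .inr ?_⟩
    rw [mul_assoc k, ← cm x hx _ h4, mul_assoc k, mul_assoc x, mul_assoc r, h1, mul_one]

end CL.Perm.Hks
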