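/-
Project HKS (S1145): the case `H = K D ⟨w⟩` is impossible (Thompson transfer).
-/
import Cfsg.Agent.Perm.HksDefs
import Cfsg.Agent.Transfer.Control

set_option autoImplicit false

namespace CL.Perm.Hks

open MulAction Cfsg CL.Perm.V4 CL.Perm.V4D CL.Perm.Kos

universe u v

namespace H2Fx

theorem arith {p i : ℕ} (hp : Odd p) (h4 : 4 ∣ p ^ i + 1) : ∃ m, Odd m ∧ p ^ i + 1 = (p + 1) * m := by
  obtain ⟨q, rfl⟩ := hp
  rcases Nat.even_or_odd' i with ⟨j, rfl | rfl⟩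
  · obtain ⟨s, hs⟩ : Odd ((2 * q + 1) ^ j) := Odd.pow ⟨q, rfl⟩
    rw [mul_comm 2 j, pow_mul, hs, show (2 * s + 1) ^ 2 + 1 = 4 * (s * s + s) + 2 by ring] at h4
    omega
  · clear h4
    induction j with
    | zero => exact ⟨1, odd_one, by ring⟩
    | succ j ih =>
      obtain ⟨m, ⟨s, hs⟩, e⟩ := ih
      refine ⟨2 * ((2 * q + 1) ^ (2 * j + 1) * q) + m, ⟨(2 * q + 1) ^ (2 * j + 1) * q + s, by rw [hs]; ring⟩, ?_⟩
      rw [mul_add _ _ m, ← e]
      ring

variable {G : Type u} {Ω : Type v} [Group G] [MulAction G Ω]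

theorem orb (L : Subgroup G) (a : Ω) (S : Set Ω) (h : ∀ c, c ∈ S ↔ ∃ g ∈ L, g • a = c) :
    (stabilizer G a).relIndex L = S.ncard := by
  have e : orbit L a = S := Set.ext fun c => by
    rw [h, mem_orbit_iff]
    exact ⟨fun ⟨g, e⟩ => ⟨g, g.2, e⟩, fun ⟨g, hg, e⟩ => ⟨⟨g, hg⟩, e⟩⟩
  rw [← e, ← index_stabilizer]
  rfl

theorem mem_of_odd {N : Subgroup G} (hN : N.index = 2) {y : G} {m : ℕ} (hm : Odd m) (e : y ^ m = 1) : y ∈ N := by
  obtain ⟨j, rfl⟩ := hm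
  rw [pow_succ, pow_mul] at e
  rw [← inv_eq_of_mul_eq_one_right e]
  exact N.inv_mem (N.pow_mem (Subgroup.sq_mem_of_index_two hN y) j)

end H2Fx

open H2Fx in
theorem h2F : H2F.{u, v} := by
  intro G Ω _ _ _ _ p P Q h bk _ a b u D cb tor li ti ⟨w, ww, w1, wP, hw⟩
  have ab := cb.ne
  have po : Odd p := h.prime.odd_of_ne_two h.odd
  have aB : a ∈ Bl P a b := fun k hk => h.Pfix a k hk.1
  have bB : b ∈ Bl P a b := fun k hk => hk.2
  have CN : Cc P a b ≤ Nn P a b := Subgroup.centralizer_le_normalizer _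
  have wN : w ∈ Nn P a b := (bk.memN a b w ab).2 fun c hc => (wP c hc).symm ▸ hc
  have wC : ∀ g : G, g * w * g⁻¹ ∉ Cc P a b := fun g hg =>
    cb.free _ hg (by rw [conj_mul, ww, mul_one, mul_inv_cancel]) (by simpa using w1) (g • a)
      (by rw [mul_smul, mul_smul, inv_smul_smul, wP a aB])
  have rel : (Cc P a b).relIndex (Nn P a b) = 2 := by
    refine Subgroup.relIndex_eq_two_iff_exists_notMem_and.2 ⟨w, wN, by simpa using wC 1, fun g hg => ?_⟩
    obtain ⟨c, hc, e1⟩ := cb.Ctr _ ((bk.memN a b g ab).1 hg a aB)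
    have n1 : c⁻¹ * g ∈ Nn P a b := mul_mem (inv_mem (CN hc)) hg
    have n2 : (c⁻¹ * g) • a = a := by rw [mul_smul, ← e1, inv_smul_smul]
    obtain ⟨z, hz, e2⟩ := li.Ztr _ ((bk.memN a b _ ab).1 n1 b bB) fun e => ab (smul_left_cancel _ (n2.trans e.symm))
    have zC := bk.ZC a b ab a aB hz
    obtain ⟨k, hk, x, hx, e3⟩ := hw (z⁻¹ * (c⁻¹ * g))
      ⟨by change _ • a = a; rw [mul_smul, n2, inv_smul_eq_iff, h.Pfix a z hz.1],
        by change _ • b = b; rw [mul_smul, ← e2, inv_smul_smul]⟩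
    have kx : c * (z * (k * x)) ∈ Cc P a b := mul_mem hc (mul_mem zC (mul_mem
      (Subgroup.mem_centralizer_iff.2 fun k' hk' => ti.ab k' hk' k hk) ((tor.mem x).1 hx).2.2.1))
    rcases e3 with e3 | e3
    · exact .inr (by rwa [← e3, mul_inv_cancel_left, mul_inv_cancel_left] at kx)
    · rw [← mul_inv_eq_iff_eq_mul, inv_eq_of_mul_eq_one_right ww] at e3
      exact .inl (by rwa [← e3, mul_assoc, mul_inv_cancel_left, mul_assoc, mul_inv_cancel_left] at kx)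
  have pos : 0 < Nat.card Ω := @Nat.card_pos _ ⟨a⟩ _
  have cmp : ({a}ᶜ : Set Ω).ncard + 1 = Nat.card Ω := by
    rw [← Set.ncard_singleton a, add_comm, Set.ncard_add_ncard_compl]
  have i1 : (stabilizer G a).index = Nat.card Ω := by
    rw [← Subgroup.relIndex_top_right, ← Set.ncard_univ]
    refine orb _ _ _ fun c => iff_of_true trivial ?_
    by_cases e : c = a
    · exact ⟨1, trivial, by rw [one_smul, e]⟩
    · obtain ⟨g, e1, -⟩ := h.t2 ab e
      exact ⟨g, trivial, e1⟩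
  have i2 : (stabilizer G a).relIndex (Nn P a b) = (Bl P a b).ncard := orb _ _ _ fun c =>
    ⟨fun hc => let ⟨g, hg, e⟩ := cb.Ctr c hc; ⟨g, CN hg, e⟩, fun ⟨g, hg, e⟩ => e ▸ (bk.memN a b g ab).1 hg a aB⟩
  have i3 : ∀ L : Subgroup G, P a ≤ L → L ≤ stabilizer G a → (stabilizer G b).relIndex L = ({a}ᶜ : Set Ω).ncard :=
    fun L h1 h2 => orb _ _ _ fun c => ⟨fun hc => by
      obtain ⟨y, hy, x, hx, e⟩ := h.tr a b c ab.symm hc
      rw [li.Q1, Subgroup.mem_bot] at hx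
      exact ⟨y, h1 hy, by rwa [hx, mul_one] at e⟩,
      fun ⟨g, hg, e⟩ e' => ab (smul_left_cancel g ((h2 hg).trans (e' ▸ e).symm))⟩
  haveI := Fact.mk h.prime
  obtain ⟨j, hj⟩ := (h.Pp a).exists_card_eq
  obtain ⟨i, -, hi⟩ := (Nat.dvd_prime_pow h.prime).1
    (hj ▸ i3 _ le_rfl (h.Pfix a) ▸ Subgroup.relIndex_dvd_card (stabilizer G b) (P a))
  obtain ⟨f, hf⟩ := ((h.Pp a).to_le (inf_le_left : Zz P a ≤ P a)).exists_card_eq
  have kf : (Bl P a b).ncard = p ^ f + 1 := by rw [li.cardB, ← hf, li.cardZ]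
  have k4 : 4 ∣ p ^ f + 1 := by
    obtain ⟨d, hd⟩ := tor.odd
    rw [← kf, li.cardB, hd]
    exact ⟨d + 1, by ring⟩
  have mo : Odd ((Nn P a b).relIndex (stabilizer G a)) := by
    refine Odd.of_dvd_nat (po.pow (n := i)) ?_
    rw [← hi, ← i3 _ (h.Pfix a) le_rfl, ← Subgroup.inf_relIndex_left _ (stabilizer G b)]
    exact Subgroup.relIndex_dvd_of_le_left _ fun g hg =>
      bk.memN' a b g ab (by rw [show g • a = a from hg.1]; exact aB) (by rw [show g • b = b from hg.2]; exact bB)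
  have key : (p ^ f + 1) * (Nn P a b).index = (Nn P a b).relIndex (stabilizer G a) * (p ^ i + 1) := by
    rw [← kf, ← i2, ← hi, cmp, ← i1, ← Subgroup.inf_relIndex_right, Subgroup.relIndex_mul_index inf_le_right,
      ← Subgroup.inf_relIndex_left (stabilizer G a), Subgroup.relIndex_mul_index inf_le_left]
  have n4 : 4 ∣ p ^ i + 1 := (Nat.Coprime.pow_left 2 (Nat.coprime_two_left.2 mo)).dvd_of_dvd_mul_left
    (key ▸ k4.mul_right _)
  obtain ⟨m1, o1, e1⟩ := arith po k4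
  obtain ⟨m2, o2, e2⟩ := arith po n4
  rw [e1, e2, mul_assoc, mul_left_comm _ (p + 1), mul_right_inj' (Nat.succ_ne_zero p)] at key
  obtain ⟨M, Mn, M2, wM⟩ := CL.Transfer.thompson_transfer (Nn P a b) (Cc P a b)
    (Nat.odd_mul.1 (key ▸ mo.mul o2)).2 rel w (by rw [sq, ww]) wC
  refine wM ((h.gen M Mn (fun c y hy => ?_) fun c y hy => ?_).symm ▸ Subgroup.mem_top w)
  · obtain ⟨s, hs⟩ := h.Pp c ⟨y, hy⟩
    exact mem_of_odd M2 (po.pow (n := s)) (congrArg Subtype.val hs)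
  · exact mem_of_odd M2 (h.Qodd c) (congrArg Subtype.val (pow_card_eq_one' (x := (⟨y, hy⟩ : Q c))))

end CL.Perm.Hks
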