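/-
Project HKS (S1145): the involutions without fixed points that interchange two points.
-/
import Cfsg.Agent.Perm.HksDefs

set_option autoImplicit false
set_option linter.unusedSectionVars false

namespace CL.Perm.Hks

open MulAction Cfsg CL.Perm.V4 CL.Perm.V4D CL.Perm.Kos

universe u v

namespace HsJ

variable {G : Type u} {Ω : Type v} [Group G] [Finite G] [MulAction G Ω] {p : ℕ} {P Q : Ω → Subgroup G} {a b : Ω}
  {u s v g z : G} {D : Subgroup G}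

theorem sb (f : Fpf a b s) : s • b = a := by rw [← f.ua, smul_smul, f.sq, one_smul]

theorem inv_fix {c : Ω} (e : g • c = c) : g⁻¹ • c = c := inv_smul_eq_iff.2 e.symm

/-- `s` fixes no orbit of `D` -/
theorem no_orb (t : Tor p P a b u D) (f : Fpf a b s) {e : Ω} (ea : e ≠ a) (eb : e ≠ b) {x : G} (hx : x ∈ D) :
    s • e ≠ x • e := fun h => by
  have si : s⁻¹ = s := inv_eq_of_mul_eq_one_right f.sq
  have h1 : (x⁻¹ * s) • e = e := by rw [mul_smul, h, inv_smul_smul]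
  have h2 : x⁻¹ * (s * x⁻¹ * s⁻¹) = 1 := by_contra fun n =>
    (t.fix _ (mul_mem (inv_mem hx) (t.nrm s (.inr ⟨f.ua, sb f⟩) _ (inv_mem hx))) n e (by
      rw [si, mul_assoc, ← mul_assoc x⁻¹, mul_smul, h1, h1])).elim ea eb
  obtain ⟨m, hm⟩ := t.odd
  have h3 : x ^ (2 * m + 1) = 1 := hm ▸ congrArg Subtype.val (pow_card_eq_one' (x := (⟨x, hx⟩ : D)))
  have h4 : s * x ^ (m + 1) * s⁻¹ = (x ^ (m + 1))⁻¹ := by
    rw [← conj_pow, ← inv_pow, ← inv_inv (s * x * s⁻¹), conj_inv, ← inv_mul_eq_one.1 h2]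
  refine f.free (x ^ (m + 1) • e) ?_
  rw [smul_smul, mul_inv_eq_iff_eq_mul.1 h4, mul_smul, h, smul_smul]
  congr 1
  rw [inv_mul_eq_iff_eq_mul, ← pow_add, show m + 1 + (m + 1) = 2 * m + 1 + 1 by ring, pow_succ, h3, one_mul]

variable (h : Ks G Ω p P Q)
include h

theorem a_mem : a ∈ Bl P a b := fun k hk => h.Pfix a k hk.1

omit h in
theorem b_mem : b ∈ Bl P a b := fun _ hk => hk.2

theorem Zn (e : g • a = a) (hz : z ∈ Zz P a) : g * z * g⁻¹ ∈ Zz P a := by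
  refine ⟨e ▸ h.Pc g a z hz.1, fun y hy => ?_⟩
  have := hz.2 _ (inv_fix e ▸ h.Pc g⁻¹ a y hy)
  calc _ = g * (g⁻¹ * y * g⁻¹⁻¹ * z) * g⁻¹ := by group
    _ = _ := by rw [this]; group

theorem swap (bk : Bk p P Q) (ab : a ≠ b) (t : Tor p P a b u D) (li : Lin P Q a b D) (f : Fpf a b s) (hv : v ∈ Zz P a)
    (v1 : v ≠ 1) : ∃ x ∈ D, s • v • b = x • v⁻¹ • b := by
  have h1 : v • b ≠ a := fun e => ab (smul_left_cancel v ((h.Pfix a v hv.1).trans e.symm))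
  have h2 : v • b ≠ b := fun e => v1 (bk.Zreg a b ab.symm v hv e)
  have h3 : s • v • b ∈ Bl P a b := (bk.memN a b s ab).1 (bk.memN' a b s ab (f.ua ▸ b_mem) (sb f ▸ a_mem h)) _
    fun k hk => by rw [smul_smul, hv.2 k hk.1, mul_smul, hk.2]
  obtain ⟨z, hz, e⟩ := li.Ztr _ h3 fun e => h2 (smul_left_cancel s (e.trans (sb f).symm))
  obtain ⟨x, hx, e1⟩ := li.orb v hv v1 z hz (by
    rintro rfl
    exact h1 (smul_left_cancel s (e.symm.trans ((one_smul G b).trans f.ua.symm))))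
  have h4 := inv_fix ((t.mem x).1 hx).2.1
  rcases e1 with rfl | rfl <;> rw [mul_smul, mul_smul, h4] at e
  · exact absurd e.symm (no_orb t f h1 h2 hx)
  · exact ⟨x, hx, e.symm⟩

end HsJ

open HsJ in
theorem hsS : HsS.{u, v} := by
  intro G Ω _ _ _ _ p P Q h bk lw a b u D c t li s f
  obtain ⟨⟨v, hv⟩, v1⟩ := (Subgroup.ne_bot_iff_exists_ne_one).1 (bk.Zne a)
  replace v1 : v ≠ 1 := fun e => v1 (Subtype.ext e)
  obtain ⟨x1, hx1, e1⟩ := swap h bk c.ne t li f hv v1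
  obtain ⟨x2, hx2, e2⟩ := swap h bk c.ne t li c.fpf (inv_mem hv) (inv_ne_one.2 v1)
  have nu := t.nrm u (.inr ⟨c.fpf.ua, sb c.fpf⟩)
  have ns := t.nrm s (.inr ⟨f.ua, sb f⟩)
  obtain ⟨x, hx, e3⟩ : ∃ x ∈ D, (u * s) • v • b = x • v • b := ⟨u * x1 * u⁻¹ * x2, mul_mem (nu _ hx1) hx2, by
    rw [inv_inv] at e2
    rw [mul_smul, e1, mul_smul _ x2, ← e2, smul_smul _ u, inv_mul_cancel_right, mul_smul]⟩
  obtain ⟨xa, xb, xC, -⟩ := (t.mem x).1 hx
  obtain ⟨w, hw⟩ : ∃ w, u * s = x * w := ⟨x⁻¹ * (u * s), by group⟩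
  have wa : w • a = a := smul_left_cancel x (by rw [smul_smul, ← hw, mul_smul, f.ua, sb c.fpf, xa])
  have wb : w • b = b := smul_left_cancel x (by rw [smul_smul, ← hw, mul_smul, sb f, c.fpf.ua, xb])
  have wv : w * v * w⁻¹ = v := (inv_mul_eq_one.1 (bk.Zreg a b c.ne.symm _ (mul_mem (inv_mem hv) (Zn h wa hv)) (by
    rw [hw, mul_smul] at e3
    rw [mul_smul, mul_smul, mul_smul, inv_fix wb, smul_left_cancel x e3, inv_smul_smul]))).symm
  have wD : ∀ y ∈ D, w * y * w⁻¹ = s * y⁻¹ * s⁻¹ := fun y hy => by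
    have := t.cyc
    have e4 := ((t.mem _).1 (ns y hy)).2.2.2
    have e5 : x * (s * y⁻¹ * s⁻¹) = s * y⁻¹ * s⁻¹ * x :=
      congrArg Subtype.val (mul_comm' (⟨x, hx⟩ : D) ⟨_, ns _ (inv_mem hy)⟩)
    calc w * y * w⁻¹ = x⁻¹ * (x * w * y * (x * w)⁻¹) * x := by group
      _ = x⁻¹ * (u * (s * y * s⁻¹) * u⁻¹) * x := by rw [← hw]; group
      _ = _ := by rw [e4, conj_inv, mul_assoc, ← e5, inv_mul_cancel_left]
  have wD' : ∀ y ∈ D, w * y * w⁻¹ ∈ D := fun y hy => wD y hy ▸ ns _ (inv_mem hy)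
  have cl : ∀ z ∈ Zz P a, z ≠ 1 → ∃ y ∈ D, ∃ v', w * v' * w⁻¹ = v' ∧ z = y * v' * y⁻¹ := fun z hz z1 => by
    obtain ⟨y, hy, e | e⟩ := li.orb v hv v1 z hz z1
    exacts [⟨y, hy, v, wv, e⟩, ⟨y, hy, v⁻¹, by rw [← conj_inv, wv], e⟩]
  have w2 : ∀ z ∈ Zz P a, w * (w * z * w⁻¹) * w⁻¹ = z := fun z hz => by
    by_cases z1 : z = 1
    · simp [z1]
    obtain ⟨y, hy, v', e, rfl⟩ := cl z hz z1
    have e4 : w * (w * y * w⁻¹) * w⁻¹ = y := by
      rw [wD _ (wD' y hy), wD y hy, conj_inv, inv_inv, ← mul_assoc, ← mul_assoc, f.sq, mul_assoc, ← mul_inv_rev, f.sq]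
      group
    calc _ = w * (w * y * w⁻¹) * w⁻¹ * (w * (w * v' * w⁻¹) * w⁻¹) * (w * (w * y * w⁻¹) * w⁻¹)⁻¹ := by group
      _ = _ := by rw [e4, e, e]
  have wZ : ∀ z ∈ Zz P a, w * z = z * w := fun z hz => by
    have m := mul_mem hz (inv_mem (Zn h wa hz))
    have e4 : w * (z * (w * z * w⁻¹)⁻¹) * w⁻¹ = (z * (w * z * w⁻¹)⁻¹)⁻¹ := by
      calc _ = w * z * w⁻¹ * (w * (w * z * w⁻¹) * w⁻¹)⁻¹ := by group
        _ = _ := by rw [w2 z hz]; group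
    refine mul_inv_eq_iff_eq_mul.1 (mul_inv_eq_one.1 (by_contra fun n => ?_)).symm
    obtain ⟨y, hy, v', e, e5⟩ := cl _ m n
    refine li.norb _ m n _ (mul_mem (wD' y hy) (inv_mem hy)) (Eq.trans ?_ e4)
    rw [e5]
    conv_lhs => rw [← e]
    group
  have pw : Pw (Bl P a b) w := fun e he => by
    by_cases ea : e = a
    · rw [ea, wa]
    obtain ⟨z, hz, rfl⟩ := li.Ztr e he ea
    rw [smul_smul, wZ z hz, mul_smul, wb]
  refine ⟨x, hx, w, pw, lw.CW a b c.ne _ ?_ fun e he => by rw [mul_smul, pw e he, pw e he], hw⟩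
  have wN := bk.memN' a b w c.ne (wa.symm ▸ a_mem h) (wb.symm ▸ b_mem)
  have m := mul_mem (inv_mem c.uC) xC
  have m' : w * (u⁻¹ * x) * w⁻¹ ∈ Cc P a b := fun k hk => by
    have := m _ ((Subgroup.mem_normalizer_iff.1 (inv_mem wN) k).1 hk)
    calc _ = w * (w⁻¹ * k * w⁻¹⁻¹ * (u⁻¹ * x)) * w⁻¹ := by group
      _ = _ := by rw [this]; group
  have e4 : u⁻¹ * x * (w * (u⁻¹ * x) * w⁻¹) * (w * w) = 1 := by
    rw [← f.sq, show s = u⁻¹ * (x * w) by rw [← hw]; group]; group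
  rw [← inv_eq_of_mul_eq_one_right e4]
  exact inv_mem (mul_mem m m')

end CL.Perm.Hks
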