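/-
Project HKS, job Iv: the elements inverted by `u`.
-/
import Cfsg.Agent.Perm.HksDefs
import Cfsg.Agent.Perm.KosBase
import Cfsg.Agent.Perm.Homog1

set_option autoImplicit false
set_option linter.unusedSectionVars false

namespace CL.Perm.Hks

open MulAction Cfsg CL.Perm.V4 CL.Perm.V4D CL.Perm.Kos Subgroup

universe u v

namespace IvA

variable {G : Type u} {Ω : Type v} [Group G] [Finite G] [Finite Ω] [MulAction G Ω] {p : ℕ} {P Q : Ω → Subgroup G}
  {a b : Ω} {u x : G}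

/-- the elements of `Gs` centralising `x` modulo `K` -/
def X (cb : Cb P Q a b u) (x : G) : Subgroup G where
  carrier := {n | n ∈ Gs P Q a b ∧ n⁻¹ * x * n * x⁻¹ ∈ Kk P a b}
  one_mem' := ⟨one_mem _, by simp⟩
  mul_mem' := fun {n m} hn hm => ⟨mul_mem hn.1 hm.1, by
    have := mul_mem ((mem_normalizer_iff''.1 (cb.GsN hm.1) _).1 hn.2) hm.2
    simpa only [mul_assoc, mul_inv_rev, mul_inv_cancel_left, inv_mul_cancel_left] using this⟩
  inv_mem' := fun {n} hn => ⟨inv_mem hn.1, by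
    have := (mem_normalizer_iff.1 (cb.GsN hn.1) _).1 (inv_mem hn.2)
    simpa only [mul_assoc, mul_inv_rev, mul_inv_cancel_left, inv_mul_cancel_left, inv_inv, mul_inv_cancel,
      mul_one] using this⟩

theorem CG : Cc P a b ≤ Gs P Q a b := le_sup_left.trans le_sup_left

theorem left_mem (h : Ks G Ω p P Q) : a ∈ Bl P a b := fun k hk => h.Pfix a k hk.1

theorem right_mem : b ∈ Bl P a b := fun _ hk => hk.2

variable (h : Ks G Ω p P Q) (bk : Bk p P Q) (lw : Lw p P Q) (cb : Cb P Q a b u)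
include h bk lw cb

theorem tr {c d e : Ω} (hc : c ∈ Bl P a b) (hd : d ∈ Bl P a b) (he : e ∈ Bl P a b) (xc : x • c = c) (xd : x • d = d)
    (xe : x • e = e) (dc : d ≠ c) (ec : e ≠ c) : ∃ n ∈ X cb x, n • c = c ∧ n • d = e := by
  have eK := bk.Keq a b c d cb.ne dc.symm hc hd
  obtain ⟨y, hy, q, hq, e1⟩ := bk.trN c d dc.symm d right_mem e (by rwa [Bl, eK]) dc ec
  replace hy := mem_inf.1 hy
  obtain ⟨g, hg, rfl⟩ := cb.Ctr c hc
  have gN := cb.GsN (CG hg)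
  have k : ∀ z, g⁻¹ * z * g ∈ Gs P Q a b → z ∈ Gs P Q a b := fun z hz => by simpa [mul_assoc] using cb.nrm g gN _ hz
  refine ⟨y * q, ⟨mul_mem (k y (mem_sup_left (mem_sup_right ⟨by simpa using h.Pc g⁻¹ _ y hy.1,
    (Nn P a b).mul_mem (mul_mem (inv_mem gN) (by simpa only [Nn, eK] using hy.2)) gN⟩))) (k q (mem_sup_right
      (by simpa using h.Qc g⁻¹ _ q hq))), ?_⟩, by rw [mul_smul, h.Qfix _ q hq, h.Pfix _ y hy.1], e1⟩
  have h1 := mul_mem (inv_mem hy.1) (xc ▸ h.Pc x _ y hy.1 : x * y * x⁻¹ ∈ P (g • a))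
  have h2 := mul_mem (inv_mem hq) (xc ▸ h.Qc x _ q hq : x * q * x⁻¹ ∈ Q (g • a))
  have e2 : (y * q)⁻¹ * x * (y * q) * x⁻¹ = y⁻¹ * (x * y * x⁻¹) * (q⁻¹ * (x * q * x⁻¹)) := by
    rw [← mul_assoc _ q⁻¹, h.comm _ _ h1 _ (inv_mem hq)]; group
  obtain ⟨h3, h4⟩ := bk.split _ d dc.symm _ h1 _ h2 (by
    rw [← e2, mul_smul, mul_smul, mul_smul, inv_smul_eq_iff.2 xd.symm, e1, xe, ← e1, inv_smul_smul])
  rw [e2, lw.Qreg _ d dc.symm _ h2 h4, mul_one, ← eK]
  exact ⟨h1, h3⟩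

theorem A (hx : Iv P a b u x) {e : Ω} (he : e ∈ Bl P a b) (xe : x • e = e) (ea : e ≠ a) (eb : e ≠ b) : x = 1 := by
  obtain ⟨xa, xb, xC, ux⟩ := hx
  obtain ⟨n, hn, n1, n2⟩ := tr h bk lw cb he (left_mem h) right_mem xe xa xb ea.symm eb.symm
  have h1 := (bk.memN a b n cb.ne).1 (cb.GsN hn.1) b right_mem
  obtain ⟨m, hm, m1, m2⟩ := tr h bk lw cb right_mem h1 (left_mem h) xb (by
    have := right_mem (P := P) (a := a) _ hn.2
    rwa [mul_smul, mul_smul, mul_smul, inv_smul_eq_iff.2 xb.symm, inv_smul_eq_iff] at this) xa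
    (fun e => cb.ne (smul_left_cancel n (n2.trans e.symm))) cb.ne
  have g1 : (m * n) • a = b := by rw [mul_smul, n2, m1]
  have g2 : (m * n) • b = a := by rw [mul_smul, m2]
  have hg := mul_mem hm hn
  generalize m * n = g at g1 g2 hg
  obtain ⟨j, hj⟩ := cb.oddS (g * g) (mul_mem hg.1 hg.1) (by rw [mul_smul, g1, g2])
  have ss : g ^ (2 * j + 1) * g ^ (2 * j + 1) = 1 := by rw [← (Commute.refl g).mul_pow, ← hj, pow_orderOf_eq_one]
  have sa : g ^ (2 * j + 1) • a = b := by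
    rw [pow_succ, mul_smul, g1, pow_mul]
    exact (stabilizer G b).pow_mem (x := g ^ 2) (by rw [mem_stabilizer_iff, pow_two, mul_smul, g2, g1]) j
  have hs := pow_mem hg (2 * j + 1)
  generalize g ^ (2 * j + 1) = s at ss sa hs
  have sC := cb.inC s hs.1 ss
  have k1 := mem_centralizer_iff.1 cb.uC _ hs.2
  have k2 := mem_centralizer_iff.1 (mul_mem cb.uC sC) _ hs.2
  have k3 := mem_centralizer_iff.1 xC _ hs.2
  have e1 : s * x * s⁻¹ = s⁻¹ * x * s * x⁻¹ * x := by rw [inv_eq_of_mul_eq_one_left ss, inv_mul_cancel_right]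
  generalize s⁻¹ * x * s * x⁻¹ = k at k1 k2 k3 e1
  have e2 : u * s * x * (u * s)⁻¹ = k * x⁻¹ := by
    rw [← ux, ← mul_assoc, ← mul_assoc, k1, mul_assoc u k, ← e1]; group
  have e3 : Commute ((u * s) ^ 2) x := by
    rw [Commute, SemiconjBy, ← mul_inv_eq_iff_eq_mul]
    calc _ = u * s * (u * s * x * (u * s)⁻¹) * (u * s)⁻¹ := by rw [pow_two]; group
      _ = u * s * k * (u * s)⁻¹ * (u * s * x * (u * s)⁻¹)⁻¹ := by nth_rw 1 [e2]; group
      _ = x := by
        rw [← k2, e2, mul_inv_cancel_right, mul_inv_rev, inv_inv, ← mul_assoc, k3, mul_inv_cancel_right]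
  obtain ⟨i, hi⟩ := cb.oddS _ (CG (mul_mem cb.uC sC)) (by rw [mul_smul, sa, cb.fpf.ub])
  have e4 := e3.pow_left (i + 1)
  rw [← pow_mul, show 2 * (i + 1) = 2 * i + 1 + 1 from rfl, pow_succ, ← hi, pow_orderOf_eq_one, one_mul] at e4
  rw [e4.eq, mul_inv_cancel_right, eq_mul_inv_iff_mul_eq] at e2
  have o := cb.oddS x (CG xC) xa
  have e5 : x * x = 1 := eq_one_of_odd_of_inv (o.of_dvd_nat (by rw [← pow_two]; exact orderOf_pow_dvd 2)) (by
    rw [mul_inv_rev, ← ux, conj_mul, e2, ← k1, mul_inv_cancel_right])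
  exact eq_one_of_odd_of_inv o (eq_inv_of_mul_eq_one_left e5)

end IvA

open IvA in
theorem ivS : IvS.{u, v} := by
  intro G Ω _ _ _ _ p P Q h bk lw a b u cb x hx x1
  have := Fact.mk h.prime
  have hp : ¬ p ∣ orderOf x := fun hd => by
    have o := orderOf_pow_orderOf_div (orderOf_pos x).ne' hd
    have hy : Iv P a b u (x ^ (orderOf x / p)) := ⟨(stabilizer G a).pow_mem hx.1 _, (stabilizer G b).pow_mem hx.2.1 _,
      pow_mem hx.2.2.1 _, by rw [← conj_pow, hx.2.2.2, inv_pow]⟩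
    generalize x ^ (orderOf x / p) = y at o hy
    have e := ncard_modEq_ncard_fixed_elt (p := p) (j := 1) (g := y) (by rw [pow_one, ← o, pow_orderOf_eq_one])
      (Bl P a b) (Set.toFinite _) ((bk.memN a b y cb.ne).1 (cb.GsN (CG hy.2.2.1)))
    rw [show {c | c ∈ Bl P a b ∧ y • c = c} = {a, b} from Set.ext fun c => ⟨fun hc => by_contra fun e =>
      h.prime.one_lt.ne (by rw [← o, A h bk lw cb hy hc.1 hc.2 (fun e' => e (.inl e')) fun e' => e (.inr e'),
        orderOf_one]), by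
      rintro (rfl | rfl)
      exacts [⟨left_mem h, hy.1⟩, ⟨right_mem, hy.2.1⟩]⟩, Set.ncard_pair cb.ne, Nat.ModEq, bk.modB a b cb.ne,
      Nat.mod_eq_of_lt (lt_of_le_of_ne h.prime.two_le h.odd.symm)] at e
    omega
  refine ⟨hp, fun c hc => by_contra fun e => x1 ?_⟩
  exact A h bk lw cb hx ((lw.PP a b cb.ne x hx.2.2.1 x1 hx.1 hx.2.1 hp).1 c hc) hc (fun e' => e (.inl e'))
    fun e' => e (.inr e')

end CL.Perm.Hks
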