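/-
Project HKS: the linear block.
-/
import Cfsg.Agent.Perm.HksDefs
import Cfsg.Agent.Perm.KosBase

set_option autoImplicit false
set_option linter.unusedSectionVars false

namespace CL.Perm.Hks

open MulAction Cfsg Subgroup CL.Perm.V4 CL.Perm.V4D CL.Perm.Kos CL.Fgs CL.Grp

universe u v

variable {G : Type u} {Ω : Type v} [Group G] [Finite G] [Finite Ω] [MulAction G Ω] {p : ℕ} {P Q : Ω → Subgroup G}
  {a b : Ω} {u : G} {D : Subgroup G} (h : Ks G Ω p P Q) (bk : Bk p P Q) (c : Cb P Q a b u) (t : Tor p P a b u D)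
include h

theorem lin_P {g y : G} (hg : g • a = a) (hy : y ∈ P a) : g * y * g⁻¹ ∈ P a := by simpa [hg] using h.Pc g a y hy

theorem lin_Z {g z : G} (hg : g • a = a) (hz : z ∈ Zz P a) : g * z * g⁻¹ ∈ Zz P a :=
  ⟨lin_P h hg hz.1, fun y hy => by
    have := hz.2 _ (lin_P h (inv_smul_eq_iff.2 hg.symm) hy)
    calc _ = g * (g⁻¹ * y * g⁻¹⁻¹ * z) * g⁻¹ := by group
      _ = _ := by rw [this]; group⟩

theorem lin_ne {y : G} (hy : y • a = a) {e : Ω} (he : e ≠ a) : y • e ≠ a := fun e' =>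
  he (MulAction.injective y (e'.trans hy.symm))

theorem lin_a : a ∈ Bl P a b := fun k hk => h.Pfix a k hk.1

include bk c

theorem lin_St {g : G} (hg : g ∈ Cc P a b) : St (Bl P a b) g := (bk.memN a b g c.ne).1 (centralizer_le_normalizer _ hg)

theorem lin_dvd {X : Subgroup G} (h1 : X ≤ Cc P a b) (h2 : ∀ x ∈ X, x • a = a) (h3 : ∀ x ∈ X, ∀ e ≠ a, x • e = e → x = 1) :
    Nat.card X ∣ (Bl P a b).ncard - 1 := by
  rw [← Set.ncard_sdiff_singleton_of_mem (lin_a h)]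
  exact card_dvd_ncard_of_semiregular X _ (fun g hg e he => ⟨lin_St h bk c (h1 hg) e he.1, lin_ne h (h2 g hg) he.2⟩)
    fun g hg e he => h3 g hg e he.2

theorem lin_ZK {z : G} (hz : z ∈ Zz P a) (hk : z ∈ Kk P a b) : z = 1 := bk.Zreg a b c.ne.symm z hz hk.2

include t

theorem lin_CD : ∀ x ∈ D, x ≠ 1 → ∀ y ∈ P a, y * x = x * y → y ∈ Kk P a b := fun x hx x1 y hy e =>
  ⟨hy, (t.fix x hx x1 (y • b) (by rw [← mul_smul, ← e, mul_smul, ((t.mem x).1 hx).2.1])).resolve_left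
    (lin_ne h (h.Pfix a y hy) c.ne.symm)⟩

theorem lin_reg {x z : G} (hx : x ∈ D) (hz : z ∈ Zz P a) (z1 : z ≠ 1) (e : x * z * x⁻¹ = z) : x = 1 :=
  by_contra fun x1 => z1 (lin_ZK h bk c hz (lin_CD h bk c t x hx x1 z hz.1 (mul_inv_eq_iff_eq_mul.1 e).symm))

theorem lin_norb : ∀ v ∈ Zz P a, v ≠ 1 → ∀ x ∈ D, x * v * x⁻¹ ≠ v⁻¹ := fun v hv v1 x hx e => by
  have e2 := lin_reg h bk c t (mul_mem hx hx) hv v1 (by
    rw [mul_inv_rev, ← mul_assoc, mul_assoc x, mul_assoc x, e, ← conj_inv, e, inv_inv])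
  obtain rfl := eq_one_of_odd_of_inv (t.odd.of_dvd_nat (D.orderOf_dvd_natCard hx)) (eq_inv_of_mul_eq_one_left e2)
  have := Fact.mk h.prime
  obtain ⟨n, hn⟩ := IsPGroup.iff_orderOf.1 (h.Pp a) ⟨v, hv.1⟩
  exact v1 (eq_one_of_odd_of_inv (by rw [← orderOf_mk v hv.1, hn]; exact (h.prime.odd_of_ne_two h.odd).pow) (by simpa using e))

theorem lin_lin (lw : Lw p P Q) (hB : (Bl P a b).ncard = 2 * Nat.card D + 2) {f : ℕ} (hf : (Bl P a b).ncard = p ^ f + 1) :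
    Lin P Q a b D := by
  have ZC := bk.ZC a b c.ne a (lin_a h)
  have Da : ∀ x ∈ D, x • a = a := fun x hx => ((t.mem x).1 hx).1
  have Qa : Q a = ⊥ := card_eq_one.1 (by
    have := lin_dvd h bk c (bk.QC a b) (h.Qfix a) fun x hx e he => lw.Qreg a e he.symm x hx
    rw [hf, Nat.add_sub_cancel] at this
    exact (((h.prime.coprime_iff_not_dvd).2 (h.Qp a)).pow_left f).symm.eq_one_of_dvd this)
  have z0 : ((Zz P a : Set G) \ {1}).ncard = Nat.card (Zz P a) - 1 := Set.ncard_sdiff_singleton_of_mem (one_mem _)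
  have cZ : Nat.card (Zz P a) = 2 * Nat.card D + 1 := by
    have z1 := lin_dvd h bk c ZC (fun x hx => h.Pfix a x hx.1) fun x hx e he => bk.Zreg a e he x hx
    obtain ⟨k, z2⟩ := z0 ▸ @card_dvd_ncard_of_semiregular G _ G (.compHom G MulAut.conj) _ D ((Zz P a : Set G) \ {1})
      (fun g hg z hz => ⟨lin_Z h (Da g hg) hz.1, fun e => hz.2 (conj_eq_one_iff.1 e)⟩)
      fun g hg z hz e => lin_reg h bk c t hg hz.1 hz.2 e
    have z3 := (Zz P a).one_lt_card_iff_ne_bot.2 (bk.Zne a)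
    have z4 : 0 < Nat.card D := Nat.card_pos
    rw [hB] at z1
    have z5 := Nat.le_of_dvd (by omega) z1
    obtain rfl | rfl | rfl | hk : k = 0 ∨ k = 1 ∨ k = 2 ∨ 3 ≤ k := by omega
    · omega
    · rw [show Nat.card (Zz P a) = Nat.card D + 1 by omega, show 2 * Nat.card D + 2 - 1 = Nat.card D + 1 + Nat.card D by omega,
        Nat.dvd_add_right dvd_rfl] at z1
      have := Nat.le_of_dvd z4 z1
      omega
    · omega
    · have := Nat.mul_le_mul_left (Nat.card D) hk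
      omega
  have bB : b ∈ Bl P a b := fun k hk => hk.2
  have Ztr : ∀ e ∈ Bl P a b, e ≠ a → ∃ z ∈ Zz P a, z • b = e := fun e he ea =>
    (Set.eq_of_subset_of_ncard_le (s := (· • b) '' (Zz P a : Set G)) (t := Bl P a b \ {a}) (by
      rintro _ ⟨z, hz, rfl⟩
      exact ⟨lin_St h bk c (ZC hz) b bB, lin_ne h (h.Pfix a z hz.1) c.ne.symm⟩) (by
      rw [Set.ncard_sdiff_singleton_of_mem (lin_a h), hB, Set.InjOn.ncard_image fun x hx y hy e => (inv_mul_eq_one.1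
        (bk.Zreg a b c.ne.symm _ (mul_mem (inv_mem hx) hy) (by rw [mul_smul, inv_smul_eq_iff]; exact e.symm)))]
      exact cZ.ge)).ge ⟨he, ea⟩
  refine ⟨fun e => ?_, hB, cZ, Ztr, fun y hy => ?_, fun v hv v1 z hz z1 => ?_, lin_norb h bk c t, lin_CD h bk c t⟩
  · by_cases he : e = a
    · rw [he, Qa]
    obtain ⟨g, hg, -⟩ := h.t2 he c.ne
    exact eq_bot_iff.2 fun y hy => conj_eq_one_iff.1 (mem_bot.1 (Qa ▸ hg ▸ h.Qc g e y hy))
  · obtain ⟨z, hz, e⟩ := Ztr _ ((bk.memN a b y c.ne).1 hy.2 b bB) (lin_ne h (h.Pfix a y hy.1) c.ne.symm)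
    have h1 := (P a).mul_mem ((P a).inv_mem hz.1) hy.1
    exact ⟨_, ⟨h1, show _ • b = b by rw [mul_smul, ← e, inv_smul_smul]⟩, z, hz, by rw [hz.2 _ h1, mul_inv_cancel_left]⟩
  have k : ∀ w ∈ Zz P a, w ≠ 1 → ((fun x => x * w * x⁻¹) '' (D : Set G)).ncard = Nat.card D ∧
      (fun x => x * w * x⁻¹) '' (D : Set G) ⊆ (Zz P a : Set G) \ {1} := fun w hw w1 =>
    ⟨Set.InjOn.ncard_image fun x hx y hy e => (inv_mul_eq_one.1 (lin_reg h bk c t (mul_mem (inv_mem hx) hy) hw w1 (by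
      calc _ = x⁻¹ * (y * w * y⁻¹) * x := by group
        _ = _ := by rw [← show x * w * x⁻¹ = y * w * y⁻¹ from e]; group))), by
      rintro _ ⟨x, hx, rfl⟩
      exact ⟨lin_Z h (Da x hx) hw, fun e => w1 (conj_eq_one_iff.1 e)⟩⟩
  obtain ⟨k1, k2⟩ := k v hv v1
  obtain ⟨k3, k4⟩ := k v⁻¹ (inv_mem hv) (inv_ne_one.2 v1)
  obtain ⟨x, hx, e⟩ | ⟨x, hx, e⟩ := (Set.eq_of_subset_of_ncard_le (Set.union_subset k2 k4) (by
    rw [z0, cZ, Set.ncard_union_eq (Set.disjoint_left.2 ?_), k1, k3]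
    · omega
    rintro _ ⟨x, hx, rfl⟩ ⟨y, hy, e⟩
    refine lin_norb h bk c t v hv v1 _ (mul_mem (inv_mem hy) hx) ?_
    calc _ = y⁻¹ * (x * v * x⁻¹) * y := by group
      _ = _ := by rw [← show y * v⁻¹ * y⁻¹ = x * v * x⁻¹ from e]; group)).ge ⟨hz, z1⟩
  exacts [⟨x, hx, .inl e.symm⟩, ⟨x, hx, .inr e.symm⟩]

variable (l : Lin P Q a b D)
include l

theorem lin_tr {X : Subgroup G} (hX : X ≤ Kk P a b) {e : Ω} (he : ∀ k ∈ X, k • e = e) (ea : e ≠ a) :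
    ∃ y ∈ P a ⊓ centralizer (X : Set G), y • b = e := by
  obtain ⟨y, hy, q, hq, rfl⟩ := h.tr a b e c.ne.symm ea
  obtain rfl : q = 1 := mem_bot.1 (l.Q1 a ▸ hq)
  rw [mul_one] at he ⊢
  obtain ⟨r, hr, r1⟩ := Nat.exists_prime_and_dvd (D.one_lt_card_iff_ne_bot.2 t.ne).ne'
  obtain ⟨x, hx, xr⟩ := exists_mem_prime_order hr r1
  obtain ⟨xa, -, xC, -⟩ := (t.mem x).1 hx
  have x1 : x ∈ centralizer (X : Set G) := fun k hk => xC k (hX hk)
  have x2 : y * x⁻¹ * y⁻¹ ∈ centralizer (X : Set G) := fun k hk => by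
    have := inv_mem xC (y⁻¹ * k * y) ⟨(P a).mul_mem ((P a).mul_mem (inv_mem hy) (hX hk).1) hy,
      show _ • b = b by rw [mul_smul, mul_smul, he k hk, inv_smul_smul]⟩
    calc _ = y * (y⁻¹ * k * y * x⁻¹) * y⁻¹ := by group
      _ = _ := by rw [this]; group
  have m := @ncard_modEq_inter_fixedBy G _ G (.compHom G MulAut.conj) _ x r hr xr
    ((· * y) '' (P a ⊓ centralizer (X : Set G) : Subgroup G)) (by
      rintro _ ⟨w, hw, rfl⟩
      refine ⟨x * w * (y * x⁻¹ * y⁻¹), ⟨?_, mul_mem (mul_mem x1 hw.2) x2⟩, show _ = x * (w * y) * x⁻¹ by group⟩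
      have := mul_mem (lin_P h xa ((P a).mul_mem hw.1 hy)) (inv_mem hy)
      simp only [mul_assoc] at this ⊢
      exact this)
  rw [Set.ncard_image_of_injective _ (mul_left_injective y)] at m
  obtain ⟨_, ⟨w, hw, rfl⟩, e⟩ := Set.nonempty_of_ncard_ne_zero fun e => by
    replace m := Nat.modEq_zero_iff_dvd.1 (m.trans (congrArg (· % r) e))
    have := Fact.mk h.prime
    obtain ⟨n, hn⟩ := ((h.Pp a).to_le (inf_le_left (b := centralizer (X : Set G)))).exists_card_eq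
    exact t.cop ((Nat.prime_dvd_prime_iff_eq hr h.prime).1 (hr.dvd_of_dvd_pow (m.trans hn.dvd)) ▸ r1)
  have k : (w * y) • b = b := (l.CD x hx (fun e => hr.one_lt.ne' (by rw [← xr, e, orderOf_one])) _ ((P a).mul_mem hw.1 hy)
    (mul_inv_eq_iff_eq_mul.1 e).symm).2
  exact ⟨w⁻¹, inv_mem hw, by rw [inv_smul_eq_iff, ← mul_smul, k]⟩

theorem lin_fix (X : Subgroup G) (hX : X ≤ Kk P a b) (h0 : X ≠ ⊥) (e : Ω) (he : ∀ k ∈ X, k • e = e) : e ∈ Bl P a b := by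
  induction X using WellFoundedGT.induction with | ind X ih => ?_
  rcases hX.eq_or_lt with rfl | h1
  · exact he
  have := Fact.mk h.prime
  have h2 := lt_inf_normalizer_of_isPGroup ((h.Pp a).to_le inf_le_left) h1
  have st : ∀ g ∈ normalizer (X : Set G), St {e : Ω | ∀ k ∈ X, k • e = e} g := fun g hg e he k hk => by
    rw [← inv_smul_eq_iff, ← mul_smul, ← mul_smul, he _ ((mem_normalizer_iff''.1 hg k).1 hk)]
  refine ih _ h2 inf_le_left (ne_bot_of_gt h2) fun y hy => h.loc {e : Ω | ∀ k ∈ X, k • e = e} a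
    (fun k hk => h.Pfix a k (hX hk).1) (fun e => h0 (eq_bot_iff.2 fun k hk => h.faith k fun x => e.ge trivial k hk))
    (fun d hd e he da ea => ?_) ⟨u, st u (centralizer_le_normalizer _ fun k hk => c.uC k (hX hk)), c.fpf.free a⟩ y
    (mem_sup_left hy.1.1) (st y hy.2) b (fun k hk => (hX hk).2) c.ne.symm hy.1.2 e he
  obtain ⟨y, hy, rfl⟩ := lin_tr h bk c t l hX hd da
  obtain ⟨z, hz, rfl⟩ := lin_tr h bk c t l hX he ea
  have := mul_mem hz (inv_mem hy)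
  exact ⟨_, this.1, 1, one_mem _, by simpa using st _ (centralizer_le_normalizer _ this.2), by simp [mul_smul]⟩

theorem lin_ti : Ti P a b := by
  have fx : ∀ k ∈ Kk P a b, k ≠ 1 → ∀ e : Ω, k • e = e → e ∈ Bl P a b := fun k hk k1 e he =>
    lin_fix h bk c t l _ (zpowers_le.2 hk) (zpowers_ne_bot.2 k1) e fun _ hy => fix_zpowers hy he
  refine ⟨fx, fun k hk k' hk' => ?_⟩
  obtain ⟨y, -, y1, y2⟩ := bk.out2 a b c.ne
  have y3 : ∀ k ∈ Kk P a b, ∃ m ∈ Kk P a b, ∃ z ∈ Zz P a, y⁻¹ * k * y = m * z := fun k hk =>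
    l.N1 _ ((mem_normalizer_iff''.1 (mem_normalizer_fintype y2) k).1 ⟨hk.1, le_normalizer hk⟩)
  obtain ⟨m, hm, z, hz, e⟩ := y3 k hk
  obtain ⟨m', hm', z', hz', e'⟩ := y3 k' hk'
  have c1 : y⁻¹ * (k * k' * (k' * k)⁻¹) * y = m * m' * (m' * m)⁻¹ := by
    calc _ = y⁻¹ * k * y * (y⁻¹ * k' * y) * (y⁻¹ * k' * y * (y⁻¹ * k * y))⁻¹ := by group
      _ = m * (z * m') * z' * (m' * (z' * m) * z)⁻¹ := by rw [e, e']; group
      _ = m * m' * (z * z') * (m' * m * (z' * z))⁻¹ := by rw [← hz.2 m' hm'.1, ← hz'.2 m hm.1]; group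
      _ = _ := by rw [hz'.2 z hz.1]; group
  by_contra h0
  refine y1 ((bk.memN a b y c.ne).2 fun d hd => fx _ (mul_mem (mul_mem hk hk') (inv_mem (mul_mem hk' hk)))
    (mt mul_inv_eq_one.1 h0) _ ?_)
  rw [← inv_smul_eq_iff, ← mul_smul, ← mul_smul, c1]
  exact hd _ (mul_mem (mul_mem hm hm') (inv_mem (mul_mem hm' hm)))

omit h bk c t l in
theorem linS : LinS.{u, v} := fun _ _ _ _ _ _ _ _ _ h bk lw _ _ _ _ c t hB ⟨_, hf⟩ =>
  have l := lin_lin h bk c t lw hB hf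
  ⟨l, lin_ti h bk c t l⟩

end CL.Perm.Hks
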