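/-
Project HKS: the elements centralising `K`.
-/
import Cfsg.Agent.Perm.HksDefs
import Cfsg.Agent.Even.Amb
import Cfsg.Agent.Odd.BG1a

set_option autoImplicit false
set_option linter.unusedSectionVars false

namespace CL.Perm.Hks

open MulAction Cfsg CL.Even Subgroup

universe u v

namespace LwA

variable {G : Type u} {Ω : Type v} [Group G] [Finite G] [MulAction G Ω] {p : ℕ} {P Q : Ω → Subgroup G} {a b : Ω}
  {x y g : G}

theorem fix_conj {Φ : Set Ω} (hg : St Φ g⁻¹) (hx : Pw Φ x) : Pw Φ (g * x * g⁻¹) := fun c hc => by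
  rw [mul_smul, mul_smul, hx _ (hg c hc), smul_inv_smul]

theorem st_of_comm (e : g * x = x * g) : St {c : Ω | x • c = c} g := fun c hc => by
  rw [Set.mem_ofPred_eq, ← mul_smul, ← e, mul_smul, hc]

variable (h : Ks G Ω p P Q)
include h

theorem comm_of (hx : ¬ p ∣ orderOf x) (hm : y * x * y⁻¹ * x⁻¹ ∈ P a) (c : Commute (y * x * y⁻¹ * x⁻¹) x) :
    y * x = x * y := by
  obtain ⟨k, hk⟩ := isPGroup_iff_forall.1 (h.Pp a) _ hm
  have e := c.mul_pow (orderOf x)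
  rw [inv_mul_cancel_right, conj_pow, pow_orderOf_eq_one, mul_one, mul_inv_cancel, mul_one] at e
  have e1 := eq_one_of_coprime_of_pow (Nat.Coprime.coprime_dvd_left (orderOf_dvd_of_pow_eq_one e.symm)
    (h.prime.coprime_iff_not_dvd.2 hx).symm) hk
  rwa [mul_inv_eq_one, mul_inv_eq_iff_eq_mul] at e1

theorem cjP (hx : x • a = a) (hy : y ∈ P a) : x * y * x⁻¹ ∈ P a := hx ▸ h.Pc x a y hy

theorem cjQ (hx : x • a = a) (hy : y ∈ Q a) : x * y * x⁻¹ ∈ Q a := hx ▸ h.Qc x a y hy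

theorem nP (hx : x • a = a) : x ∈ 𝒩(P a) := mem_normalizer_fintype fun _ hy => cjP h hx hy

theorem cmP (hx : x • a = a) (hy : y ∈ P a) : y * x * y⁻¹ * x⁻¹ ∈ P a := by
  simpa only [mul_assoc] using mul_mem hy (cjP h hx (inv_mem hy))

theorem aB : a ∈ Bl P a b := fun k hk => h.Pfix a k hk.1

omit h in
theorem bB : b ∈ Bl P a b := fun _ hk => hk.2

theorem ab' (hx : x • a = a) (ho : ¬ p ∣ orderOf x) (hn : ∀ n ∈ P a ⊓ Nn P a b, n * x = x * n) :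
    ∀ y ∈ P a, y * x = x * y := by
  by_contra! h0
  obtain ⟨y0, h1, h2⟩ := h0
  have := Fact.mk h.prime
  obtain ⟨y, ⟨hy, hN⟩, h3⟩ := SetLike.exists_of_lt (CL.Grp.lt_inf_normalizer_of_isPGroup (D := P a ⊓ centralizer {x})
    (h.Pp a) (inf_lt_left.2 fun e => h2 (mem_centralizer_singleton_iff.1 (e h1))))
  have hm := cmP h hx hy
  refine h3 ⟨hy, mem_centralizer_singleton_iff.2 (comm_of h ho hm (hn _ ⟨hm, cent_le_norm _ fun k hk => ?_⟩))⟩
  have e1 := hn k ⟨hk.1, le_normalizer hk⟩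
  have e2 := mem_centralizer_singleton_iff.1 (conj_mem' hN ⟨hk.1, mem_centralizer_singleton_iff.2 e1⟩).2
  calc k * (y * x * y⁻¹ * x⁻¹) = y * (y⁻¹ * k * y * x) * y⁻¹ * x⁻¹ := by group
    _ = y * x * y⁻¹ * x⁻¹ * (x * k) * x⁻¹ := by rw [e2]; group
    _ = _ := by rw [← e1]; group

variable (k : Bk p P Q) (ne : a ≠ b)
include k ne

theorem stN (hg : g ∈ Nn P a b) : St (Bl P a b) g := (k.memN a b g ne).1 hg

theorem stQ (hg : g ∈ Q a) : St (Bl P a b) g := stN h k ne (cent_le_norm _ (k.QC a b hg))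

theorem lw (hC : x ∈ Cc P a b) (hx : Pw (Bl P a b) x) (ho : ¬ p ∣ orderOf x) : x = 1 := by
  have xa := hx a (aB h)
  have h1 := ab' (b := b) h xa ho fun n hn => comm_of h ho (cmP h xa hn.1) (comm_of_mem hC ⟨cmP h xa hn.1, by
    show _ • b = b
    rw [mul_smul, inv_smul_eq_iff.2 (hx b bB).symm, fix_conj (stN h k ne (inv_mem hn.2)) hx b bB]⟩)
  refine h.faith x fun e => ?_
  by_cases he : e = a
  · rw [he, xa]
  obtain ⟨y, hy, q, hq, rfl⟩ := h.tr a b e ne.symm he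
  rw [mul_smul, ← mul_smul x, ← h1 y hy, mul_smul, hx _ (stQ h k ne hq b bB)]

theorem qreg (hx : x ∈ Q a) (e : x • b = b) : x = 1 := by
  refine lw h k ne (k.QC a b hx) (h.loc _ a (aB h) (fun e => k.Kne a b ne (eq_bot_iff.2 fun y hy =>
    h.faith y fun c => (e.ge trivial : c ∈ Bl P a b) y hy)) (fun d hd e he h1 h2 => ?_) ?_ x (mem_sup_right hx)
    (stQ h k ne hx) b bB ne.symm e) fun e => h.Qp a (e.trans (orderOf_dvd_natCard _ hx))
  · obtain ⟨y, hy, q, hq, e⟩ := k.trN a b ne d hd e he h1 h2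
    exact ⟨y, hy.1, q, hq, stN h k ne (mul_mem hy.2 (cent_le_norm _ (k.QC a b hq))), e⟩
  · obtain ⟨g, e1, e2⟩ := h.t2 ne ne.symm
    exact ⟨g, stN h k ne (k.memN' a b g ne (e1 ▸ bB) (e2 ▸ aB h)), e1 ▸ ne.symm⟩

theorem cw (hC : g ∈ Cc P a b) (hg : Pw (Bl P a b) g) : g ∈ Kk P a b := by
  have := Fact.mk h.prime
  obtain ⟨R, hR⟩ : ∃ R : Subgroup G, ∀ x, x ∈ R ↔ x ∈ Cc P a b ∧ Pw (Bl P a b) x :=
    ⟨Cc P a b ⊓ fixingSubgroup G (Bl P a b), fun x => by rw [mem_inf, mem_fixingSubgroup_iff]; rfl⟩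
  have Ra : ∀ r ∈ R, r • a = a := fun r hr => ((hR r).1 hr).2 a (aB h)
  have h1 : IsPGroup p R := isPGroup_of_coprime fun x hx e =>
    lw h k ne ((hR x).1 hx).1 ((hR x).1 hx).2 (h.prime.coprime_iff_not_dvd.1 e.symm)
  have nR : Nn P a b ≤ 𝒩(R) := fun n hn => mem_normalizer_fintype fun r hr => (hR _).2
    ⟨conj_mem (norm_le_norm_cent _ hn) ((hR r).1 hr).1, fix_conj (stN h k ne (inv_mem hn)) ((hR r).1 hr).2⟩
  refine ⟨h.max a (P a ⊔ R) (isPGroup_sup' (h.Pp a) h1 fun r hr => nP h (Ra r hr)) (sup_le (h.Pfix a) Ra)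
    (fun s hs r hr => conj_mem ?_ hr) (mem_sup_right ((hR g).2 ⟨hC, hg⟩)), hg b bB⟩
  obtain ⟨y, hy, q, hq, e⟩ := h.tr a b (s • b) ne.symm fun e => ne (smul_left_cancel s (hs.trans e.symm))
  have e1 : ((y * q)⁻¹ * s) • a = a := by
    rw [mul_smul, hs, inv_smul_eq_iff, mul_smul, h.Qfix a q hq, h.Pfix a y hy]
  have e2 : ((y * q)⁻¹ * s) • b = b := by rw [mul_smul, ← e, inv_smul_smul]
  have m : ∀ x ∈ Nn P a b, x • a = a → x ∈ 𝒩(P a ⊔ R) := fun x h1 h2 =>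
    le_norm_sup (zpowers_le.2 (nP h h2)) (zpowers_le.2 (nR h1)) (mem_zpowers x)
  simpa only [mul_inv_cancel_left] using mul_mem (mul_mem (le_normalizer (mem_sup_left hy)) (m q (cent_le_norm _ (k.QC a b hq)) (h.Qfix a q hq)))
    (m _ (k.memN' a b _ ne (e1.symm ▸ aB h) (e2.symm ▸ bB)) e1)

theorem trc (xa : x • a = a) (xb : x • b = b) (ho : ¬ p ∣ orderOf x) {e : Ω} (he : e ≠ a) (xe : x • e = e) :
    ∃ y ∈ P a, ∃ q ∈ Q a, y * x = x * y ∧ q * x = x * q ∧ (y * q) • b = e := by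
  obtain ⟨y, hy, q, hq, rfl⟩ := h.tr a b e ne.symm he
  have fx : ∀ {c : Ω}, x • c = c → ∀ z ∈ zpowers x, z • c = c := fun hc => zpowers_le (H := stabilizer G _).2 hc
  have h1 : ∀ z ∈ zpowers x, y⁻¹ * (z * y * z⁻¹) ∈ Kk P a b ∧ q⁻¹ * (z * q * z⁻¹) = 1 := fun z hz => by
    have m1 := mul_mem (inv_mem hy) (cjP h (fx xa z hz) hy)
    have m2 := mul_mem (inv_mem hq) (cjQ h (fx xa z hz) hq)
    obtain ⟨e1, e2⟩ := k.split a b ne _ m1 _ m2 (by
      rw [← mul_assoc, h.comm a _ m1 _ (inv_mem hq),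
        show q⁻¹ * (y⁻¹ * (z * y * z⁻¹)) * (z * q * z⁻¹) = (y * q)⁻¹ * (z * (y * q * z⁻¹)) by group, mul_smul, mul_smul,
        mul_smul, fx xb _ (inv_mem hz), fx xe z hz, inv_smul_smul])
    exact ⟨⟨m1, e1⟩, qreg h k ne m2 e2⟩
  have := Fact.mk h.prime
  obtain ⟨n, hn⟩ := IsPGroup.iff_card.1 ((h.Pp a).to_le (inf_le_left : Kk P a b ≤ _))
  obtain ⟨c, hc, n, hn, rfl⟩ := CL.Odd.coprime_mem_sup_cent (A := zpowers x) (zpowers_le.2 (nP h xa)) inf_le_left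
    (le_norm_inf (zpowers_le.2 (nP h xa)) (le_norm_of_le (zpowers_le.2 xb)))
    (by rw [hn, Nat.card_zpowers]; exact (h.prime.coprime_iff_not_dvd.2 ho).symm.pow_right n)
    (.inl (CL.Odd.sol_of_abelian (CL.Odd.abelian_zpowers x))) hy fun z hz => (h1 z hz).1
  refine ⟨c, hc.1, q, hq, (hc.2 x (mem_zpowers x)).symm, ?_, ?_⟩
  · exact eq_mul_inv_iff_mul_eq.1 (inv_mul_eq_one.1 (h1 x (mem_zpowers x)).2)
  · rw [mul_assoc, h.comm a n hn.1 q hq, ← mul_assoc, mul_smul (c * q), show n • b = b from hn.2]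

theorem pp (hC : x ∈ Cc P a b) (x1 : x ≠ 1) (xa : x • a = a) (xb : x • b = b) (ho : ¬ p ∣ orderOf x) (c : Ω)
    (xc : x • c = c) : c ∈ Bl P a b := by
  by_cases h1 : c = a
  · exact h1 ▸ aB h
  by_cases h2 : c = b
  · exact h2 ▸ bB
  have m : ∀ {y q : G}, y * x = x * y → q * x = x * q → St {c : Ω | x • c = c} (y * q) := fun e1 e2 =>
    st_of_comm (Commute.mul_left e1 e2)
  refine fun y hy => h.loc {c | x • c = c} a xa (fun e => x1 (h.faith x fun c => (e.ge trivial : c ∈ {c | x • c = c})))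
    (fun d hd e he h3 h4 => ?_) ?_ y (mem_sup_left hy.1) (st_of_comm (comm_of_mem hC hy)) b xb ne.symm hy.2 c xc
  · obtain ⟨y, hy, q, hq, e1, e2, e3⟩ := trc h k h3.symm xa hd ho h4 he
    exact ⟨y, hy, q, hq, m e1 e2, e3⟩
  · obtain ⟨y, -, q, -, e1, e2, e3⟩ := trc h k ne.symm xb xa ho h2 xc
    exact ⟨_, m e1 e2, e3 ▸ h1⟩

end LwA

open LwA in
theorem lwS : LwS.{u, v} := fun _ _ _ _ _ _ _ _ _ h k =>
  ⟨fun _ _ ne _ => qreg h k ne, fun _ _ ne _ => cw h k ne, fun _ _ _ _ => ab' h,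
    fun _ _ ne _ xa xb ho _ => trc h k ne xa xb ho, fun a b ne _ hC x1 xa xb ho => ⟨pp h k ne hC x1 xa xb ho,
      fun y hy e => k.memN' a b y ne ((h.Pfix a y hy).symm ▸ aB h) (pp h k ne hC x1 xa xb ho _ (st_of_comm e b xb))⟩⟩

end CL.Perm.Hks
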