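/-
Project HKS: no involution centralising `K` fixes a point of the block.
-/
import Cfsg.Agent.Perm.HksDefs

set_option autoImplicit false
set_option linter.unusedSectionVars false

namespace CL.Perm.Hks

open MulAction Cfsg CL.Perm.V4 CL.Perm.V4D CL.Perm.Kos Subgroup

universe u v

namespace NoAJ

variable {G : Type u} {Ω : Type v} [Group G] [Finite G] [Finite Ω] [MulAction G Ω] {s y y' : G}

theorem sq_inj (h : Odd (orderOf y)) (h' : Odd (orderOf y')) (e : y * y = y' * y') : y = y' := by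
  obtain ⟨m, hm⟩ := h.mul h'
  have k : ∀ x : G, orderOf x ∣ 2 * m + 1 → x = (x * x) ^ (m + 1) := fun x hx => by
    rw [← sq, ← pow_mul, show 2 * (m + 1) = 2 * m + 1 + 1 by ring, pow_succ, orderOf_dvd_iff_pow_eq_one.1 hx, one_mul]
  rw [k y (hm ▸ dvd_mul_right _ _), e, ← k y' (hm ▸ dvd_mul_left _ _)]

theorem root (ss : s * s = 1) (h : Odd (orderOf y)) (e : s * y * s = y⁻¹) : ∃ g ∈ zpowers y, g * s * g⁻¹ * s = y := by
  obtain ⟨m, hm⟩ := h
  have e1 := inv_eq_of_mul_eq_one_right ss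
  refine ⟨y ^ (m + 1), pow_mem (mem_zpowers y) _, ?_⟩
  have : s * (y ^ (m + 1))⁻¹ * s = y ^ (m + 1) := by
    nth_rewrite 2 [← e1] at e ⊢
    rw [← conj_inv, ← conj_pow, e, inv_pow, inv_inv]
  rw [mul_assoc, mul_assoc, ← mul_assoc s, this, ← pow_add, show m + 1 + (m + 1) = 2 * m + 1 + 1 by ring, pow_succ, ← hm,
    pow_orderOf_eq_one, one_mul]

theorem cnt {X : Subgroup G} (ss : s * s = 1) (ho : ∀ y ∈ X, Odd (orderOf y)) (hn : ∀ y ∈ X, s * y * s ∈ X) :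
    {y | y ∈ X ∧ s * y * s = y⁻¹}.ncard * Nat.card ↥(X ⊓ centralizer {s}) = Nat.card X := by
  have e1 := inv_eq_of_mul_eq_one_right ss
  choose r h1 h2 using fun y : {y | y ∈ X ∧ s * y * s = y⁻¹} => root ss (ho _ y.2.1) y.2.2
  have h3 := fun y => zpowers_le.2 y.2.1 (h1 y)
  rw [← Nat.card_coe_set_eq, ← Nat.card_prod]
  refine Nat.card_congr (Equiv.ofBijective (fun x => ⟨r x.1 * x.2, mul_mem (h3 _) x.2.2.1⟩) ⟨?_, fun g => ?_⟩)
  · rintro ⟨y, c⟩ ⟨y', c'⟩ e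
    have e : r y * c = r y' * c' := congrArg Subtype.val e
    have k : ∀ y (c : ↥(X ⊓ centralizer {s})), r y * c * s * (r y * c)⁻¹ * s = y := fun y c => by
      rw [mul_assoc (r y), mem_centralizer_singleton_iff.1 c.2.2, ← h2 y]; group
    obtain rfl : y = y' := Subtype.ext (by rw [← k y c, e, k])
    rw [Subtype.ext (mul_left_cancel e : (c : G) = c')]
  · let y : {y | y ∈ X ∧ s * y * s = y⁻¹} := ⟨g * s * (g : G)⁻¹ * s,
      by simpa only [mul_assoc] using mul_mem g.2 (hn _ (inv_mem g.2)), by simp [mul_assoc, e1, ss]⟩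
    refine ⟨(y, ⟨(r y)⁻¹ * g, X.mul_mem (inv_mem (h3 y)) g.2, mem_centralizer_singleton_iff.2 ?_⟩), Subtype.ext (by simp)⟩
    have : r y * s * (r y)⁻¹ = g * s * (g : G)⁻¹ := mul_right_cancel (h2 y)
    calc _ = (r y)⁻¹ * (g * s * (g : G)⁻¹) * g := by group
      _ = _ := by rw [← this]; group

theorem second {B : Set Ω} (hB : Even B.ncard) (ss : s * s = 1) (st : St B s) {c : Ω} (hc : c ∈ B) (e : s • c = c) :
    ∃ d ∈ B, d ≠ c ∧ s • d = d := by
  classical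
  by_contra! n
  have := Fintype.ofFinite B
  have := Fact.mk Nat.prime_two
  let f : Function.End B := fun x => ⟨s • x, st _ x.2⟩
  have h := Equiv.Perm.card_fixedPoints_modEq (f := f) (p := 2) (n := 1)
    (funext fun x => Subtype.ext (show s • s • (x : Ω) = x by rw [← mul_smul, ss, one_smul]))
  rw [(Fintype.card_eq_one_iff (α := Function.fixedPoints f)).2 ⟨⟨⟨c, hc⟩, Subtype.ext e⟩, fun x => Subtype.ext (Subtype.ext
    (by_contra fun k => n _ x.1.2 k (congrArg Subtype.val x.2)))⟩, ← Nat.card_eq_fintype_card, Nat.card_coe_set_eq] at h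
  exact absurd (Nat.even_iff.1 hB ▸ h : 0 = 1 % 2) (by decide)

variable {p : ℕ} {P Q : Ω → Subgroup G} (h : Ks G Ω p P Q) (bk : Bk p P Q) (lw : Lw p P Q) {a b : Ω}
include h

theorem left_mem (a b : Ω) : a ∈ Bl P a b := fun k hk => h.Pfix a k hk.1

omit h in
theorem right_mem (a b : Ω) : b ∈ Bl P a b := fun _ hk => hk.2

omit h in
theorem bl_eq {c d : Ω} (e : Kk P a b = Kk P c d) : Bl P a b = Bl P c d := by simp only [Bl, e]

theorem odd (hy : y ∈ P a) : Odd (orderOf y) := by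
  obtain ⟨k, hk⟩ := h.Pp a ⟨y, hy⟩
  exact ((h.prime.odd_of_ne_two h.odd).pow (n := k)).of_dvd_nat (orderOf_dvd_of_pow_eq_one (congrArg Subtype.val hk))

theorem ndvd (ss : s * s = 1) : ¬ p ∣ orderOf s := fun e => h.odd ((Nat.prime_dvd_prime_iff_eq h.prime Nat.prime_two).1
  (e.trans (orderOf_dvd_of_pow_eq_one (by rw [sq, ss]))))

include bk lw
variable (ab : a ≠ b) (sC : s ∈ Cc P a b) (ss : s * s = 1) (s1 : s ≠ 1) (sa : s • a = a) (sb : s • b = b)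
include ab sC ss s1 sa sb

theorem nofix (hy : y ∈ P b) (e : s * y * s = y⁻¹) (hN : y ∉ Nn P a b) :
    y • a ∉ Bl P a b ∧ y * s ∈ Nn P a (y • a) ∧ ∀ c ∈ Bl P a (y • a), (y * s) • c ≠ c := by
  have n1 : y • a ∉ Bl P a b := fun k => hN (bk.memN' a b y ab k (by rw [h.Pfix b y hy]; exact right_mem a b))
  have n2 : a ≠ y • a := fun k => n1 (k ▸ left_mem h a b)
  have tt : y * s * (y * s) = 1 := by rw [mul_assoc, ← mul_assoc s, e, mul_inv_cancel]
  have ta : (y * s) • a = y • a := by rw [mul_smul, sa]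
  have tN : y * s ∈ Nn P a (y • a) := bk.memN' _ _ _ n2 (ta ▸ right_mem _ _)
    (by rw [← ta, ← mul_smul, tt, one_smul]; exact left_mem h _ _)
  refine ⟨n1, tN, fun c hc e1 => ?_⟩
  obtain ⟨d, hd, dc, e2⟩ := second (bk.evenB _ _ n2) tt ((bk.memN _ _ _ n2).1 tN) hc e1
  obtain ⟨g, hg, e3⟩ := root ss (odd h hy) e
  have gb := h.Pfix b g (zpowers_le.2 hy hg)
  have k : ∀ c : Ω, (y * s) • c = c → c ∈ Bl P (g • a) b := fun c hc => by
    rw [← e3, mul_assoc, ss, mul_one, mul_smul, mul_smul, smul_eq_iff_eq_inv_smul] at hc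
    have := (bk.Blconj g a b _).2 ((lw.PP a b ab s sC s1 sa sb (ndvd h ss)).1 _ hc)
    rwa [smul_inv_smul, gb] at this
  have n3 : g • a ≠ b := fun k => ab (smul_left_cancel g (k.trans gb.symm))
  have e4 := (bk.Keq _ _ d c n2 dc hd hc).symm.trans (bk.Keq _ _ d c n3 dc (k d e2) (k c e1))
  exact n1 (bl_eq (bk.Keq _ _ a b n2 ab (left_mem h _ _) (bl_eq e4 ▸ right_mem _ _)) ▸ right_mem _ _)

theorem inj (hy : y ∈ P b) (e : s * y * s = y⁻¹) (hN : y ∉ Nn P a b) (hy' : y' ∈ P b) (e' : s * y' * s = y'⁻¹)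
    (hN' : y' ∉ Nn P a b) (k : Kk P a (y • a) = Kk P a (y' • a)) : y = y' := by
  obtain ⟨n1, tN, n3⟩ := nofix h bk lw ab sC ss s1 sa sb hy e hN
  obtain ⟨-, tN', -⟩ := nofix h bk lw ab sC ss s1 sa sb hy' e' hN'
  have n2 : a ≠ y • a := fun k => n1 (k ▸ left_mem h a b)
  obtain ⟨c, hc, fx⟩ := bk.pfix _ _ n2 (P b ⊓ Nn P a (y • a)) (h.Pp b).to_inf_left fun r hr => (bk.memN _ _ _ n2).1 hr.2
  have m : y * y'⁻¹ ∈ P b ⊓ Nn P a (y • a) := ⟨(P b).mul_mem hy (inv_mem hy'), by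
    rw [← e', ← mul_assoc, ← mul_assoc, mul_assoc _ y']
    exact mul_mem tN (by rw [Nn, k]; exact tN')⟩
  have m2 : y * y'⁻¹ ∈ Kk P c ((y * s) • c) := ⟨bk.sym b c _ m.1 (fx _ m), by
    have := fx ((y * s)⁻¹ * (y * y'⁻¹) * (y * s)⁻¹⁻¹) ⟨by
      have := h.Pc (y * s)⁻¹ b _ m.1
      rwa [inv_smul_eq_iff.2 (show b = (y * s) • b by rw [mul_smul, sb, h.Pfix b y hy])] at this,
      (Nn P a (y • a)).mul_mem (mul_mem (inv_mem tN) m.2) (inv_mem (inv_mem tN))⟩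
    rwa [inv_inv, mul_smul, mul_smul, inv_smul_eq_iff] at this⟩
  rw [bk.Keq _ _ _ _ n2 (n3 c hc).symm hc ((bk.memN _ _ _ n2).1 tN c hc)] at m2
  have c1 := sC _ (⟨m2.1, h.Pfix b _ m.1⟩ : y * y'⁻¹ ∈ Kk P a b)
  have e1 := inv_eq_of_mul_eq_one_right ss
  refine sq_inj (odd h hy) (odd h hy') ?_
  have c2 : y * y'⁻¹ = y⁻¹ * y' := by
    calc _ = s * (y * y'⁻¹) * s⁻¹ := by rw [← c1, mul_inv_cancel_right]
      _ = (s * y * s) * (s * y' * s)⁻¹ := by group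
      _ = _ := by rw [e, e', inv_inv]
  calc _ = y * (y * y'⁻¹) * y' := by group
    _ = _ := by rw [c2]; group

theorem core : False := by
  have kk := bk.Keq a b b a ab ab.symm (right_mem a b) (left_mem h a b)
  have e1 := inv_eq_of_mul_eq_one_right ss
  have pp := (lw.PP b a ab.symm s (by rw [Cc, kk]; exact sC) s1 sb sa (ndvd h ss)).2
  obtain ⟨w, hw, hw'⟩ := bk.out b a ab.symm
  have ab' := lw.AB b a ab.symm s sb (ndvd h ss)
  rw [Nn, kk] at pp hw' ab'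
  have sN : s ∈ Nn P a b := centralizer_le_normalizer _ sC
  have sP : ∀ y ∈ P b, s * y * s ∈ P b := fun y hy => by simpa [sb, e1] using h.Pc s b y hy
  have c1 := cnt ss (fun y => odd h) sP
  have c2 := cnt (X := P b ⊓ Nn P a b) ss (fun y hy => odd h hy.1) fun y hy =>
    ⟨sP y hy.1, mul_mem (mul_mem sN hy.2) sN⟩
  have le : P b ⊓ centralizer {s} ≤ P b ⊓ Nn P a b := fun y hy => ⟨hy.1, pp y hy.1 (mem_centralizer_singleton_iff.1 hy.2)⟩
  rw [show P b ⊓ Nn P a b ⊓ centralizer {s} = P b ⊓ centralizer {s} from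
    le_antisymm (inf_le_inf_right _ inf_le_left) (le_inf le inf_le_right)] at c2
  have c3 := bk.numB a b ab
  have c4 : ({y | y ∈ P b ∧ s * y * s = y⁻¹} \ {y | y ∈ P b ⊓ Nn P a b ∧ s * y * s = y⁻¹}).ncard ≤
      ({X : Subgroup G | ∃ e : Ω, e ≠ a ∧ X = Kk P a e} \ {Kk P a b}).ncard :=
    Set.ncard_le_ncard_of_injOn (fun y => Kk P a (y • a)) (fun y hy => by
      have := (nofix h bk lw ab sC ss s1 sa sb hy.1.1 hy.1.2 fun k => hy.2 ⟨⟨hy.1.1, k⟩, hy.1.2⟩).1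
      exact ⟨⟨_, fun k => this (by rw [k]; exact left_mem h a b), rfl⟩, fun k => this (bl_eq k ▸ right_mem _ _)⟩)
      fun y hy y' hy' => inj h bk lw ab sC ss s1 sa sb hy.1.1 hy.1.2 (fun k => hy.2 ⟨⟨hy.1.1, k⟩, hy.1.2⟩) hy'.1.1 hy'.1.2
        fun k => hy'.2 ⟨⟨hy'.1.1, k⟩, hy'.1.2⟩
  rw [Set.ncard_sdiff fun y hy => by exact ⟨hy.1.1, hy.2⟩, Set.ncard_sdiff_singleton_of_mem (by exact ⟨b, ab.symm, rfl⟩)] at c4
  have c5 : Nat.card ↥(P b ⊓ Nn P a b) < Nat.card (P b) := (card_le_of_le inf_le_left).lt_of_ne fun e =>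
    hw' ((eq_of_le_of_card_ge inf_le_left e.ge).ge hw).2
  have c6 : Nat.card ↥(P b ⊓ centralizer {s}) < Nat.card ↥(P b ⊓ Nn P a b) := (card_le_of_le le).lt_of_ne fun e =>
    hw' (pp w hw (ab' (fun n hn => mem_centralizer_singleton_iff.1 ((eq_of_le_of_card_ge le e.ge).ge hn).2) w hw))
  have c7 : 0 < Nat.card ↥(P b ⊓ centralizer {s}) := Nat.card_pos
  generalize {y | y ∈ P b ∧ s * y * s = y⁻¹}.ncard = i at *
  generalize {y | y ∈ P b ⊓ Nn P a b ∧ s * y * s = y⁻¹}.ncard = j at *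
  generalize {X : Subgroup G | ∃ e : Ω, e ≠ a ∧ X = Kk P a e}.ncard = r at *
  generalize Nat.card ↥(P b ⊓ centralizer {s}) = c at *
  obtain rfl : i = r * j := Nat.eq_of_mul_eq_mul_right c7 (by rw [c1, mul_assoc, c2, c3])
  rw [← c3, ← c2] at c5
  rw [← c2] at c6
  obtain ⟨j, rfl⟩ := Nat.exists_eq_add_of_lt ((Nat.lt_mul_iff_one_lt_left c7).1 c6)
  obtain ⟨r, rfl⟩ := Nat.exists_eq_add_of_lt ((Nat.lt_mul_iff_one_lt_left (by positivity)).1 c5)
  rw [Nat.sub_le_iff_le_add, Nat.add_sub_cancel] at c4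
  nlinarith

end NoAJ

open NoAJ in
theorem noAS : NoAS.{u, v} := fun _ _ _ _ _ _ _ P _ h bk lw a b ab s sC ss s1 c hc e => by
  obtain ⟨d, hd, dc, e'⟩ := second (bk.evenB a b ab) ss ((bk.memN a b s ab).1 (centralizer_le_normalizer _ sC)) hc e
  exact core h bk lw dc (by rw [Cc, bk.Keq a b d c ab dc hd hc]; exact sC) ss s1 e' e

end CL.Perm.Hks
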