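/-
Project HKS, odd degree: the involution `k` outside `L`.
-/
import Cfsg.Agent.Perm.HksDefs
import Cfsg.Agent.Perm.KosBase
import Cfsg.Agent.Perm.Homog1

set_option autoImplicit false
set_option linter.unusedSectionVars false

namespace CL.Perm.Hks

open MulAction Cfsg CL.Perm.V4 CL.Perm.V4D CL.Perm.Kos

universe u v

namespace ObP

theorem inv_pow {G : Type u} [Group G] {x : G} : ∀ {k : ℕ}, x ^ 2 ^ k = 1 → x ≠ 1 → ∃ n : ℕ, x ^ n ≠ 1 ∧ x ^ n * x ^ n = 1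
  | 0, h, h1 => absurd (by simpa using h) h1
  | k + 1, h, h1 => by
    by_cases e : x ^ 2 ^ k = 1
    · exact inv_pow e h1
    · exact ⟨2 ^ k, e, by rw [← pow_add, ← two_mul, ← pow_succ', h]⟩

theorem three {G : Type u} [Group G] [Finite G] {Z : Subgroup G} (h : 4 ≤ Nat.card Z) :
    ∃ x ∈ Z, ∃ y ∈ Z, x ≠ 1 ∧ y ≠ 1 ∧ y ≠ x := by
  obtain ⟨x, hx, h1, -⟩ := exists_third_of_lt (A := (Z : Set G)) (show 2 < Nat.card Z by omega) 1 1
  obtain ⟨y, hy, h2, h3⟩ := exists_third_of_lt (A := (Z : Set G)) (show 2 < Nat.card Z by omega) 1 x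
  exact ⟨x, hx, y, hy, h1, h2, h3⟩

variable {G : Type u} {Ω : Type v} [Group G] [Finite G] [Finite Ω] [MulAction G Ω] {a : Ω} {U L Z : Subgroup G}
  (h : Sp G Ω a U) (o : Oa G Ω a U L Z)
include h o

theorem Za {z : G} (hz : z ∈ Z) : z • a = a := h.le (o.ZU hz)

theorem Zfix {z : G} (hz : z ∈ Z) (h1 : z ≠ 1) {c : Ω} (e : z • c = c) : c = a :=
  o.one z (o.ZL hz) (o.Zsq z hz) h1 c a e (Za h o hz)

theorem Sreg {y : G} (hy : y ∈ U ⊓ L) {c : Ω} (hc : c ≠ a) (e : y • c = c) : y = 1 := by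
  by_contra h1
  obtain ⟨k, hk⟩ := o.two ⟨y, hy.1⟩
  obtain ⟨n, h2, h3⟩ := inv_pow (x := y) (congrArg Subtype.val hk) h1
  exact hc (o.one _ (L.pow_mem hy.2 n) h3 h2 c a ((stabilizer G c).pow_mem e n)
    ((stabilizer G a).pow_mem (h.le hy.1) n))

theorem Sn {g y : G} (hg : g • a = a) (hy : y ∈ U ⊓ L) : g * y * g⁻¹ ∈ U ⊓ L :=
  ⟨h.nrm g hg y hy.1, o.Ln.conj_mem y hy.2 g⟩

omit h in
theorem oddD {b : Ω} (hb : b ≠ a) : Odd (Nat.card ↥(L ⊓ stab2 G a b)) := by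
  refine Nat.not_even_iff_odd.1 fun e => ?_
  obtain ⟨⟨x, h1, h2, h3⟩, hx⟩ := exists_prime_orderOf_dvd_card' (G := ↥(L ⊓ stab2 G a b)) 2 e.two_dvd
  rw [← Subgroup.orderOf_coe] at hx
  refine hb (o.one x h1 (by rw [← pow_two, ← hx]; exact pow_orderOf_eq_one x) (fun e => ?_) b a h3 h2)
  simp [e] at hx

omit h in
theorem oddx {b : Ω} (hb : b ≠ a) {x : G} (hx : x ∈ L ⊓ stab2 G a b) : Odd (orderOf x) :=
  (oddD o hb).of_dvd_nat (Subgroup.orderOf_dvd_natCard _ hx)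

variable {b : Ω} {t : G} (hb : b ≠ a) (tL : t ∈ L) (tt : t * t = 1) (ta : t • a = b)
include hb tL tt ta

/-- an element of `D` inverted by `t` -/
theorem exists_inv : ∃ x ∈ L ⊓ stab2 G a b, x ≠ 1 ∧ t * x * t⁻¹ = x⁻¹ := by
  obtain ⟨z, hz, z', hz', z1, z2, z3⟩ := three o.four
  have ti : t⁻¹ = t := inv_eq_of_mul_eq_one_right tt
  have zz := o.Zsq z hz
  have zi : z⁻¹ = z := inv_eq_of_mul_eq_one_right zz
  have ss := conj_sq_one (o.Zsq z' hz') t
  have sL := o.Ln.conj_mem z' (o.ZL hz') t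
  have sb : (t * z' * t⁻¹) • b = b := by rw [← ta, mul_smul, inv_smul_smul, mul_smul, Za h o hz']
  have s1 : t * z' * t⁻¹ ≠ 1 := by simpa using z2
  obtain ⟨s, hs⟩ : ∃ s, s = t * z' * t⁻¹ := ⟨_, rfl⟩
  rw [← hs] at ss sL sb s1
  have si : s⁻¹ = s := inv_eq_of_mul_eq_one_right ss
  have wL : z * s ∈ L := L.mul_mem (o.ZL hz) sL
  have k1 : ∀ n : ℕ, z * (z * s) ^ n * z⁻¹ = ((z * s) ^ n)⁻¹ := fun n => by
    rw [← conj_pow, ← _root_.inv_pow, mul_inv_rev, si, ← mul_assoc, zz, one_mul]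
  have k2 : ∀ n : ℕ, s * (z * s) ^ n * s⁻¹ = ((z * s) ^ n)⁻¹ := fun n => by
    rw [← conj_pow, ← _root_.inv_pow, mul_inv_rev, zi, mul_assoc s, mul_inv_cancel_right, si]
  obtain ⟨m, hm⟩ : Odd (orderOf (z * s)) := Nat.not_even_iff_odd.1 fun ⟨m, hm⟩ => by
    have m0 : m ≠ 0 := by have := orderOf_pos (z * s); omega
    have u2 : (z * s) ^ m * (z * s) ^ m = 1 := by rw [← pow_add, ← hm, pow_orderOf_eq_one]
    have ui := inv_eq_of_mul_eq_one_right u2
    refine hb (o.one _ (L.pow_mem wL m) u2 (pow_ne_one_of_lt_orderOf m0 (by omega)) b a ?_ ?_)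
    · refine o.one s sL ss s1 _ _ ?_ sb
      rw [smul_smul, mul_inv_eq_iff_eq_mul.1 ((k2 m).trans ui), mul_smul, sb]
    · refine Zfix h o hz z1 ?_
      rw [smul_smul, mul_inv_eq_iff_eq_mul.1 ((k1 m).trans ui), mul_smul, Za h o hz]
  obtain ⟨r, hr⟩ : ∃ r, r = ((z * s) ^ (m + 1))⁻¹ * z := ⟨_, rfl⟩
  have rL : r ∈ L := hr ▸ L.mul_mem (L.inv_mem (L.pow_mem wL _)) (o.ZL hz)
  have rr : r * r = 1 := by
    rw [hr]
    nth_rewrite 1 [← k1]
    rw [inv_mul_cancel_right, mul_assoc, mul_inv_cancel_left, zz]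
  have rz : r * z * r⁻¹ = s := by
    have e1 : (z * s) ^ (m + 1) * (z * s) ^ (m + 1) = z * s := by
      rw [← pow_add, show m + 1 + (m + 1) = orderOf (z * s) + 1 by omega, pow_succ, pow_orderOf_eq_one, one_mul]
    calc r * z * r⁻¹ = ((z * s) ^ (m + 1))⁻¹ * z * (z * s) ^ (m + 1) := by rw [hr]; group
      _ = z * ((z * s) ^ (m + 1) * (z * s) ^ (m + 1)) := by rw [← k1]; group
      _ = s := by rw [e1, ← mul_assoc, zz, one_mul]
  have ra : r • a = b := o.one s sL ss s1 _ _ (by rw [← rz, mul_smul, inv_smul_smul, mul_smul, Za h o hz]) sb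
  refine ⟨t * r, ⟨L.mul_mem tL rL, show _ • _ = _ by rw [mul_smul, ra, swap_of_sq tt ta],
    show _ • _ = _ by rw [mul_smul, swap_of_sq rr ra, ta]⟩, fun e => z3 ?_, ?_⟩
  · rw [eq_inv_of_mul_eq_one_right e, ti, hs, mul_left_inj, mul_right_inj] at rz
    exact rz.symm
  · rw [← mul_assoc, tt, one_mul, mul_inv_rev, inv_eq_of_mul_eq_one_right rr]

theorem Str (ho : Odd (Nat.card Ω)) {c d : Ω} (hc : c ≠ a) (hd : d ≠ a) : ∃ y ∈ U ⊓ L, y • c = d := by
  obtain ⟨x0, hx0, x1, x2⟩ := exists_inv h o hb tL tt ta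
  have hp := Nat.minFac_prime (mt orderOf_eq_one_iff.1 x1)
  have := Fact.mk hp
  have op := orderOf_pow_orderOf_div (orderOf_pos x0).ne' (Nat.minFac_dvd (orderOf x0))
  have hx := Subgroup.pow_mem _ hx0 (orderOf x0 / (orderOf x0).minFac)
  have hi := inv_zpowers x2 (Subgroup.npow_mem_zpowers x0 (orderOf x0 / (orderOf x0).minFac))
  generalize x0 ^ (orderOf x0 / (orderOf x0).minFac) = x at op hx hi
  generalize (orderOf x0).minFac = p at *
  have xo := oddx o hb hx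
  have ti : t⁻¹ = t := inv_eq_of_mul_eq_one_right tt
  have k1 : Even (fixedBy Ω x).ncard := by
    have := ncard_modEq_pow (fixedBy Ω x) t (k := 1) (fun c hc => by
      rw [mem_fixedBy, smul_smul, ← inv_inv x, ← hi, mul_inv_rev, mul_inv_rev, inv_inv, mul_assoc, mul_assoc, ti, tt,
        mul_one, mul_smul, inv_smul_eq_iff.2 (Eq.symm hc)]) (by rw [pow_one, pow_two, tt])
    suffices hE : fixedBy Ω x ∩ fixedBy Ω t = ∅ by
      rw [hE, Set.ncard_empty] at this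
      exact even_iff_two_dvd.2 (Nat.modEq_zero_iff_dvd.1 this)
    refine Set.eq_empty_of_forall_notMem fun c ⟨h1, h2⟩ => ?_
    have ca : c ≠ a := fun e => hb (by rw [← ta, ← e]; exact h2)
    obtain ⟨g, gL, g1, -⟩ := o.t2 ca ca.symm
    have m : ∀ s ∈ L, s * s = 1 → s • c = c → g * s * g⁻¹ ∈ Z := fun s h3 h4 h5 =>
      o.inv _ (o.Ln.conj_mem s h3 g) (conj_sq_one h4 g) (by rw [← g1, mul_smul, inv_smul_smul, mul_smul, h5])
    have e1 := o.Zc _ (m t tL tt h2) _ (o.ZU (m _ (o.Ln.conj_mem t tL x) (conj_sq_one tt x)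
      (by rw [mul_smul, inv_smul_eq_iff.2 (Eq.symm h1), mul_smul, h2, h1])))
    rw [conj_mul, conj_mul, mul_left_inj, mul_right_inj] at e1
    have e2 : t * (x * t * x⁻¹) = x⁻¹ * x⁻¹ := by rw [← mul_assoc, ← mul_assoc, ← hi, ti]
    have e3 : x * t * x⁻¹ * t = x * x := by
      rw [← hi, mul_assoc, inv_mul_cancel_right, mul_assoc, ← mul_assoc t, tt, one_mul]
    have e4 := eq_one_of_odd_of_inv (y := x ^ 2) (xo.of_dvd_nat (orderOf_pow_dvd 2))
      (by rw [pow_two, mul_inv_rev, ← e2, ← e1, e3])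
    have e5 := eq_one_of_odd_of_inv xo (eq_inv_of_mul_eq_one_right (by rw [← pow_two, e4]))
    rw [e5, orderOf_one] at op
    exact hp.ne_one op.symm
  obtain ⟨e, ⟨e1, e2⟩, e3⟩ : ∃ e ∈ fixedBy Ω x \ {a}, ∀ g ∈ U ⊓ Subgroup.centralizer {x}, g • e = e := by
    have h1 := ncard_modEq_ncard_fixed (o.two.to_le (inf_le_left : U ⊓ Subgroup.centralizer {x} ≤ U))
      (fixedBy Ω x \ {a}) (Set.toFinite _) fun g hg c hc => ⟨by
        rw [mem_fixedBy, smul_smul, ← Subgroup.mem_centralizer_singleton_iff.1 hg.2, mul_smul, hc.1], fun e =>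
        hc.2 (smul_left_cancel g (e.trans (h.le hg.1).symm))⟩
    have h2 := Set.ncard_diff_singleton_add_one (show a ∈ fixedBy Ω x from hx.2.1)
    refine Set.nonempty_of_ncard_ne_zero (s := {e | e ∈ _ ∧ _}) fun e => ?_
    rw [e, Nat.modEq_zero_iff_dvd] at h1
    obtain ⟨n, hn⟩ := k1
    omega
  have k2 : ∀ c, c ≠ a → ∃ s ∈ U ⊓ L, s • e = c := fun c hc => by
    obtain ⟨y, hy, h1⟩ := h.tr e c e2 hc
    have h2 := ncard_modEq_ncard_fixed_elt (p := p) (j := 1) (g := ConjAct.toConjAct x)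
      (by rw [pow_one, ← map_pow, ← op, pow_orderOf_eq_one, map_one]) {u | u * y⁻¹ ∈ U ⊓ L} (Set.toFinite _)
      fun u hu => by
        have h3 : x * y * x⁻¹ * y⁻¹ ∈ U ⊓ L := ⟨U.mul_mem (h.nrm x hx.2.1 y hy) (U.inv_mem hy), by
          simpa [mul_assoc] using L.mul_mem hx.1 (o.Ln.conj_mem _ (L.inv_mem hx.1) y)⟩
        have := Subgroup.mul_mem _ (Sn h o hx.2.1 hu) h3
        rw [Set.mem_setOf_eq, ConjAct.toConjAct_smul]
        convert this using 1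
        group
    obtain ⟨u, h3, h4⟩ := Set.nonempty_of_ncard_ne_zero (s := {u | u ∈ {u | u * y⁻¹ ∈ U ⊓ L} ∧
        ConjAct.toConjAct x • u = u}) fun e => by
      rw [e, Nat.modEq_zero_iff_dvd, show {u | u * y⁻¹ ∈ U ⊓ L} = (· * y⁻¹) ⁻¹' (U ⊓ L : Subgroup G) from rfl,
        Set.ncard_preimage_of_injective_subset_range (mul_left_injective _)
          (fun g _ => ⟨g * y, by simp⟩)] at h2
      obtain ⟨n, hn⟩ := IsPGroup.iff_card.1 (o.two.to_le (inf_le_left : U ⊓ L ≤ U))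
      rw [show ((U ⊓ L : Subgroup G) : Set G).ncard = 2 ^ n from hn] at h2
      rw [op, (Nat.prime_dvd_prime_iff_eq hp Nat.prime_two).1 (hp.dvd_of_dvd_pow h2)] at xo
      exact absurd xo (by decide)
    rw [ConjAct.toConjAct_smul] at h4
    refine ⟨(u * y⁻¹)⁻¹, Subgroup.inv_mem _ h3, ?_⟩
    have h5 : u • e = e := e3 u ⟨by simpa using U.mul_mem h3.1 hy,
      Subgroup.mem_centralizer_singleton_iff.2 (mul_inv_eq_iff_eq_mul.1 h4).symm⟩
    rw [mul_inv_rev, inv_inv, mul_smul, inv_smul_eq_iff.2 h5.symm, h1]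
  obtain ⟨s, h1, rfl⟩ := k2 c hc
  obtain ⟨s', h2, rfl⟩ := k2 d hd
  exact ⟨s' * s⁻¹, Subgroup.mul_mem _ h2 (Subgroup.inv_mem _ h1), by rw [mul_smul, inv_smul_smul]⟩

theorem Ctr (ho : Odd (Nat.card Ω)) {w : G} (wa : w • a = a) {c d : Ω} (hc : c ≠ a) (hd : d ≠ a) (wc : w • c = c)
    (wd : w • d = d) : ∃ y ∈ U ⊓ L, y • c = d ∧ w * y = y * w := by
  obtain ⟨y, hy, e⟩ := Str h o hb tL tt ta ho hc hd
  refine ⟨y, hy, e, mul_inv_eq_iff_eq_mul.1 (inv_mul_eq_one.1 (Sreg h o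
    (Subgroup.mul_mem _ (Subgroup.inv_mem _ hy) (Sn h o wa hy)) hc ?_)).symm⟩
  rw [mul_smul, mul_smul, inv_smul_eq_iff.2 wc.symm, mul_smul, e, wd, inv_smul_eq_iff, e]

end ObP

open ObP in
theorem obS : ObS.{u, v} := by
  intro G Ω _ _ _ _ a U L Z h hf ho lo o
  refine or_iff_not_imp_left.2 fun hr => ?_
  simp only [Rg, not_forall] at hr
  obtain ⟨y, hy, b, hb, yb, c, yc⟩ := hr
  obtain ⟨n, hn⟩ := o.two ⟨y, hy⟩
  obtain ⟨m, k1, kk⟩ := ObP.inv_pow (x := y) (congrArg Subtype.val hn) fun e => yc (by rw [e, one_smul])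
  have kU := U.pow_mem hy m
  have kb : y ^ m • b = b := (stabilizer G b).pow_mem yb m
  generalize y ^ m = k at k1 kk kU kb
  have ka : k • a = a := h.le kU
  obtain ⟨z, hz, z', hz', z1, z2, z3⟩ := three o.four
  have zb : z • b ≠ b := fun e => hb (Zfix h o hz z1 e)
  have za : z • b ≠ a := fun e => hb (smul_left_cancel z (e.trans (Za h o hz).symm))
  obtain ⟨g, gL, g1, g2⟩ := o.t2 zb.symm hb.symm
  have tL := o.Ln.conj_mem z (o.ZL hz) g
  have tt := conj_sq_one (o.Zsq z hz) g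
  have ta : (g * z * g⁻¹) • a = b := by rw [← g1, mul_smul, inv_smul_smul, mul_smul, g2]
  generalize g * z * g⁻¹ = t at tL tt ta
  have tb := swap_of_sq tt ta
  have kD : ∀ d ∈ L ⊓ stab2 G a b, k * d = d * k := fun d hd => by
    have := Sreg h o (y := k * d * k⁻¹ * d⁻¹) ⟨by
      simpa [mul_assoc] using U.mul_mem kU (h.nrm d hd.2.1 _ (U.inv_mem kU)),
      L.mul_mem (o.Ln.conj_mem d hd.1 k) (L.inv_mem hd.1)⟩ hb ((stabilizer G b).mul_mem ((stabilizer G b).mul_mem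
        ((stabilizer G b).mul_mem kb hd.2.2) ((stabilizer G b).inv_mem kb)) ((stabilizer G b).inv_mem hd.2.2))
    rwa [mul_inv_eq_one, mul_inv_eq_iff_eq_mul] at this
  have kt : k * t = t * k := by
    have e1 : t * k * t⁻¹ * k⁻¹ ∈ L ⊓ stab2 G a b := ⟨by
      simpa [mul_assoc] using L.mul_mem tL (o.Ln.conj_mem _ (L.inv_mem tL) k),
      (stabilizer G a).mul_mem (by rw [mem_stabilizer_iff, ← tb, mul_smul, inv_smul_smul, mul_smul, kb])
        ((stabilizer G a).inv_mem ka),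
      (stabilizer G b).mul_mem (by rw [mem_stabilizer_iff, ← ta, mul_smul, inv_smul_smul, mul_smul, ka])
        ((stabilizer G b).inv_mem kb)⟩
    have e2 := kD _ e1
    have e3 := conj_sq_one kk t
    obtain ⟨d, hd⟩ : ∃ d, d = t * k * t⁻¹ * k⁻¹ := ⟨_, rfl⟩
    rw [← hd] at e1 e2
    rw [← eq_mul_inv_iff_mul_eq.1 hd, mul_assoc, ← mul_assoc k, e2, mul_assoc, kk, mul_one] at e3
    have e4 : d = 1 := by_contra fun e => hb (o.one d e1.1 e3 e b a e1.2.2 e1.2.1)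
    rw [e4, eq_comm, mul_inv_eq_one, mul_inv_eq_iff_eq_mul] at hd
    exact hd.symm
  refine ⟨b, t, k, hf, hb.symm, o.Ln, o.t2, tL, tt, ta, inf_le_right, inf_le_left.trans h.le, fun g hg y hy => Sn h o hg hy,
    o.two.to_le inf_le_left, fun c hc => Str h o hb tL tt ta ho hb hc, fun y hy c hc e => Sreg h o hy hc e, oddD o hb,
    le_inf o.ZU o.ZL, fun z hz y hy => o.Zc z hz y hy.1, o.Zsq, o.four, o.inv, o.gen, kk, k1, ka, kb,
    fun z hz => o.Zc z hz k kU, kD, kt, fun w hw w1 wZ y hy yw => ?_⟩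
  have st : ∀ g, w * g = g * w → St (fixedBy Ω w) g := fun g e c hc => by
    rw [mem_fixedBy, smul_smul, e, mul_smul, hc]
  have pw := lo (fixedBy Ω w) hw.2.1 (fun e => w1 (hf w fun x => e.ge (Set.mem_univ x)))
    (fun d hd e he h1 h2 => let ⟨y, h3, h4, h5⟩ := Ctr h o hb tL tt ta ho hw.2.1 h1 h2 hd he; ⟨y, h3.1, st y h5, h4⟩)
    (by
      obtain ⟨s, -, h1, h2⟩ := Ctr h o hb tL tt ta ho (w := t * w * t⁻¹) (c := b) (d := t • z • b)
        (by rw [← tb, mul_smul, inv_smul_smul, mul_smul, hw.2.2]) hb (fun e => zb (smul_left_cancel t (e.trans tb.symm)))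
        (by rw [← ta, mul_smul, inv_smul_smul, mul_smul, hw.2.1])
        (by rw [mul_smul, inv_smul_smul, mul_smul, st z (wZ z hz) b hw.2.2])
      refine ⟨t⁻¹ * s * t, st _ ?_, by rw [mul_smul, mul_smul, ta, h1, inv_smul_smul]; exact za⟩
      calc w * (t⁻¹ * s * t) = t⁻¹ * (t * w * t⁻¹ * s) * t := by group
        _ = _ := by rw [h2]; group)
    ⟨z, o.ZU hz, z', o.ZU hz', st z (wZ z hz), st z' (wZ z' hz'), o.Zsq z hz, o.Zsq z' hz', o.Zc z' hz' z (o.ZU hz),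
      fun c hc => by
        rcases hc with e | e | e
        · exact Zfix h o hz z1 e
        · exact Zfix h o hz' z2 e
        · exact Zfix h o (Z.mul_mem hz hz') (fun e' => z3 (mul_left_cancel (e'.trans (o.Zsq z hz).symm))) e⟩
    k kU (st k (kD w hw).symm) b hw.2.2 hb kb
  have := Sreg h o (Subgroup.mul_mem _ (Subgroup.inv_mem _ hy) (Sn h o ka hy)) hb (by
    rw [mul_smul, mul_smul, inv_smul_eq_iff.2 kb.symm, mul_smul, pw _ (st y yw.symm b hw.2.2), inv_smul_smul])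
  rw [inv_mul_eq_one, eq_mul_inv_iff_mul_eq] at this
  exact this

end CL.Perm.Hks
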