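/-
Project HKS (S1145): the involution `k` outside `L` is fused with `k z`, and the torus acts faithfully on `Z`.
-/
import Cfsg.Agent.Perm.HksDefs
import Cfsg.Agent.Perm.KosBase
import Cfsg.Agent.Fgs.FixCount
import Cfsg.Agent.Even.Amb2

set_option autoImplicit false
set_option linter.unusedSectionVars false

namespace CL.Perm.Hks

open MulAction Cfsg Subgroup CL.Perm.V4 CL.Perm.V4D CL.Perm.Kos CL.Even CL.Grp
open scoped commutatorElement

universe u v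

variable {G : Type u} {Ω : Type v} [Group G] [Finite G] [Finite Ω] [MulAction G Ω] {a b : Ω} {L S Z : Subgroup G}
  {t k : G}

theorem oc_ex (h : Ob G Ω a b L S Z t k) : ∃ y ∈ S, ∃ c ∈ Z, c ≠ 1 ∧ k * y * k⁻¹ = c * y := by
  have : Fact (Nat.Prime 2) := ⟨Nat.prime_two⟩
  have kn : zpowers k ≤ 𝒩(S) := zpowers_le.2 (mem_norm_of_cj_le fun x hx => by
    simpa [mul_assoc] using h.Sn k h.ka _ (mem_cj.1 hx))
  have nl : ¬ S ≤ Ce k := fun hle => h.k1 (h.faith k fun c => by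
    by_cases e : c = a
    · rw [e, h.ka]
    · obtain ⟨y, hy, rfl⟩ := h.Str c e
      rw [← mul_smul, ← mem_Ce.1 (hle hy), mul_smul, h.kb])
  obtain ⟨i, h1, h2⟩ := exists_iter_not_le
    (exists_iter_eq_bot h.S2 (isPGroup_zpowers (k := 1) (by rw [pow_one, pow_two, h.kk])) kn) nl
  obtain ⟨y, hy, ny⟩ := SetLike.not_le_iff_exists.1 h1
  have yS := iter_le kn i hy
  have c1 : k * y * k⁻¹ * y⁻¹ ∈ Ce k := by
    have := inv_mem (h2 (commutator_mem_commutator hy (mem_zpowers k)))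
    rwa [commutatorElement_inv, commutatorElement_def] at this
  have c2 : k * y * k⁻¹ * y⁻¹ ∈ S := mul_mem (h.Sn k h.ka y yS) (inv_mem yS)
  obtain ⟨c, hc⟩ : ∃ c, c = k * y * k⁻¹ * y⁻¹ := ⟨_, rfl⟩
  have e : k * y * k⁻¹ = c * y := by rw [hc]; group
  rw [← hc] at c1 c2
  refine ⟨y, yS, c, h.inv c (h.SL c2) ?_ (h.Sa c2), fun c0 => ny (mem_Ce.2 ?_), e⟩
  · have e2 : c * c * y = 1 * y := by
      calc c * c * y = (c * k) * k⁻¹ * (c * y) := by group
        _ = k * (c * y) * k⁻¹ * (k * y⁻¹ * k⁻¹ * (c * y)) := by rw [mem_Ce.1 c1]; group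
        _ = (k * k) * y * (k * k)⁻¹ := by rw [← e]; group
        _ = 1 * y := by rw [h.kk]; group
    exact mul_right_cancel e2
  · rw [c0, one_mul] at e
    exact (mul_inv_eq_iff_eq_mul.1 e).symm

theorem ocS : OcS.{u, v} := by
  intro G Ω _ _ _ _ a b L S Z t k h os
  obtain ⟨y0, hy0, c, hc, c1, e⟩ := oc_ex h
  have conj : ∀ d ∈ L ⊓ stab2 G a b, ∀ y c : G, k * y * k⁻¹ = c * y →
      k * (d * y * d⁻¹) * k⁻¹ = d * c * d⁻¹ * (d * y * d⁻¹) := fun d hd y c e => by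
    calc k * (d * y * d⁻¹) * k⁻¹ = (k * d) * y * (k * d)⁻¹ := by group
      _ = d * (k * y * k⁻¹) * d⁻¹ := by rw [h.kD d hd]; group
      _ = _ := by rw [e]; group
  refine ⟨fun w0 hw0 wZ0 => ?_, fun z hz => ?_⟩
  · by_contra w1
    obtain ⟨r, m, hr, ho⟩ := CL.Fgs.exists_prime_order_pow w1
    have hw := pow_mem hw0 m
    have wZ : ∀ z ∈ Z, w0 ^ m * z = z * w0 ^ m := fun z hz => ((show Commute w0 z from wZ0 z hz).pow_left m).eq
    generalize w0 ^ m = w at ho hw wZ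
    have m1 := CL.Fgs.ncard_modEq_inter_fixedBy (y := ConjAct.toConjAct w) hr (by rw [MulEquiv.orderOf_eq, ho])
      {y : G | y ∈ S ∧ k * y * k⁻¹ = c * y} fun y hy => by
        rw [ConjAct.toConjAct_smul]
        refine ⟨h.Sn w hw.2.1 y hy.1, ?_⟩
        rw [conj w hw y c hy.2, wZ c hc, mul_inv_cancel_right]
    have m2 : {y : G | y ∈ S ∧ k * y * k⁻¹ = c * y} ∩ fixedBy G (ConjAct.toConjAct w) = ∅ := by
      refine Set.eq_empty_of_forall_notMem fun y hy => c1 ?_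
      have f : w * y * w⁻¹ = y := hy.2
      have := h.loc w hw (fun e => hr.ne_one (by rw [← ho, e, orderOf_one])) wZ y hy.1.1
        (mul_inv_eq_iff_eq_mul.1 f).symm
      have e2 := hy.1.2
      rw [← this, mul_inv_cancel_right] at e2
      exact right_eq_mul.1 e2
    have m3 : {y : G | y ∈ S ∧ k * y * k⁻¹ = c * y} = (y0 * ·) '' ((S ⊓ Ce k : Subgroup G) : Set G) := by
      ext y
      constructor
      · rintro ⟨hy, ey⟩
        refine ⟨y0⁻¹ * y, ⟨S.mul_mem (S.inv_mem hy0) hy, mem_Ce.2 (mul_inv_eq_iff_eq_mul.1 ?_).symm⟩, by simp⟩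
        calc k * (y0⁻¹ * y) * k⁻¹ = (k * y0 * k⁻¹)⁻¹ * (k * y * k⁻¹) := by group
          _ = y0⁻¹ * y := by rw [e, ey]; group
      · rintro ⟨s, hs, rfl⟩
        refine ⟨mul_mem hy0 hs.1, ?_⟩
        calc k * (y0 * s) * k⁻¹ = (k * y0 * k⁻¹) * (k * s) * k⁻¹ := by group
          _ = c * (y0 * s) := by rw [e, ← mem_Ce.1 hs.2]; group
    have : Fact (Nat.Prime 2) := ⟨Nat.prime_two⟩
    obtain ⟨n, hn⟩ := (h.S2.to_le (inf_le_left : S ⊓ Ce k ≤ S)).exists_card_eq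
    rw [m2, m3, Set.ncard_image_of_injective _ (mul_right_injective y0), ← Nat.card_coe_set_eq, Set.ncard_empty] at m1
    have d1 : r ∣ 2 ^ n := hn ▸ (Nat.modEq_zero_iff_dvd.1 m1)
    have r2 : r = 2 := (Nat.prime_dvd_prime_iff_eq hr Nat.prime_two).1 (hr.dvd_of_dvd_pow d1)
    have d2 : 2 ∣ Nat.card ↥(L ⊓ stab2 G a b) := r2 ▸ ho ▸ orderOf_dvd_natCard _ hw
    exact (Nat.not_even_iff_odd.2 h.oddD) (even_iff_two_dvd.2 d2)
  · by_cases z1 : z = 1
    · exact ⟨1, one_mem _, by simp [z1]⟩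
    obtain ⟨d, hd, -, ed⟩ := os.Dtr c hc z hz c1 z1
    have e2 := conj d hd y0 c e
    have hy := h.Sn d hd.2.1 y0 hy0
    rw [ed] at e2
    generalize d * y0 * d⁻¹ = y at e2 hy
    refine ⟨y⁻¹, inv_mem (h.SL hy), ?_⟩
    calc y⁻¹ * k * y⁻¹⁻¹ = y⁻¹ * (k * y * k⁻¹) * k := by group
      _ = z * k := by rw [e2, ← h.Zc z hz y hy]; group
      _ = k * z := (h.kZ z hz).symm

end CL.Perm.Hks
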