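/-
Project HKS (S1145), odd degree: the order of `S` from counting conjugates of `k`.
-/
import Cfsg.Agent.Perm.HksDefs
import Cfsg.Agent.Perm.ONan1

set_option autoImplicit false
set_option linter.unusedSectionVars false

namespace CL.Perm.Hks

open MulAction Cfsg

universe u v

namespace Od

variable {G : Type u} {Ω : Type v} [Group G] [Finite G] [Finite Ω] [MulAction G Ω] {a b : Ω} {L S Z : Subgroup G}
  {t k : G}

theorem arith {s κ j B α : ℕ} (hs : s = 2 ^ α) (hB : B ≠ 0) (hκ : κ = (B + 1) * j) (hj : j ≠ 0)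
    (h : s = κ + (κ + 1) * κ * B) : s = (B + 1) ^ 3 := by
  have e : s = (B + 1) ^ 2 * (j * (j * B + 1)) := by rw [h, hκ]; ring
  have k : ∀ m, Odd m → m ∣ j * (j * B + 1) → m = 1 := fun m hm hd =>
    (hm.coprime_two_right.pow_right α).eq_one_of_dvd (hs ▸ e ▸ hd.mul_left _)
  rcases Nat.even_or_odd j with h2 | h2
  · exact absurd (k _ (h2.mul_right B).add_one (dvd_mul_left _ _)) (by simp [hB, hj])
  · rw [e, k j h2 (dvd_mul_right _ _)]; ring

theorem ncard_off (F : Set Ω) {κ : ℕ} (hF : F.ncard = κ + 1) :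
    {p : Ω × Ω | p.1 ∈ F ∧ p.2 ∈ F ∧ p.1 ≠ p.2}.ncard = κ * (κ + 1) := by
  rw [← hF]
  refine ncard_eq_mul_fib Prod.fst _ (Set.toFinite _) _ (fun p hp => hp.1) fun x hx => ?_
  rw [show {p : Ω × Ω | p ∈ {p : Ω × Ω | p.1 ∈ F ∧ p.2 ∈ F ∧ p.1 ≠ p.2} ∧ p.1 = x} = Prod.mk x '' (F \ {x}) from
    Set.ext fun ⟨y, z⟩ => ⟨fun ⟨h1, h2⟩ => ⟨z, ⟨h1.2.1, fun e => h1.2.2 (h2.trans e.symm)⟩, Prod.ext h2.symm rfl⟩,
      by rintro ⟨w, hw, ⟨⟩⟩; exact ⟨⟨hx, hw.1, Ne.symm hw.2⟩, rfl⟩⟩,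
    Set.ncard_image_of_injective _ (Prod.mk_right_injective x), Set.ncard_sdiff_singleton_of_mem hx, hF]
  rfl

variable (h : Ob G Ω a b L S Z t k)
include h

theorem cnt (T : Set (Ω × Ω)) (hT : ∀ p ∈ T, p.1 ≠ p.2) :
    {g : G | g ∈ L ∧ (g • a, g • b) ∈ T}.ncard = Nat.card ↥(L ⊓ stab2 G a b) * T.ncard := by
  refine ncard_eq_mul_fib (fun g : G => (g • a, g • b)) _ (Set.toFinite _) _ (fun g hg => hg.2) fun p hp => ?_
  obtain ⟨g, hg, h1, h2⟩ := h.t2 h.ne (hT p hp)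
  rw [← Set.ncard_image_of_injective _ (mul_right_injective g⁻¹), ← Nat.card_coe_set_eq]
  congr 2
  ext x
  constructor
  · rintro ⟨x, ⟨hx, e⟩, rfl⟩
    refine Subgroup.mem_inf.2 ⟨mul_mem (inv_mem hg) hx.1, mem_stab2.2 ?_⟩
    rw [mul_smul, mul_smul, inv_smul_eq_iff, inv_smul_eq_iff, h1, h2]
    exact Prod.ext_iff.1 e
  · rintro ⟨hx, h3, h4⟩
    have e : ((g * x) • a, (g * x) • b) = p := by
      rw [mul_smul, mul_smul, show x • a = a from h3, show x • b = b from h4, h1, h2]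
    exact ⟨g * x, ⟨⟨mul_mem hg hx, e ▸ hp⟩, e⟩, inv_mul_cancel_left g x⟩

theorem kinv : k⁻¹ = k := inv_eq_of_mul_eq_one_right h.kk

theorem tinv : t⁻¹ = t := inv_eq_of_mul_eq_one_right h.tt

theorem memL {g : G} (hg : g ∈ L) : k * (g⁻¹ * k * g) ∈ L := by
  have := mul_mem (h.Ln.conj_mem _ (inv_mem hg) k) hg
  rwa [kinv h, mul_assoc, mul_assoc, ← mul_assoc g⁻¹] at this

theorem kcomm {g : G} (hg : g ∈ L) (ha : k • g • a = g • a) (hb : k • g • b = g • b) : k * g = g * k := by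
  have hd : k * (g⁻¹ * k * g) ∈ L ⊓ stab2 G a b := ⟨memL h hg, mem_stab2.2 (by
    simp only [mul_smul, ha, hb, inv_smul_smul, h.ka, h.kb, and_self])⟩
  have h2 : (k * (g⁻¹ * k * g)) ^ 2 = 1 := by
    calc _ = k * (g⁻¹ * k * g) * k * (g⁻¹ * k * g) := by rw [pow_two]; group
      _ = k * k * (g⁻¹ * (k * k) * g) := by rw [← h.kD _ hd]; group
      _ = 1 := by rw [h.kk]; group
  have h3 := orderOf_eq_one_iff.1 (Nat.eq_one_of_dvd_coprimes h.oddD.coprime_two_right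
    ((L ⊓ stab2 G a b).orderOf_dvd_natCard hd) (orderOf_dvd_of_pow_eq_one h2))
  rw [← mul_left_cancel_iff (a := g⁻¹), inv_mul_cancel_left, ← mul_assoc, eq_inv_of_mul_eq_one_right h3, kinv h]

theorem ncard_fix : (fixedBy Ω k).ncard = Nat.card ↥(S ⊓ Subgroup.centralizer {k}) + 1 := by
  have e : fixedBy Ω k = insert a ((fun y : G => y • b) '' (S ⊓ Subgroup.centralizer {k} : Subgroup G)) := by
    ext c
    refine ⟨fun hc => or_iff_not_imp_left.2 fun hca => ?_, ?_⟩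
    · obtain ⟨y, hy, rfl⟩ := h.Str c hca
      have := h.Sreg _ (mul_mem (inv_mem hy) (h.Sn k h.ka y hy)) b h.ne.symm (by
        rw [mul_smul, mul_smul, mul_smul, kinv h, h.kb, hc, inv_smul_smul])
      exact ⟨y, ⟨hy, Subgroup.mem_centralizer_singleton_iff.2 (by
        rw [eq_comm, ← mul_inv_eq_iff_eq_mul, ← inv_mul_eq_one.1 this])⟩, rfl⟩
    · rintro (rfl | ⟨y, hy, rfl⟩)
      · exact h.ka
      · rw [mem_fixedBy, ← mul_smul, ← Subgroup.mem_centralizer_singleton_iff.1 hy.2, mul_smul, h.kb]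
  rw [e, Set.ncard_insert_of_notMem, Set.InjOn.ncard_image, ← Nat.card_coe_set_eq]
  · rfl
  · exact fun x hx y hy e => inv_mul_eq_one.1 (h.Sreg _ (mul_mem (inv_mem hx.1) hy.1) b h.ne.symm
      (by rw [mul_smul, ← show x • b = y • b from e, inv_smul_smul]))
  · rintro ⟨y, hy, e⟩
    exact h.ne (smul_left_cancel y ((h.Sa hy.1).trans e.symm))

theorem conj_kt (o : Os G Ω a b L S Z t) (hz : ∀ z ∈ Z, ∃ g ∈ L, g * k * g⁻¹ = k * z) :
    ∃ g ∈ L, g⁻¹ * k * g = k * t := by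
  classical
  have := Fintype.ofFinite Ω
  obtain ⟨c, hc⟩ := Equiv.Perm.exists_fixed_point_of_prime (p := 2) (n := 1) (σ := toPerm (β := Ω) t) (by
      obtain ⟨n, hn⟩ := IsPGroup.iff_card.1 h.S2
      have := h.four.trans (Subgroup.card_le_of_le h.ZS)
      rw [← Nat.card_eq_fintype_card, o.cardO, hn]
      rcases n with _ | n
      · omega
      · omega)
    (Equiv.ext fun x => by simp [pow_two, ← mul_smul, h.tt])
  have hc : t • c = c := hc
  have hca : c ≠ a := fun e => h.ne (by rw [← h.ta, ← e, hc])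
  have hk : k • c = c := o.one t h.tL h.tt (fun e => h.ne (by rw [← h.ta, e, one_smul])) _ _
    (by rw [← mul_smul, ← h.kt, mul_smul, hc]) hc
  obtain ⟨g, hg, g1, g2⟩ := h.t2 h.ne hca
  have hgk := kcomm h hg (by rw [g1, hk]) (by rw [g2, h.ka])
  obtain ⟨w, hw, e⟩ := hz (g⁻¹ * t * g) (h.inv _ (h.Ln.conj_mem' _ h.tL g) (by
    rw [show g⁻¹ * t * g * (g⁻¹ * t * g) = g⁻¹ * (t * t) * g by group, h.tt]; group)
    (by rw [mul_smul, mul_smul, g1, hc, ← g1, inv_smul_smul]))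
  refine ⟨(g * w)⁻¹, inv_mem (mul_mem hg hw), ?_⟩
  calc _ = g * (w * k * w⁻¹) * g⁻¹ := by group
    _ = g * k * g⁻¹ * t := by rw [e]; group
    _ = _ := by rw [← hgk, mul_inv_cancel_right]

end Od

open Od

theorem odS : OdS.{u, v} := by
  intro G Ω _ _ _ _ a b L S Z t k h o hz
  have hf := ncard_fix h
  have h1 := cnt h {p | p.1 ∈ fixedBy Ω k ∧ p.2 ∈ fixedBy Ω k ∧ p.1 ≠ p.2} fun p hp => hp.2.2
  have h2 := cnt h ((fun x => (x, k • x)) '' (fixedBy Ω k)ᶜ) (by rintro _ ⟨x, hx, rfl⟩; exact Ne.symm hx)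
  have s1 : {g : G | g ∈ L ∧ (g • a, g • b) ∈ {p : Ω × Ω | p.1 ∈ fixedBy Ω k ∧ p.2 ∈ fixedBy Ω k ∧ p.1 ≠ p.2}} =
      {g | g ∈ L ∧ k * g = g * k} := Set.ext fun g =>
    and_congr_right fun hg => ⟨fun e => kcomm h hg e.1 e.2.1, fun e => ⟨by
      rw [mem_fixedBy, ← mul_smul, e, mul_smul, h.ka], by rw [mem_fixedBy, ← mul_smul, e, mul_smul, h.kb],
      fun e => h.ne (smul_left_cancel g e)⟩⟩
  have s2 : {g : G | g ∈ L ∧ (g • a, g • b) ∈ (fun x => (x, k • x)) '' (fixedBy Ω k)ᶜ} =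
      {g | g ∈ L ∧ k • g • a = g • b} := Set.ext fun g =>
    and_congr_right fun hg => ⟨by rintro ⟨x, -, e⟩; rw [← (Prod.mk.inj e).2, ← (Prod.mk.inj e).1],
      fun e => ⟨g • a, fun e' => h.ne (smul_left_cancel g (e'.symm.trans e)), Prod.ext rfl e⟩⟩
  rw [ncard_off _ hf, s1] at h1
  rw [Set.ncard_image_of_injective _ fun x y e => (Prod.ext_iff.1 e).1, s2,
    ncard_eq_mul_fib (fun g : G => g⁻¹ * k * g) _ (T := (fun d => k * t * d) ''
      {d : G | d ∈ L ⊓ stab2 G a b ∧ t * d * t⁻¹ = d⁻¹}) (Set.toFinite _) {g | g ∈ L ∧ k * g = g * k}.ncard,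
    Set.ncard_image_of_injective _ (mul_right_injective _), h1, mul_assoc] at h2
  · have h3 := Nat.eq_of_mul_eq_mul_left Nat.card_pos h2
    have h4 := Set.ncard_add_ncard_compl (fixedBy Ω k)
    obtain ⟨α, hα⟩ := IsPGroup.iff_card.1 h.S2
    obtain ⟨j, hj⟩ := Subgroup.card_dvd_of_le (show Z ≤ S ⊓ Subgroup.centralizer {k} from fun z hz =>
      ⟨h.ZS hz, Subgroup.mem_centralizer_singleton_iff.2 (h.kZ z hz).symm⟩)
    have h5 := h.four
    rw [← o.cardI] at hj h5 ⊢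
    refine arith hα (by omega) hj (fun e => by rw [e] at hj; exact Nat.card_pos.ne' hj) ?_
    rw [o.cardO, hf, ← h3] at h4
    linarith
  · rintro g ⟨hg, e⟩
    have e1 : (g⁻¹ * k * g) • a = b := by rw [mul_smul, mul_smul, e, inv_smul_smul]
    have e2 : g⁻¹ * k * g * (g⁻¹ * k * g) = 1 := by
      rw [show g⁻¹ * k * g * (g⁻¹ * k * g) = g⁻¹ * (k * k) * g by group, h.kk]; group
    have e3 : (g⁻¹ * k * g) • b = a := by rw [← e1, ← mul_smul, e2, one_smul]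
    have hd : t * (k * (g⁻¹ * k * g)) ∈ L ⊓ stab2 G a b := ⟨mul_mem h.tL (memL h hg), mem_stab2.2 (by
      rw [mul_smul, mul_smul, e1, h.kb, mul_smul, mul_smul, e3, h.ka, ← h.ta, ← mul_smul, h.tt, one_smul]
      exact ⟨rfl, rfl⟩)⟩
    have e4 : k * t * (t * (k * (g⁻¹ * k * g))) = g⁻¹ * k * g := by
      rw [mul_assoc, ← mul_assoc t, h.tt, one_mul, ← mul_assoc, h.kk, one_mul]
    refine ⟨_, ⟨hd, eq_inv_of_mul_eq_one_left ?_⟩, e4⟩
    rw [← e4] at e2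
    generalize t * (k * (g⁻¹ * k * g)) = d at hd e2
    calc _ = k * (k * t) * d * t * d := by rw [← mul_assoc k, h.kk, one_mul, tinv h]
      _ = k * (t * k) * d * t * d := by rw [h.kt]
      _ = k * t * (k * d) * t * d := by group
      _ = 1 := by rw [h.kD d hd, ← e2]; group
  · rintro _ ⟨d, ⟨hd, hi⟩, rfl⟩
    obtain ⟨g, hg, e⟩ := conj_kt h o hz
    obtain ⟨m, hm⟩ := h.oddD
    have e1 : d ^ (m + 1) * d ^ (m + 1) = d := by
      rw [← pow_add, show m + 1 + (m + 1) = 2 * m + 1 + 1 by ring, pow_succ, ← hm,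
        orderOf_dvd_iff_pow_eq_one.1 ((L ⊓ stab2 G a b).orderOf_dvd_natCard hd), one_mul]
    have e2 : (d ^ (m + 1))⁻¹ * t = t * d ^ (m + 1) := by rw [← inv_pow, ← hi, conj_pow, tinv h]; simp [mul_assoc, h.tt]
    have hg' := mul_mem hg (pow_mem hd.1 (m + 1))
    have e3 : (g * d ^ (m + 1))⁻¹ * k * (g * d ^ (m + 1)) = k * t * d := by
      calc _ = (d ^ (m + 1))⁻¹ * (g⁻¹ * k * g) * d ^ (m + 1) := by group
        _ = k * ((d ^ (m + 1))⁻¹ * t) * d ^ (m + 1) := by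
          rw [e, ← mul_assoc, ← h.kD _ (inv_mem (pow_mem hd _)), mul_assoc k]
        _ = _ := by rw [e2, mul_assoc, mul_assoc, e1, mul_assoc]
    generalize g * d ^ (m + 1) = w at hg' e3
    rw [← Set.ncard_image_of_injective _ (mul_left_injective w⁻¹)]
    congr 1
    ext x
    constructor
    · rintro ⟨x, ⟨hx, e4⟩, rfl⟩
      refine ⟨mul_mem hx.1 (inv_mem hg'), ?_⟩
      have e4 : x⁻¹ * k * x = w⁻¹ * k * w := e4.trans e3.symm
      calc _ = x * (x⁻¹ * k * x) * w⁻¹ := by group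
        _ = _ := by rw [e4]; group
    · rintro ⟨hx, e4⟩
      have e5 : (x * w)⁻¹ * k * (x * w) = k * t * d := by
        rw [← e3]
        calc _ = w⁻¹ * x⁻¹ * (k * x) * w := by group
          _ = _ := by rw [e4]; group
      refine ⟨x * w, ⟨⟨mul_mem hx hg', ?_⟩, e5⟩, mul_inv_cancel_right x w⟩
      rw [← inv_smul_eq_iff, ← mul_smul, ← mul_smul, e5, mul_smul, mul_smul, hd.2.1, h.ta, h.kb]

end CL.Perm.Hks
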