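/-
Project HKS (S1145), odd degree: the final contradiction, from the inductive form of Suzuki's theorem.
-/
import Cfsg.Agent.Perm.HksDefs
import Cfsg.Agent.Bender.R1

set_option autoImplicit false

namespace CL.Perm.Hks

open MulAction Cfsg

universe u v

theorem oeF : OeF.{u, v} := by
  intro G Ω _ _ _ _ a b L S Z t k h o hw hc
  have hq := h.four
  have h4 : Bender.HasFour L := by
    have := Fintype.ofFinite Z
    obtain ⟨x, y, z, h1, h2, h3⟩ := Fintype.two_lt_card_iff.1 (show 2 < Fintype.card Z by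
      rw [← Nat.card_eq_fintype_card]; omega)
    have m : ∀ z : Z, (z : G) ∈ L := fun z => h.SL (h.ZS z.2)
    have n : ∀ {x y : Z}, x ≠ y → (⟨_, m (x⁻¹ * y)⟩ : L) ≠ 1 := fun e e' =>
      e (inv_mul_eq_one.1 (Subtype.ext (congrArg (fun x : L => (x : G)) e')))
    exact ⟨_, _, n h1, n h2, fun e => h3 (mul_left_cancel (Subtype.ext (congrArg (fun x : L => (x : G)) e))),
      Subtype.ext (h.Zsq _ (x⁻¹ * y).2), Subtype.ext (h.Zsq _ (x⁻¹ * z).2),
      Subtype.ext (h.Zc _ (x⁻¹ * z).2 _ (h.ZS (x⁻¹ * y).2))⟩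
  obtain ⟨s, r, hy⟩ := Bender.r1_exists_hyp (o.setup h.tL) h4
  have hS : Nat.card (S.subgroupOf L) = Nat.card S := Nat.card_congr (Subgroup.subgroupOfEquivOfLe h.SL).toEquiv
  have hZ : Suz.sqOne (S.subgroupOf L) = Z.subgroupOf L := Set.ext fun x =>
    ⟨fun hx => h.inv _ x.2 (congrArg Subtype.val hx.2) (h.Sa hx.1), fun hx => ⟨h.ZS hx, Subtype.ext (h.Zsq _ hx)⟩⟩
  have hZ' : Nat.card (Z.subgroupOf L) = Nat.card Z :=
    Nat.card_congr (Subgroup.subgroupOfEquivOfLe (h.ZS.trans h.SL)).toEquiv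
  obtain ⟨-, -, ⟨h1, -⟩ | ⟨h1, -⟩ | ⟨-, -, ω, -, -, ζ, hζ, h1, h2, -⟩⟩ := Bender.r1_concl hy
  · have := Subgroup.card_le_of_le (show S ≤ Z from fun x hx =>
      h.inv x (h.SL hx) (congrArg Subtype.val (h1 ⟨x, h.SL hx⟩ hx)) (h.Sa hx))
    rw [hc] at this
    exact absurd (Nat.pow_lt_pow_right (a := Nat.card Z) (by omega) (by norm_num : 1 < 3)) (by rw [pow_one]; omega)
  · rw [hS, hc, hZ] at h1
    exact absurd (Nat.pow_right_injective (a := Nat.card Z) (by omega) (h1.trans (congrArg (· ^ 2) hZ'))) (by norm_num)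
  · have : ζ = 1 := Subtype.ext (hw ζ ⟨ζ.2, hζ.1, h.ta ▸ hζ.2⟩ fun z hz =>
      (congrArg Subtype.val (h1 ⟨z, h.SL (h.ZS hz)⟩ (h.ZS hz) (Subtype.ext (h.Zsq z hz)))).symm)
    exact h2 (by rw [this, mul_one, one_mul])

end CL.Perm.Hks
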