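/-
Project HKS: the induction in odd degree and the rank one set-up of the normal subgroup `L`.
-/
import Cfsg.Agent.Perm.HksDefs
import Cfsg.Agent.S1122

set_option autoImplicit false
set_option linter.unusedSectionVars false

namespace CL.Perm.Hks

open MulAction Cfsg CL.Perm.V4 CL.Perm.V4D CL.Perm.Kos

universe u v

namespace RedO

theorem t2_of {X P : Type*} [Group X] [MulAction X P] {a : P} (tr : ∀ c d, c ≠ a → d ≠ a → ∃ u : X, u • a = a ∧ u • c = d)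
    {g : X} (hg : g • a ≠ a) : T2 X P := fun {x y x' y'} h h' => by
  have t : ∀ c, ∃ k : X, k • a = c := fun c => by
    by_cases e : c = a
    · exact ⟨1, by rw [one_smul, e]⟩
    · obtain ⟨u, -, hu⟩ := tr _ _ hg e
      exact ⟨u * g, by rw [mul_smul, hu]⟩
  obtain ⟨k, rfl⟩ := t x
  obtain ⟨k', rfl⟩ := t x'
  obtain ⟨u, u1, u2⟩ := tr (k⁻¹ • y) (k'⁻¹ • y') (fun e => h (inv_smul_eq_iff.1 e).symm)
    fun e => h' (inv_smul_eq_iff.1 e).symm
  exact ⟨k' * u * k⁻¹, by simp [mul_smul, u1], by simp [mul_smul, u2]⟩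

theorem not_regN {X P : Type*} [Group X] [Finite X] [MulAction X P] {a : P} {g x y : X} (hg : g • a ≠ a) (xx : x * x = 1)
    (yy : y * y = 1) (xa : x • a = a) (ya : y • a = a) (fix : ∀ c : P, x • c = c ∨ y • c = c ∨ (x * y) • c = c → c = a) :
    ¬ RegN X P := fun ⟨V, hV, tr, fr⟩ => by
  have f : ∀ s : X, s • a = a → (∀ c : P, s • c = c → c = a) → MonoidHom.FixedPointFree (MulAut.conjNormal (H := V) s) :=
    fun s sa hs v e => Subtype.ext (fr a v v.2 (hs _ (by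
      rw [← mul_smul, mul_inv_eq_iff_eq_mul.1 (show s * v * s⁻¹ = v from congrArg Subtype.val e), mul_smul, sa])))
  have i : ∀ s : X, s * s = 1 → Function.Involutive (MulAut.conjNormal (H := V) s) := fun s ss v => by
    rw [← MulAut.mul_apply, ← map_mul, ss, map_one, MulAut.one_apply]
  obtain ⟨v, hv, e⟩ := tr a (g • a)
  have := f (x * y) (by rw [mul_smul, ya, xa]) (fun c h => fix c (.inr (.inr h))) ⟨v, hv⟩ (by
    rw [map_mul, MulAut.mul_apply, (f x xa fun c h => fix c (.inl h)).coe_eq_inv_of_involutive (i x xx),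
      (f y ya fun c h => fix c (.inr (.inl h))).coe_eq_inv_of_involutive (i y yy)]
    exact inv_inv _)
  rw [show v = 1 from congrArg Subtype.val this, one_smul] at e
  exact hg e.symm

/-- the stabiliser of a finite set -/
def stS (G : Type u) {Ω : Type v} [Group G] [Finite Ω] [MulAction G Ω] (Φ : Set Ω) : Subgroup G where
  carrier := {g | St Φ g}
  mul_mem' hg hk c hc := by rw [mul_smul]; exact hg _ (hk c hc)
  one_mem' c hc := by rwa [one_smul]
  inv_mem' {g} hg c hc := by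
    obtain ⟨d, hd, rfl⟩ := (((Set.toFinite Φ).injOn_iff_bijOn_of_mapsTo (f := fun c => g • c) hg).1
      (MulAction.injective g).injOn).surjOn hc
    rwa [inv_smul_smul]

end RedO

open RedO in
theorem redO : RedO.{u, v} := fun H => by
  suffices ∀ n, ∀ (G : Type u) (Ω : Type v) [Group G] [Finite G] [Finite Ω] [MulAction G Ω] (a : Ω) (U : Subgroup G),
      Sp G Ω a U → Fa G Ω → Odd (Nat.card Ω) → ¬ RegN G Ω → Nat.card Ω = n → Rg Ω a U from
    fun G Ω _ _ _ _ a U h hf ho hr => this _ G Ω a U h hf ho hr rfl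
  intro n
  induction n using Nat.strong_induction_on with | _ n ih => ?_
  intro G Ω _ _ _ _ a U h hf ho hr hn
  refine H G Ω a U h hf ho hr ?_
  rintro Φ ha hΦ tr ⟨g, gS, ga⟩ ⟨x, xU, y, yU, xS, yS, xx, yy, -, fix⟩ w wU wS b hb ba wb c hc
  obtain ⟨X, _, _, _, π, surj, sm, fa⟩ := exists_quot (stS G Φ) Φ fun _ hg => hg
  have e : ∀ (g : stS G Φ) (p p' : Φ), π g • p = p' ↔ (g : G) • (p : Ω) = p' := fun g p p' => by rw [← sm, Subtype.ext_iff]
  have ga' : π ⟨g, gS⟩ • (⟨a, ha⟩ : Φ) ≠ ⟨a, ha⟩ := fun k => ga ((e _ _ _).1 k)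
  have tr' : ∀ c d : Φ, c ≠ ⟨a, ha⟩ → d ≠ ⟨a, ha⟩ → ∃ y ∈ (U.subgroupOf (stS G Φ)).map π, y • c = d := fun c d hc hd => by
    obtain ⟨u, u1, u2, u3⟩ := tr c c.2 d d.2 (fun k => hc (Subtype.ext k)) fun k => hd (Subtype.ext k)
    exact ⟨_, ⟨⟨u, u2⟩, u1, rfl⟩, (e _ _ _).2 u3⟩
  have le : (U.subgroupOf (stS G Φ)).map π ≤ stabilizer X (⟨a, ha⟩ : Φ) := by
    rintro _ ⟨u, hu, rfl⟩
    exact (e _ _ _).2 (h.le hu)
  have := h.nil
  have nil : Group.IsNilpotent (U.subgroupOf (stS G Φ)) := Subgroup.isNilpotent_of_ker_le_center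
    (((stS G Φ).subtype.comp (U.subgroupOf (stS G Φ)).subtype).codRestrict U fun u => u.2) fun u hu => by
      rw [show u = 1 from Subtype.ext (Subtype.ext (show (u : G) = 1 from congrArg Subtype.val (MonoidHom.mem_ker.1 hu)))]
      exact one_mem _
  refine (e ⟨w, wS⟩ ⟨c, hc⟩ ⟨c, hc⟩).1 (ih _ ?_ X Φ ⟨a, ha⟩ ((U.subgroupOf (stS G Φ)).map π)
    ⟨t2_of (fun c d hc hd => (tr' c d hc hd).imp fun u hu => ⟨le hu.1, hu.2⟩) ga', le, ?_,
      Group.nilpotent_of_surjective _ (π.subgroupMap_surjective _), tr'⟩ fa ?_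
    (not_regN (x := π ⟨x, xS⟩) (y := π ⟨y, yS⟩) ga' ?_ ?_ ((e _ _ _).2 (h.le xU)) ((e _ _ _).2 (h.le yU)) fun c hc => ?_) rfl
    _ ⟨⟨w, wS⟩, wU, rfl⟩ ⟨b, hb⟩ (fun k => ba (congrArg Subtype.val k)) ((e _ _ _).2 wb) _)
  · rw [← hn, Nat.card_coe_set_eq, ← Set.ncard_univ]
    exact Set.ncard_lt_ncard (Set.ssubset_univ_iff.2 hΦ)
  · rintro k hk _ ⟨u, hu, rfl⟩
    obtain ⟨r, rfl⟩ := surj k
    exact ⟨r * u * r⁻¹, h.nrm r ((e _ _ _).1 hk) u hu, by rw [map_mul, map_mul, map_inv]⟩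
  · have := ncard_modEq Φ x xS fun c _ => by rw [← mul_smul, xx, one_smul]
    rw [show Φ ∩ fixedBy Ω x = {a} from Set.ext fun c => ⟨fun k => fix c (.inl k.2), fun k => k ▸ ⟨ha, h.le xU⟩⟩,
      Set.ncard_singleton] at this
    rw [Nat.card_coe_set_eq, Nat.odd_iff]; exact this
  · rw [← map_mul, ← map_one π]; exact congrArg π (Subtype.ext xx)
  · rw [← map_mul, ← map_one π]; exact congrArg π (Subtype.ext yy)
  · rw [← map_mul, e, e, e] at hc
    exact Subtype.ext (fix c hc)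

theorem osS : OsS.{u, v} := fun G Ω _ _ _ _ a b L S Z t k h => by
  have su : ∀ ht : t ∈ L, IsRankOneSetup L Ω a ⟨t, ht⟩ (S.subgroupOf L) := fun ht => by
    have tb : (⟨t, ht⟩ : L) • a = b := h.ta
    refine ⟨is_two_pretransitive_iff.2 fun e e' => (h.t2 e e').elim fun g hg => ⟨⟨g, hg.1⟩, hg.2⟩, Subtype.ext h.tt,
      fun e => h.ne (by rw [← tb, e, one_smul]), fun e => h.ne (e.symm.trans tb), fun x hx => h.Sa hx,
      fun g hg x hx => h.Sn g hg x hx, ?_, ?_, ?_, ?_⟩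
    · rw [tb]; exact eq_bot_iff.2 fun x hx => Subtype.ext (h.Sreg x hx.1 b h.ne.symm hx.2)
    · rw [tb]
      refine le_antisymm (sup_le (fun x hx => h.Sa hx) inf_le_left) fun g hg => ?_
      obtain ⟨y, hy, e⟩ := h.Str (g • b) fun e => h.ne (MulAction.injective g (Eq.trans hg e.symm))
      rw [← mul_inv_cancel_left (⟨y, h.SL hy⟩ : L) g]
      exact Subgroup.mul_mem_sup hy ⟨(stabilizer L a).mul_mem ((stabilizer L a).inv_mem (h.Sa hy)) hg,
        mem_stabilizer_iff.2 (by rw [mul_smul, inv_smul_eq_iff]; exact e.symm)⟩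
    · obtain ⟨z, hz⟩ := Subgroup.ne_bot_iff_exists_ne_one.1
        ((Subgroup.one_lt_card_iff_ne_bot Z).1 (lt_of_lt_of_le (by decide) h.four))
      rw [Nat.card_congr (Subgroup.subgroupOfEquivOfLe h.SL).toEquiv, even_iff_two_dvd,
        ← orderOf_eq_prime (x := (z : G)) (p := 2) (by rw [sq, h.Zsq z z.2]) fun e => hz (Subtype.ext e)]
      exact Subgroup.orderOf_dvd_natCard _ (h.ZS z.2)
    · rw [tb, show stabilizer L a ⊓ stabilizer L b = (L ⊓ stab2 G a b).subgroupOf L from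
        (Subgroup.inf_subgroupOf_left (stab2 G a b) L).symm, Nat.card_congr (Subgroup.subgroupOfEquivOfLe inf_le_left).toEquiv]
      exact h.oddD
  obtain ⟨c1, c2⟩ := Cfsg.Agent.S1122.result (su h.tL)
  rw [show (⟨t, h.tL⟩ : L) • a = b from h.ta] at c1 c2
  have mi : ∀ z (hz : z ∈ Z), z ≠ 1 → (⟨z, h.SL (h.ZS hz)⟩ : L) ∈ involutionsIn (stabilizer L a : Set L) := fun z hz e =>
    ⟨h.Sa (h.ZS hz), fun k => e (congrArg Subtype.val k), Subtype.ext (h.Zsq z hz)⟩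
  have cO : Nat.card Ω = Nat.card S + 1 := by
    have : Nonempty Ω := ⟨a⟩
    have := Nat.card_pos (α := Ω)
    rw [card_eq_ncard_orbit_mul S b, show S ⊓ stabilizer G b = ⊥ from
      eq_bot_iff.2 fun x hx => h.Sreg x hx.1 b h.ne.symm hx.2, Subgroup.card_bot, mul_one,
      show orbit S b = {c | c ≠ a} from Set.ext fun c => ⟨fun ⟨y, e⟩ k => h.ne (MulAction.injective (y : G)
        (Eq.trans (h.Sa y.2) (k ▸ e).symm)), fun k => (h.Str c k).elim fun y hy => ⟨⟨y, hy.1⟩, hy.2⟩⟩, IsZ.ncard_ne]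
    omega
  refine ⟨su, fun z hz z' hz' e e' => ?_, ?_, cO, ?_, fun s hs ss s1 c d hc hd => ?_⟩
  · obtain ⟨d, ⟨d1, d2⟩, d3⟩ := c2 _ (mi z hz e) _ (mi z' hz' e')
    exact ⟨d⁻¹, inv_mem ⟨d.2, d1⟩, by rw [inv_inv, ← conj_inv, show t * d * t⁻¹ = d⁻¹ from congrArg Subtype.val d2]; exact inv_inv _,
      by rw [inv_inv]; exact congrArg Subtype.val d3⟩
  · rw [Nat.card_coe_set_eq, Nat.card_coe_set_eq, ← Set.ncard_image_of_injective _ Subtype.val_injective,
      ← Set.ncard_image_of_injective (involutionsIn _) Subtype.val_injective] at c1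
    rw [← SetLike.coe_sort_coe, Nat.card_coe_set_eq, ← Set.ncard_sdiff_singleton_add_one Z.one_mem]
    congr 1
    convert c1 using 2
    · exact Set.ext fun d => ⟨fun k => ⟨⟨d, k.1.1⟩, ⟨k.1.2, Subtype.ext k.2⟩, rfl⟩,
        fun ⟨d, k, e⟩ => e ▸ ⟨⟨d.2, k.1⟩, congrArg Subtype.val k.2⟩⟩
    · exact Set.ext fun z => ⟨fun k => ⟨_, mi z k.1 k.2, rfl⟩,
        fun ⟨s, k, e⟩ => e ▸ ⟨h.inv s s.2 (congrArg Subtype.val k.2.2) k.1, fun e => k.2.1 (Subtype.ext e)⟩⟩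
  · rw [card_of_trans2_on L Set.univ (fun _ _ _ _ => trivial) trivial trivial h.ne fun x _ y _ e => h.t2 h.ne e,
      Set.ncard_univ, cO, Nat.add_sub_cancel]
  · by_contra e
    obtain ⟨g, hg, g1, g2⟩ := h.t2 e h.ne
    have := Subgroup.orderOf_dvd_natCard (L ⊓ stab2 G a b) (x := g * s * g⁻¹) ⟨L.mul_mem (L.mul_mem hg hs) (L.inv_mem hg),
      mem_stabilizer_iff.2 (by rw [← g1, mul_smul, mul_smul, inv_smul_smul, hc]),
      mem_stabilizer_iff.2 (by rw [← g2, mul_smul, mul_smul, inv_smul_smul, hd])⟩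
    rw [orderOf_eq_prime (p := 2) (by rw [conj_pow, sq, ss, mul_one, mul_inv_cancel]) fun e => s1 (conj_eq_one_iff.1 e)] at this
    exact h.oddD.not_two_dvd_nat this

end CL.Perm.Hks
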