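/-
Project HKS: symmetry of the two-point stabilisers in a minimal counterexample of even degree.
-/
import Cfsg.Agent.Perm.HksDefs
import Cfsg.Agent.Grp.PGroupBasic

set_option autoImplicit false
set_option linter.unusedSectionVars false

namespace CL.Perm.Hks

open MulAction Cfsg CL.Perm.V4 CL.Perm.V4D CL.Perm.Kos Subgroup

universe u v

namespace SymAux

variable {G : Type u} {Ω : Type v} [Group G] [MulAction G Ω] {p : ℕ} {P Q : Ω → Subgroup G}

theorem ge_of_cj [Finite G] {A B : Subgroup G} (g : G) (h : ∀ y, g * y * g⁻¹ ∈ A ↔ y ∈ B) (le : A ≤ B) : B ≤ A :=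
  (eq_of_le_of_card_ge le (Nat.card_le_card_of_injective (fun y : B => (⟨g * y * g⁻¹, (h y).2 y.2⟩ : A))
    fun _ _ e => Subtype.ext (by simpa using e))).ge

theorem cj_smul (g y : G) (c : Ω) (e : y • c = c) : (g * y * g⁻¹) • g • c = g • c := by
  rw [mul_smul, inv_smul_smul, mul_smul, e]

/-- the points `e` with `P a ⊓ P b ≤ P e` -/
def Ga (P : Ω → Subgroup G) (a b : Ω) : Set Ω := {e | P a ⊓ P b ≤ P e}

theorem aG {a b : Ω} : a ∈ Ga P a b := (inf_le_left : P a ⊓ P b ≤ P a)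
theorem bG {a b : Ω} : b ∈ Ga P a b := (inf_le_right : P a ⊓ P b ≤ P b)

variable (h : Ks G Ω p P Q)
include h

theorem Pc' (g : G) (c : Ω) (y : G) : g * y * g⁻¹ ∈ P (g • c) ↔ y ∈ P c :=
  ⟨fun e => by simpa [mul_assoc] using h.Pc g⁻¹ _ _ e, h.Pc g c y⟩

theorem PP (g : G) (c d : Ω) (y : G) : g * y * g⁻¹ ∈ P (g • c) ⊓ P (g • d) ↔ y ∈ P c ⊓ P d := by
  rw [mem_inf, mem_inf, Pc' h, Pc' h]

theorem Pf {g : G} {c : Ω} (e : g • c = c) {y : G} (hy : y ∈ P c) : g * y * g⁻¹ ∈ P c := e ▸ h.Pc g c y hy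

theorem Qf {g : G} {c : Ω} (e : g • c = c) {y : G} (hy : y ∈ Q c) : g * y * g⁻¹ ∈ Q c := e ▸ h.Qc g c y hy

theorem nrmP {g : G} {c : Ω} (e : g • c = c) : g ∈ normalizer (P c : Set G) :=
  mem_normalizer_iff.2 fun y => by rw [← Pc' h g c y, e]

theorem triv {c : Ω} {y : G} (hy : y ∈ Q c) {n : ℕ} (e : y ^ p ^ n = 1) : y = 1 :=
  orderOf_eq_one_iff.1 (Nat.eq_one_of_dvd_coprimes (((Nat.Prime.coprime_iff_not_dvd h.prime).2 (h.Qp c)).pow_left n)
    (orderOf_dvd_of_pow_eq_one e) (Subgroup.orderOf_dvd_natCard _ hy))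

theorem pw {c : Ω} {y : G} (hy : y ∈ P c) : ∃ n : ℕ, y ^ p ^ n = 1 :=
  (h.Pp c ⟨y, hy⟩).imp fun _ e => congrArg Subtype.val e

variable [Finite G]

theorem K0_ne {a b : Ω} (hab : a ≠ b) : P a ⊓ P b ≠ ⊥ := fun e0 => by
  have : Fact p.Prime := ⟨h.prime⟩
  have k : ∀ x y : Ω, x ≠ y → ∀ z ∈ P x, z ∈ P y → z = 1 := fun x y n z h1 h2 => by
    obtain ⟨g, e1, e2⟩ := h.t2 n hab
    have := (PP h g x y z).2 ⟨h1, h2⟩
    rw [e1, e2, e0, mem_bot] at this
    simpa using this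
  obtain ⟨c, d, n, y, hy, y1, yd⟩ := h.ne
  obtain ⟨m, hm⟩ := pw h hy
  have hn : zpowers y ≤ normalizer (P d : Set G) := zpowers_le.2 (nrmP h yd)
  have hR : IsPGroup p (P d ⊔ zpowers y : Subgroup G) := (h.Pp d).to_sup_of_normal_left' (by
    rintro ⟨_, i, rfl⟩
    refine ⟨m, Subtype.ext (show (y ^ i) ^ p ^ m = 1 from ?_)⟩
    rw [← zpow_natCast, ← zpow_mul, mul_comm, zpow_mul, zpow_natCast, hm, one_zpow]) hn
  have : ((P d).subgroupOf (P d ⊔ zpowers y)).Normal :=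
    (normal_subgroupOf_iff_le_normalizer le_sup_left).2 (sup_le le_normalizer hn)
  have := hR.isNilpotent
  obtain ⟨z, z1, z2⟩ := (bot_or_exists_ne_one _).resolve_left (CL.Grp.inf_center_ne_bot
    (N := (P d).subgroupOf (P d ⊔ zpowers y)) fun e => by
      rw [subgroupOf_eq_bot, disjoint_iff, inf_eq_left.2 le_sup_left] at e
      obtain ⟨g, e1, -⟩ := h.t2 n n.symm
      have := h.Pc g c y hy
      rw [e1, e, mem_bot] at this
      exact y1 (by simpa using this))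
  have zc : ∀ r ∈ P d ⊔ zpowers y, r * z = z * r := fun r hr => congrArg Subtype.val (mem_center_iff.1 z1.2 ⟨r, hr⟩)
  have zP : (z : G) ∈ P d := z1.1
  have e1 : (z : G) • c = c := by_contra fun e => y1 (k c _ (Ne.symm e) y hy (by
    have := h.Pc z c y hy
    rwa [← zc y (mem_sup_right (mem_zpowers y)), mul_inv_cancel_right] at this))
  refine z2 (Subtype.ext (h.faith z fun e => ?_))
  by_cases ed : e = d
  · rw [ed, h.Pfix d z zP]
  obtain ⟨u, u1, x, x1, rfl⟩ := h.tr d c e n ed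
  rw [← mul_smul, ← mul_assoc, ← zc u (mem_sup_left u1), mul_assoc, h.comm d z zP x x1, ← mul_assoc, mul_smul, e1]

theorem st_of {a b : Ω} {g : G} (hg : ∀ k ∈ P a ⊓ P b, g⁻¹ * k * g⁻¹⁻¹ ∈ P a ⊓ P b) : St (Ga P a b) g :=
  fun c hc k hk => by simpa [mul_assoc] using h.Pc g c _ (hc (hg k hk))

theorem K0_eq {a b e : Ω} (hab : a ≠ b) (he : e ∈ Ga P a b) (n : e ≠ a) : P a ⊓ P e = P a ⊓ P b := by
  have le : P a ⊓ P b ≤ P a ⊓ P e := le_inf inf_le_left he
  obtain ⟨g, e1, e2⟩ := h.t2 n.symm hab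
  exact le_antisymm (ge_of_cj g (fun y => by rw [← PP h g a e y, e1, e2]) le) le

theorem pw_Ga {a b : Ω} (hab : a ≠ b) {y : G} (hy : y ∈ P a) (yb : y • b = b) : Pw (Ga P a b) y := by
  refine h.loc (Ga P a b) a aG (fun e => K0_ne h hab (eq_bot_iff.2 fun k hk => mem_bot.2 (h.faith k fun c =>
    h.Pfix c k ((e.ge (Set.mem_univ c) : c ∈ Ga P a b) hk)))) (fun d hd e he da ea => ?_) ?_ y (mem_sup_left hy)
    (st_of h fun k hk => ?_) b bG hab.symm yb
  · obtain ⟨u, u1, x, x1, e1⟩ := h.tr a d e da ea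
    refine ⟨u, u1, x, x1, st_of h fun k hk => ?_, e1⟩
    have e2 : (u * x) • a = a := by rw [mul_smul, h.Qfix a x x1, h.Pfix a u u1]
    rw [← K0_eq h hab hd da, ← PP h (u * x), e1, e2, K0_eq h hab he ea]
    simpa [mul_assoc] using hk
  · obtain ⟨g, e1, e2⟩ := h.t2 hab hab.symm
    refine ⟨g, st_of h fun k hk => ?_, e1 ▸ hab.symm⟩
    rw [← PP h g, e1, e2, inf_comm]
    simpa [mul_assoc] using hk
  · rw [← PP h y, h.Pfix a y hy, yb]
    simpa [mul_assoc] using hk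

theorem cQ {a b : Ω} (hab : a ≠ b) {k : G} (hk : k ∈ P b) (ka : k • a = a) {x : G} (hx : x ∈ Q a) : x * k = k * x := by
  have pwk : Pw (Ga P a b) k := by
    have := pw_Ga h hab.symm hk ka
    rwa [show Ga P b a = Ga P a b by rw [Ga, Ga, inf_comm]] at this
  have st : St (Ga P a b) x⁻¹ := st_of h fun y hy => by
    rwa [inv_inv, ← h.comm a y hy.1 x hx, mul_inv_cancel_right]
  have mQ : x * k * x⁻¹ * k⁻¹ ∈ Q a := by
    simpa [mul_assoc] using mul_mem hx (Qf h ka (inv_mem hx))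
  have mb : (x * k * x⁻¹ * k⁻¹) • b = b := by
    rw [mul_smul, h.Pfix b _ (inv_mem hk), mul_smul, mul_smul, pwk _ (st b bG), smul_inv_smul]
  generalize hm : x * k * x⁻¹ * k⁻¹ = m at mQ mb
  have cm : Commute m k := by
    obtain ⟨n, hn⟩ := pw h (mul_mem (Pf h mb hk) (inv_mem hk))
    have := triv h (by simpa [mul_assoc] using mul_mem mQ (Qf h ka (inv_mem mQ))) hn
    rwa [mul_inv_eq_one, mul_inv_eq_iff_eq_mul] at this
  obtain ⟨n, hn⟩ := pw h hk
  have e1 : (m * k) ^ p ^ n = 1 := by rw [← hm, inv_mul_cancel_right, conj_pow, hn]; simp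
  rw [cm.mul_pow, hn, mul_one] at e1
  rwa [triv h mQ e1, mul_inv_eq_one, mul_inv_eq_iff_eq_mul] at hm

theorem sym {a b : Ω} (hab : a ≠ b) : P b ⊓ stabilizer G a ≤ P a := by
  refine le_sup_right.trans (h.max a (P a ⊔ P b ⊓ stabilizer G a) ((h.Pp a).to_sup_of_normal_left'
    ((h.Pp b).to_le inf_le_left) fun k hk => nrmP h hk.2) (sup_le (h.Pfix a) inf_le_right) fun g hg => ?_)
  have ga : g • a = a := hg
  suffices k : P a ⊔ P b ⊓ stabilizer G a ≤ (P a ⊔ P b ⊓ stabilizer G a).comap (MulAut.conj g).toMonoidHom from k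
  refine sup_le (fun r hr => mem_sup_left (Pf h ga hr)) fun k hk => ?_
  obtain ⟨u, u1, x, x1, e1⟩ := h.tr a b (g • b) hab.symm fun e => hab (smul_left_cancel g (ga.trans e.symm))
  have e2 : ((u * x)⁻¹ * g) • a = a := by
    rw [mul_smul, ga, inv_smul_eq_iff, mul_smul, h.Qfix a x x1, h.Pfix a u u1]
  have e3 : ((u * x)⁻¹ * g) • b = b := by rw [mul_smul, ← e1, inv_smul_smul]
  generalize hw : (u * x)⁻¹ * g = w at e2 e3
  have m1 : w * k * w⁻¹ ∈ P b := Pf h e3 hk.1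
  have m2 : (w * k * w⁻¹) • a = a := by simpa only [e2] using cj_smul w k a hk.2
  have e4 : g * k * g⁻¹ = u * (x * (w * k * w⁻¹)) * x⁻¹ * u⁻¹ := by rw [← hw]; group
  show g * k * g⁻¹ ∈ P a ⊔ P b ⊓ stabilizer G a
  rw [e4, cQ h hab m1 m2 x1, ← mul_assoc, mul_inv_cancel_right]
  exact mul_mem (mul_mem (mem_sup_left u1) (mem_sup_right ⟨m1, m2⟩)) (mem_sup_left (inv_mem u1))

end SymAux

theorem symS : SymS.{u, v} := fun _ _ _ _ _ _ _ _ _ h c d y hy e => by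
  by_cases n : d = c
  · rwa [n]
  · exact SymAux.sym h n ⟨hy, e⟩

end CL.Perm.Hks
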