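/-
Project HKS (S1145): the elements of `C` inverted by `u` and fixing `a`, `b` form a cyclic group.
-/
import Cfsg.Agent.Perm.HksDefs
import Cfsg.Agent.S0058
import Cfsg.Agent.Odd.FT
import Cfsg.Agent.Grp.FrobCompl
import Cfsg.Agent.Grp.Fitting

set_option autoImplicit false
set_option linter.unusedSectionVars false

namespace CL.Perm.Hks

open MulAction Cfsg CL.Perm.V4 CL.Perm.V4D CL.Perm.Kos CL.Grp Subgroup

universe u v

namespace TorJ

variable {G : Type u} [Group G] [Finite G]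

theorem exists_sqrt {u x : G} (ho : Odd (orderOf x)) (h : u * x * u⁻¹ = x⁻¹) :
    ∃ y ∈ zpowers x, y * y = x ∧ u * y * u⁻¹ = y⁻¹ := by
  obtain ⟨k, hk⟩ := ho
  refine ⟨x ^ (k + 1), pow_mem (mem_zpowers x) _, ?_, by rw [← conj_pow, h, inv_pow]⟩
  rw [← pow_add, show k + 1 + (k + 1) = 2 * k + 1 + 1 by ring, ← hk, pow_succ, pow_orderOf_eq_one, one_mul]

theorem conj_eq_zpow {R : Subgroup G} (hR : IsCyclic R) {g : G} (hg : g ∈ normalizer (R : Set G)) :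
    ∃ i : ℤ, ∀ x ∈ R, g * x * g⁻¹ = x ^ i := by
  obtain ⟨c, rfl⟩ := (Subgroup.isCyclic_iff_exists_zpowers_eq_top R).1 hR
  obtain ⟨i, hi⟩ := (mem_normalizer_iff.1 hg c).1 (mem_zpowers c)
  refine ⟨i, ?_⟩
  rintro _ ⟨n, rfl⟩
  simp only at hi ⊢
  rw [← conj_zpow, ← hi, ← zpow_mul, ← zpow_mul, mul_comm]

theorem not_dvd_card {X : Subgroup G} {p : ℕ} (hp : p.Prime) (h : ∀ x ∈ X, x ≠ 1 → ¬ p ∣ orderOf x) :
    ¬ p ∣ Nat.card X := fun e => by
  have := Fact.mk hp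
  obtain ⟨x, hx⟩ := exists_prime_orderOf_dvd_card' p e
  exact h x x.2 (fun e' => hp.ne_one (by rw [← hx, orderOf_eq_one_iff]; exact Subtype.ext e'))
    (by rw [orderOf_coe, hx])

theorem abs {M : Subgroup G} {u : G} {p : ℕ} (hp : p.Prime) (uu : u * u = 1) (odd : ∀ x ∈ M, Odd (orderOf x))
    (cyc : ∀ r : ℕ, r.Prime → r ≠ p → ∀ A ≤ M, IsPGroup r A → IsMulCommutative A → IsCyclic A)
    (cop : ∀ x ∈ M, u * x * u⁻¹ = x⁻¹ → x ≠ 1 → ¬ p ∣ orderOf x) :
    ∃ D : Subgroup G, (∀ x, x ∈ D ↔ x ∈ M ∧ u * x * u⁻¹ = x⁻¹) ∧ IsCyclic D ∧ Odd (Nat.card D) ∧ ¬ p ∣ Nat.card D := by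
  have oc : ∀ X ≤ M, Odd (Nat.card X) := fun X hX => Nat.not_even_iff_odd.1 fun e =>
    not_dvd_card Nat.prime_two (fun x hx _ => (odd x (hX hx)).not_two_dvd_nat) e.two_dvd
  have cy : ∀ r : ℕ, r.Prime → r ≠ p → ∀ E ≤ M, IsPGroup r E → IsCyclic E := fun r hr hrp E hE pE => by
    have := Fact.mk hr
    have := pE.isNilpotent
    have : IsZGroup E := PQCyclic.isZGroup_of_odd (fun B q q' hq hq' hB => by
      obtain ⟨k, hk⟩ := IsPGroup.iff_card.1 (pE.to_subgroup B)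
      have e1 := (Nat.prime_dvd_prime_iff_eq hq hr).1 (hq.dvd_of_dvd_pow ((dvd_mul_right q q').trans (hB.symm.trans hk).dvd))
      have e2 := (Nat.prime_dvd_prime_iff_eq hq' hr).1 (hq'.dvd_of_dvd_pow ((dvd_mul_left q' q).trans (hB.symm.trans hk).dvd))
      have := IsPGroup.isMulCommutative_of_card_eq_prime_sq (p := r) (G := B) (by rw [hB, e1, e2, sq])
      have := cyc _ hr hrp (B.map E.subtype) ((map_subtype_le B).trans hE) ((pE.to_subgroup B).map _) inferInstance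
      exact isCyclic_of_surjective _ (B.equivMapOfInjective _ E.subtype_injective).symm.surjective) (oc E hE)
    exact inferInstance
  obtain ⟨J, hJ⟩ : ∃ J, J = closure {x | x ∈ M ∧ u * x * u⁻¹ = x⁻¹} := ⟨_, rfl⟩
  have IJ : ∀ x ∈ M, u * x * u⁻¹ = x⁻¹ → x ∈ J := fun x h1 h2 => hJ.ge (subset_closure ⟨h1, h2⟩)
  have JM : J ≤ M := hJ ▸ (closure_le _).2 fun _ h => h.1
  have uJ : u ∈ normalizer (J : Set G) := mem_normalizer_fintype fun x hx => by
    have : J ≤ J.comap (MulAut.conj u).toMonoidHom := by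
      conv_lhs => rw [hJ]
      exact (closure_le _).2 fun x h => mem_comap.2 ((show u * x * u⁻¹ = x⁻¹ from h.2).symm ▸ inv_mem (IJ x h.1 h.2) :
        u * x * u⁻¹ ∈ J)
    exact this hx
  have key : ∀ r : Nat.Primes, pCoreOf (r : ℕ) J ≤ centralizer (J : Set G) := fun r => by
    have := Fact.mk r.2
    have hu := normalizer_le_normalizer_pCoreOf r J uJ
    rw [le_centralizer_iff]
    refine hJ.le.trans ((closure_le _).2 fun x hx => mem_centralizer_iff.2 fun z hz => ?_)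
    obtain ⟨y, h1, rfl, h2⟩ := exists_sqrt (odd x hx.1) hx.2
    have hy := le_normalizer_pCoreOf r J (zpowers_le.2 (IJ _ hx.1 hx.2) h1)
    have e : y * y = y * u * (u * y)⁻¹ := by
      rw [mul_inv_rev, mul_assoc, ← mul_assoc u, ← conj_inv, h2, inv_inv]
    have hz' : (u * y)⁻¹ * z * (u * y) ∈ pCoreOf (r : ℕ) J := by
      simpa using (mem_normalizer_iff.1 (inv_mem (mul_mem hu hy)) z).1 hz
    suffices h : ∀ w ∈ pCoreOf (r : ℕ) J, y * u * w * (y * u)⁻¹ = u * y * w * (u * y)⁻¹ by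
      calc z * (y * y) = u * y * ((u * y)⁻¹ * z * (u * y)) * (u * y)⁻¹ * (y * y) := by group
        _ = _ := by rw [← h _ hz', e]; group
    intro w hw
    rw [show y * u * w * (y * u)⁻¹ = y * (u * w * u⁻¹) * y⁻¹ by group,
      show u * y * w * (u * y)⁻¹ = u * (y * w * y⁻¹) * u⁻¹ by group]
    by_cases hr : (r : ℕ) = p
    · have h3 : ∀ g ∈ pCoreOf (r : ℕ) J, u * g * u⁻¹ = g := fun g hg => by
        have h4 := mul_mem (inv_mem hg) ((mem_normalizer_iff.1 hu g).1 hg)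
        by_contra h5
        obtain ⟨k, hk⟩ := (IsPGroup.iff_orderOf.1 (pCoreOf_isPGroup r J)) ⟨_, h4⟩
        rw [← orderOf_coe] at hk
        have h6 : g⁻¹ * (u * g * u⁻¹) ≠ 1 := fun e => h5 (inv_mul_eq_one.1 e).symm
        refine cop _ (JM (pCoreOf_le _ _ h4)) ?_ h6 (hr ▸ hk ▸ dvd_pow_self _ fun e => h6 ?_)
        · rw [show u * (g⁻¹ * (u * g * u⁻¹)) * u⁻¹ = u * g⁻¹ * u⁻¹ * (u * u * g * (u * u)⁻¹) by group, uu]; group
        · rwa [e, pow_zero, orderOf_eq_one_iff] at hk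
      rw [h3 w hw, h3 _ ((mem_normalizer_iff.1 hy w).1 hw)]
    · have hc := cy r r.2 hr _ ((pCoreOf_le _ _).trans JM) (pCoreOf_isPGroup r J)
      obtain ⟨i, hi⟩ := conj_eq_zpow hc hu
      rw [hi w hw, hi _ ((mem_normalizer_iff.1 hy w).1 hw), conj_zpow]
  have hF : fittingOf J ≤ centralizer (J : Set G) := fittingOf_eq_iSup_pCoreOf J ▸ iSup_le key
  have ab : J ≤ centralizer (J : Set G) := ((le_inf le_rfl (le_centralizer_iff.1 hF)).trans
    (inf_centralizer_fittingOf_le (CL.Odd.feit_thompson (oc J JM)))).trans hF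
  have mem : ∀ x, x ∈ J ↔ x ∈ M ∧ u * x * u⁻¹ = x⁻¹ := fun x => ⟨fun hx => ⟨JM hx, by
    rw [hJ] at hx
    induction hx using closure_induction with
    | mem x h => exact h.2
    | one => simp
    | mul x y hx hy h1 h2 => rw [← conj_mul, h1, h2, ← mul_inv_rev, ab (hJ.ge hx) y (hJ.ge hy)]
    | inv x _ h1 => rw [← conj_inv, h1]⟩, fun h => IJ x h.1 h.2⟩
  have nd := not_dvd_card hp fun x hx => cop x (JM hx) ((mem x).1 hx).2
  refine ⟨J, mem, ?_, oc J JM, nd⟩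
  have : IsMulCommutative J := ⟨⟨fun a b => Subtype.ext (ab b.2 a a.2)⟩⟩
  have : IsZGroup J := ⟨fun r hr T => by
    have := Fact.mk hr
    by_cases e : r = p
    · obtain ⟨k, hk⟩ := IsPGroup.iff_card.1 T.isPGroup'
      rcases k with _ | k
      · rw [card_eq_one.1 hk]; infer_instance
      · exact absurd ((dvd_pow_self r k.succ_ne_zero).trans (hk ▸ (T : Subgroup J).card_subgroup_dvd_card)) (e ▸ nd)
    · have := cy r hr e ((T : Subgroup J).map J.subtype) ((map_subtype_le _).trans JM) (T.isPGroup'.map _)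
      exact isCyclic_of_surjective _ ((T : Subgroup J).equivMapOfInjective _ J.subtype_injective).symm.surjective⟩
  have : Group.IsNilpotent J := by
    open scoped IsMulCommutative in exact CommGroup.isNilpotent
  infer_instance

end TorJ

theorem torS : TorS.{u, v} := by
  intro G Ω _ _ _ _ p P Q h bk lw a b u cb iv ⟨x0, hx0, x1⟩
  have := Fact.mk h.prime
  have od : ∀ x ∈ Cc P a b ⊓ stabilizer G a ⊓ stabilizer G b, Odd (orderOf x) := fun x hx =>
    cb.oddS x (mem_sup_left (mem_sup_left hx.1.1)) hx.1.2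
  obtain ⟨D, h1, h2, h3, h4⟩ := TorJ.abs h.prime cb.fpf.sq od (fun r hr hrp A hA pA _ => by
    by_contra hc
    have := Fact.mk hr
    obtain ⟨y, hy, hy'⟩ := bk.out a b cb.ne
    refine hy' (((Cfsg.Agent.S0058.result A (P a) hc (fun x hx => mem_normalizer_fintype fun z hz => ?_)
      (IsPGroup.coprime_card_of_ne r p hrp A (P a) pA (h.Pp a))).ge.trans (iSup₂_le fun x hx z hz => ?_)) hy)
    · have := h.Pc x a z hz
      rwa [show x • a = a from (hA hx).1.2] at this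
    · obtain ⟨k, hk⟩ := IsPGroup.iff_orderOf.1 pA ⟨x, hx.1⟩
      rw [← orderOf_coe] at hk
      exact (lw.PP a b cb.ne x (hA hx.1).1.1 hx.2 (hA hx.1).1.2 (hA hx.1).2 fun e => hrp
        ((Nat.prime_dvd_prime_iff_eq h.prime hr).1 (h.prime.dvd_of_dvd_pow (hk ▸ e))).symm).2 z hz.1
        (mem_centralizer_singleton_iff.1 hz.2))
    fun x hx e x1 => (iv x ⟨hx.1.2, hx.2, hx.1.1, e⟩ x1).1
  have mem : ∀ x, x ∈ D ↔ Iv P a b u x := fun x => (h1 x).trans
    ⟨fun e => ⟨e.1.1.2, e.1.2, e.1.1.1, e.2⟩, fun e => ⟨⟨⟨e.2.2.1, e.1⟩, e.2.1⟩, e.2.2.2⟩⟩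
  refine ⟨D, mem, h2, fun e => x1 (mem_bot.1 (e.le ((mem _).2 hx0))), h3, h4,
    fun x hx x1 => (iv x ((mem x).1 hx) x1).2, fun g hg x hx => ?_⟩
  have aB : a ∈ Bl P a b := fun k hk => h.Pfix a k hk.1
  have bB : b ∈ Bl P a b := fun k hk => hk.2
  have gN : g ∈ Nn P a b := by
    rcases hg with e | e
    exacts [bk.memN' a b g cb.ne (e.1.symm ▸ aB) (e.2.symm ▸ bB), bk.memN' a b g cb.ne (e.1.symm ▸ bB) (e.2.symm ▸ aB)]
  have gC : ∀ c ∈ Cc P a b, g * c * g⁻¹ ∈ Cc P a b := fun c hc => mem_centralizer_iff.2 fun k hk => by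
    have := hc _ ((mem_normalizer_iff.1 (inv_mem gN) k).1 hk)
    calc k * (g * c * g⁻¹) = g * (g⁻¹ * k * g⁻¹⁻¹ * c) * g⁻¹ := by group
      _ = _ := by rw [this]; group
  have ui : u⁻¹ = u := inv_eq_of_mul_eq_one_right cb.fpf.sq
  have ua := cb.fpf.ua
  have ub : u • b = a := by rw [← ua, ← mul_smul, cb.fpf.sq, one_smul]
  have act : ∀ (c : G) (d e : Ω), c • d = e → (g * c * g⁻¹) • g • d = g • e := fun c d e hc => by
    rw [mul_smul, mul_smul, inv_smul_smul, hc]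
  obtain ⟨xa, xb, xC, xu⟩ := (mem x).1 hx
  obtain ⟨sa, sb, ya, yb⟩ : (g * u * g⁻¹) • a = b ∧ (g * u * g⁻¹) • b = a ∧ (g * x * g⁻¹) • a = a ∧
      (g * x * g⁻¹) • b = b := by
    have e1 := act u a b ua
    have e2 := act u b a ub
    have e3 := act x a a xa
    have e4 := act x b b xb
    rcases hg with e | e
    · rw [e.1, e.2] at e1 e2
      exact ⟨e1, e2, e.1 ▸ e3, e.2 ▸ e4⟩
    · rw [e.1, e.2] at e1 e2
      exact ⟨e2, e1, e.2 ▸ e4, e.1 ▸ e3⟩
  have hI : Iv P a b u (u * (g * u * g⁻¹)) := ⟨by rw [mul_smul, sa, ub], by rw [mul_smul, sb, ua],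
    mul_mem cb.uC (gC u cb.uC), by rw [mul_inv_rev, conj_inv, ui, ← mul_assoc, cb.fpf.sq, one_mul]⟩
  have hD := (mem _).2 hI
  obtain ⟨y, y1, y2, y3⟩ := TorJ.exists_sqrt (od _ ((h1 _).1 hD).1) hI.2.2.2
  have yD := zpowers_le.2 hD y1
  have e : g * u * g⁻¹ = y⁻¹ * u * y := by
    rw [← y3, inv_mul_cancel_right, mul_assoc u y, y2, ← mul_assoc u u, cb.fpf.sq, one_mul]
  have h5 : y * (g * x * g⁻¹) * y⁻¹ ∈ D := (h1 _).2 ⟨mul_mem (mul_mem ((h1 _).1 yD).1 ⟨⟨gC x xC, ya⟩, yb⟩)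
    (inv_mem ((h1 _).1 yD).1), by
      calc _ = y * (y⁻¹ * u * y * (g * x * g⁻¹) * (y⁻¹ * u * y)⁻¹) * y⁻¹ := by group
        _ = y * (g * (u * x * u⁻¹) * g⁻¹) * y⁻¹ := by rw [← e]; group
        _ = _ := by rw [xu]; group⟩
  exact (mul_mem_cancel_left yD).1 ((mul_mem_cancel_right (inv_mem yD)).1 h5)

end CL.Perm.Hks
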