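/-
Project HKS (S1145): the kernel of the action on the block.
-/
import Cfsg.Agent.Perm.HksDefs
import Cfsg.Agent.Grp.Coprime

set_option autoImplicit false
set_option linter.unusedSectionVars false

namespace CL.Perm.Hks

open MulAction Cfsg CL.Perm.V4 CL.Perm.V4D CL.Perm.Kos Subgroup
open scoped commutatorElement

universe u v

namespace WfL

variable {G : Type u} [Group G]

theorem tw {A S D : Subgroup G} (f : G → G) (hD : ∀ x ∈ D, ∀ y ∈ D, x * y = y * x)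
    (hS : ∀ g ∈ A, ∀ s ∈ S, g * s * g⁻¹ ∈ S) (inj : ∀ s ∈ S, ∀ t ∈ S, f s = f t → s = t)
    (h : ∀ g ∈ A, ∃ x ∈ D, ∃ ε : ℤ, ∀ s ∈ S, f (g * s * g⁻¹) = x * f s ^ ε * x⁻¹) :
    ⁅A, A⁆ ≤ centralizer (S : Set G) := commutator_le.2 fun g hg k hk s hs => by
  obtain ⟨x, hx, ε, e1⟩ := h _ (inv_mem hg)
  obtain ⟨y, hy, δ, e2⟩ := h _ (inv_mem hk)
  have a1 := hS _ (inv_mem hg) s hs
  have a2 := hS _ (inv_mem hk) s hs
  have := inj _ (hS _ (inv_mem hg) _ a2) _ (hS _ (inv_mem hk) _ a1) (by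
    rw [e1 _ a2, e2 _ a1, e1 _ hs, e2 _ hs, conj_zpow, conj_zpow, ← zpow_mul, ← zpow_mul, mul_comm δ,
      ← mul_assoc, ← mul_assoc, ← mul_assoc, ← mul_assoc, hD x hx y hy, mul_assoc _ y⁻¹, mul_assoc _ x⁻¹,
      hD _ (inv_mem hx) _ (inv_mem hy)])
  calc s * ⁅g, k⁆ = g * k * (k⁻¹ * (g⁻¹ * s * g⁻¹⁻¹) * k⁻¹⁻¹) * g⁻¹ * k⁻¹ := by rw [commutatorElement_def]; group
    _ = ⁅g, k⁆ * s := by rw [← this, commutatorElement_def]; group

theorem solv4 {H A B C : Subgroup G} (h1 : ⁅H, H⁆ ≤ A) (h2 : ⁅A, A⁆ ≤ B) (h3 : ⁅B, B⁆ ≤ C) (h4 : ⁅C, C⁆ ≤ ⊥) :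
    Group.IsSolvable H := by
  have k : ∀ {n} {A B : Subgroup G}, (derivedSeries H n).map H.subtype ≤ A → ⁅A, A⁆ ≤ B →
      (derivedSeries H (n + 1)).map H.subtype ≤ B := fun a b => by
    rw [derivedSeries_succ, map_commutator]; exact (commutator_mono a a).trans b
  exact ⟨⟨4, (map_eq_bot_iff_of_injective _ H.subtype_injective).1
    (le_bot_iff.1 (k (k (k (k (n := 0) (map_subtype_le _) h1) h2) h3) h4))⟩⟩

/-- the elements of `P` acting trivially on `K` modulo the centre of `P` -/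
def AA (P K : Subgroup G) : Subgroup G where
  carrier := {g | g ∈ P ∧ ∀ k ∈ K, ⁅g, k⁆ ∈ P ⊓ centralizer (P : Set G)}
  one_mem' := ⟨one_mem _, fun k _ => by simp [one_mem]⟩
  mul_mem' {g h} hg hh := ⟨mul_mem hg.1 hh.1, fun k hk => by
    rw [show ⁅g * h, k⁆ = g * ⁅h, k⁆ * g⁻¹ * ⁅g, k⁆ by simp only [commutatorElement_def]; group,
      (hh.2 k hk).2 g hg.1, mul_inv_cancel_right]
    exact mul_mem (hh.2 k hk) (hg.2 k hk)⟩
  inv_mem' {g} hg := ⟨inv_mem hg.1, fun k hk => by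
    rw [show ⁅g⁻¹, k⁆ = g⁻¹ * ⁅g, k⁆⁻¹ * g by simp only [commutatorElement_def]; group,
      (inv_mem (hg.2 k hk)).2 _ (inv_mem hg.1), inv_mul_cancel_right]
    exact inv_mem (hg.2 k hk)⟩

variable {Ω : Type v} [Finite G] [Finite Ω] [MulAction G Ω] {p : ℕ} {P Q : Ω → Subgroup G} {a b : Ω} {D : Subgroup G}
  {g w y y' k k' z u : G} (h : Ks G Ω p P Q)
include h

theorem cP (hg : g • a = a) (hy : y ∈ P a) : g * y * g⁻¹ ∈ P a := hg ▸ h.Pc g a y hy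

theorem cK (hg : g ∈ stab2 G a b) (hk : k ∈ Kk P a b) : g * k * g⁻¹ ∈ Kk P a b :=
  ⟨cP h hg.1 hk.1, by
    change (g * k * g⁻¹) • b = b
    rw [mul_smul, mul_smul, inv_smul_eq_iff.2 hg.2.symm, show k • b = b from hk.2, hg.2]⟩

theorem cZ (hg : g • a = a) (hz : z ∈ Zz P a) : g * z * g⁻¹ ∈ Zz P a := ⟨cP h hg hz.1, fun y hy => by
  have := hz.2 _ (cP h (inv_smul_eq_iff.2 hg.symm) hy)
  calc y * (g * z * g⁻¹) = g * (g⁻¹ * y * g⁻¹⁻¹ * z) * g⁻¹ := by group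
    _ = _ := by rw [this]; group⟩

theorem cA (hg : g ∈ stab2 G a b) (hy : y ∈ AA (P a) (Kk P a b)) : g * y * g⁻¹ ∈ AA (P a) (Kk P a b) :=
  ⟨cP h hg.1 hy.1, fun k hk => by
    rw [show ⁅g * y * g⁻¹, k⁆ = g * ⁅y, g⁻¹ * k * g⁻¹⁻¹⁆ * g⁻¹ by simp only [commutatorElement_def]; group]
    exact cZ h hg.1 (hy.2 _ (cK h (inv_mem hg) hk))⟩

theorem exA (bk : Bk p P Q) (ab : a ≠ b) (t : Tor p P a b u D) (li : Lin P Q a b D) (ti : Ti P a b) :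
    ∃ y ∈ AA (P a) (Kk P a b), y ∉ Nn P a b := by
  have := Fact.mk h.prime
  obtain ⟨y, hy, yN, y2⟩ := bk.out2 a b ab
  have dH : D ≤ stab2 G a b := fun x hx => ⟨((t.mem x).1 hx).1, ((t.mem x).1 hx).2.1⟩
  have := t.cyc
  obtain ⟨n, hn⟩ := IsPGroup.iff_card.1 (h.Pp a)
  obtain ⟨c, hc, e⟩ := Grp.exists_centralizer_mem_leftCoset (A := D) (K := P a) (N := AA (P a) (Kk P a b))
    (fun x hx => mem_normalizer_fintype fun _ => cP h (dH hx).1)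
    (hn ▸ ((h.prime.coprime_iff_not_dvd.2 t.cop).symm.pow_right n)) (.inl (Group.isSolvable_of_comm fun x y => mul_comm' x y))
    (fun _ hx => hx.1) (fun x hx => mem_normalizer_fintype fun _ => cA h (dH hx)) hy fun x hx =>
      ⟨mul_mem (inv_mem hy) (cP h (dH hx).1 hy), fun k hk => by
        have xK := ((t.mem x).1 hx).2.2.1
        obtain ⟨k', hk', z, hz, e⟩ := li.N1 _ (y2 k ⟨hk.1, le_normalizer hk⟩)
        have h1 := mul_mem (inv_mem hz) (cZ h (dH hx).1 hz)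
        rw [show ⁅y⁻¹ * (x * y * x⁻¹), k⁆ = y⁻¹ * x * (y * (x⁻¹ * k * x) * y⁻¹) * x⁻¹ * y * k⁻¹ by
          rw [commutatorElement_def]; group, mul_assoc x⁻¹, xK k hk, inv_mul_cancel_left, e,
          show y⁻¹ * x * (k' * z) * x⁻¹ * y * k⁻¹ = y⁻¹ * (x * k') * (z * x⁻¹ * y * k⁻¹) by group, ← xK k' hk',
          show y⁻¹ * (k' * x) * (z * x⁻¹ * y * k⁻¹) = y⁻¹ * (k' * z) * (z⁻¹ * (x * z * x⁻¹) * (y * k⁻¹)) by group,
          ← h1.2 _ (mul_mem hy (inv_mem hk.1)), ← e]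
        simpa [mul_assoc] using h1⟩
  obtain ⟨⟨x, hx⟩, x1⟩ := ne_bot_iff_exists_ne_one.1 t.ne
  have h1 := li.CD x hx (fun e => x1 (Subtype.ext e)) c hc.1 (hc.2 x hx).symm
  have h2 : c ∈ AA (P a) (Kk P a b) := ⟨hc.1, fun k hk => by
    rw [commutatorElement_eq_one_iff_mul_comm.2 (ti.ab c h1 k hk)]; exact one_mem _⟩
  exact ⟨y, by simpa using mul_mem h2 (inv_mem e), yN⟩

omit h

theorem memN (bk : Bk p P Q) (ab : a ≠ b) (ti : Ti P a b) (hk : k ∈ Kk P a b) (k1 : k ≠ 1) (e : g * k = k * g) :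
    g ∈ Nn P a b := (bk.memN a b g ab).2 fun c hc => ti.fix k hk k1 _ (by rw [← mul_smul, ← e, mul_smul, hc k hk])

theorem inj (bk : Bk p P Q) (ab : a ≠ b) (ti : Ti P a b) (hy : y ∉ Nn P a b) (hk : k ∈ Kk P a b) (hk' : k' ∈ Kk P a b)
    (e : ⁅y, k⁆ = ⁅y, k'⁆) : k = k' := by
  by_contra n
  refine hy (memN bk ab ti (mul_mem (inv_mem hk') hk) (fun l => n (inv_mul_eq_one.1 l).symm) ?_)
  calc y * (k'⁻¹ * k) = y * k'⁻¹ * y⁻¹ * ⁅y, k⁆ * k * y := by rw [commutatorElement_def]; group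
    _ = y * k'⁻¹ * y⁻¹ * ⁅y, k'⁆ * k * y := by rw [e]
    _ = _ := by rw [commutatorElement_def]; group

theorem ext (bk : Bk p P Q) (ab : a ≠ b) (li : Lin P Q a b D) (ti : Ti P a b) (hy : y ∈ P a) (hy' : y' ∈ P a)
    (hk : k ∈ Kk P a b) (k1 : k ≠ 1) (e : ⁅y, k⁆ = ⁅y', k⁆) (hk' : k' ∈ Kk P a b) : ⁅y, k'⁆ = ⁅y', k'⁆ := by
  obtain ⟨c, hc, z, hz, e1⟩ := li.N1 (y'⁻¹ * y) ⟨(P a).mul_mem (inv_mem hy') hy, memN bk ab ti hk k1 (by
    calc y'⁻¹ * y * k = y'⁻¹ * ⁅y, k⁆ * k * y := by rw [commutatorElement_def]; group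
      _ = _ := by rw [e, commutatorElement_def]; group)⟩
  rw [inv_mul_eq_iff_eq_mul.1 e1, commutatorElement_def, commutatorElement_def, mul_assoc y', mul_assoc c,
    ← hz.2 k' hk'.1, ← mul_assoc c, ti.ab c hc k' hk']
  group

end WfL

open WfL in
theorem wfS : WfS.{u, v} := by
  intro G Ω _ _ _ _ p P Q h bk lw a b u D cb t li ti
  have ab := cb.ne
  obtain ⟨y, hy, yN⟩ := exA h bk ab t li ti
  have dH : D ≤ stab2 G a b := fun x hx => ⟨((t.mem x).1 hx).1, ((t.mem x).1 hx).2.1⟩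
  have := t.cyc
  have hD : ∀ x ∈ D, ∀ y ∈ D, x * y = y * x := fun x hx y hy => congrArg Subtype.val (mul_comm' (⟨x, hx⟩ : D) ⟨y, hy⟩)
  -- conjugation by an element of `H` centralising `Z`
  have cj : ∀ w ∈ stab2 G a b ⊓ centralizer (Zz P a : Set G), ∀ k ∈ Kk P a b,
      ⁅y, w * k * w⁻¹⁆ = ⁅w⁻¹ * y * w⁻¹⁻¹, k⁆ := fun w hw k hk => by
    rw [show ⁅w⁻¹ * y * w⁻¹⁻¹, k⁆ = w⁻¹ * (⁅y, w * k * w⁻¹⁆ * w) by simp only [commutatorElement_def]; group,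
      hw.2 _ (hy.2 _ (cK h hw.1 hk)), inv_mul_cancel_left]
  have pw : ∀ w ∈ stab2 G a b ⊓ centralizer (Zz P a : Set G), Pw (Bl P a b) w := fun w hw e he => by
    by_cases ea : e = a
    · exact ea ▸ hw.1.1
    obtain ⟨z, hz, rfl⟩ := li.Ztr e he ea
    rw [← mul_smul, ← hw.2 z hz, mul_smul, hw.1.2]
  refine ⟨fun w hw k hk k1 e => lw.CW a b ab w (fun c hc => ?_) hw, ?_⟩
  · have wH : w ∈ stab2 G a b := ⟨hw a fun k hk => h.Pfix a k hk.1, hw b fun k hk => hk.2⟩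
    have wZ : w ∈ stab2 G a b ⊓ centralizer (Zz P a : Set G) := ⟨wH, fun z hz => by
      have := bk.Zreg a b ab.symm _ (mul_mem (inv_mem hz) (cZ h wH.1 hz)) (by
        rw [mul_smul, mul_smul, mul_smul, inv_smul_eq_iff.2 wH.2.symm, hw (z • b) fun k hk => by
          rw [← mul_smul, hz.2 k hk.1, mul_smul, show k • b = b from hk.2], inv_smul_smul])
      rw [inv_mul_eq_one, eq_mul_inv_iff_mul_eq] at this
      exact this⟩
    have := ext bk ab li ti (cA h (inv_mem wH) hy).1 hy.1 hk k1 (by rw [← cj w wZ k hk, e, mul_inv_cancel_right]) hc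
    rw [← cj w wZ c hc] at this
    exact (mul_inv_eq_iff_eq_mul.1 (inj bk ab ti yN (cK h wH hc) hc this)).symm
  refine solv4 (A := stab2 G a b ⊓ centralizer (D : Set G)) (B := stab2 G a b ⊓ centralizer (Zz P a : Set G))
    (C := Kk P a b) (le_inf (commutator_le_self _) (tw id hD (fun g hg => t.nrm g (.inl hg)) (fun _ _ _ _ => id)
      fun g hg => ?_)) (le_inf ((commutator_le_self _).trans inf_le_left) (tw id hD (fun g hg _ => cZ h hg.1.1)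
      (fun _ _ _ _ => id) fun g hg => ?_)) (fun w hw => lw.CW a b ab w (tw (A := _ ⊓ _) (⁅y, ·⁆) hD (fun g hg _ => cK h hg.1)
      (fun _ k _ k' => inj bk ab ti yN k k') (fun g hg => ?_) hw) (pw w (commutator_le_self _ hw)))
    (commutator_le.2 fun k hk k' hk' => commutatorElement_eq_one_iff_mul_comm.2 (ti.ab k hk k' hk'))
  · obtain ⟨x, rfl⟩ := (Subgroup.isCyclic_iff_exists_zpowers_eq_top D).1 this
    obtain ⟨n, hn⟩ := t.nrm g (.inl hg) x (mem_zpowers x)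
    refine ⟨1, one_mem _, n, ?_⟩
    rintro _ ⟨m, rfl⟩
    simp only [id, ← conj_zpow, ← hn, ← zpow_mul, mul_comm n, one_mul, inv_one, mul_one]
  · have orb : ∀ v ∈ Zz P a, v ≠ 1 → ∀ z ∈ Zz P a, z ≠ 1 → ∃ x ∈ D, ∃ ε : ℤ, z = x * v ^ ε * x⁻¹ := fun v hv v1 z hz z1 =>
      let ⟨x, hx, e⟩ := li.orb v hv v1 z hz z1
      ⟨x, hx, e.elim (fun e => ⟨1, by rwa [zpow_one]⟩) fun e => ⟨-1, by rwa [zpow_neg_one]⟩⟩
    obtain ⟨⟨v, hv⟩, v1⟩ := ne_bot_iff_exists_ne_one.1 (bk.Zne a)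
    replace v1 : v ≠ 1 := fun e => v1 (Subtype.ext e)
    obtain ⟨x, hx, ε, e⟩ := orb v hv v1 _ (cZ h hg.1.1 hv) (mt conj_eq_one_iff.1 v1)
    refine ⟨x, hx, ε, fun z hz => ?_⟩
    by_cases z1 : z = 1
    · simp [z1]
    obtain ⟨c, hc, δ, rfl⟩ := orb v hv v1 z hz z1
    have e1 : g * c * g⁻¹ = c := mul_inv_eq_iff_eq_mul.2 (hg.2 c hc).symm
    have e2 : x * c * x⁻¹ = c := mul_inv_eq_iff_eq_mul.2 (hD x hx c hc)
    rw [id, id, conj_zpow, ← zpow_mul, ← conj_mul, ← conj_mul, ← conj_mul, ← conj_mul, ← conj_inv, ← conj_inv (b := x), e1, e2,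
      ← conj_zpow, e, conj_zpow, ← zpow_mul, mul_comm ε]
  · obtain ⟨⟨k, hk⟩, k1⟩ := ne_bot_iff_exists_ne_one.1 (bk.Kne a b ab)
    replace k1 : k ≠ 1 := fun e => k1 (Subtype.ext e)
    have n1 : ∀ c ∈ Kk P a b, c ≠ 1 → ⁅y, c⁆ ≠ 1 := fun c hc c1 e =>
      yN (memN bk ab ti hc c1 (commutatorElement_eq_one_iff_mul_comm.1 e))
    obtain ⟨x, hx, e⟩ := li.orb _ (hy.2 k hk) (n1 k hk k1) _ (hy.2 _ (cK h hg.1 hk))
      (n1 _ (cK h hg.1 hk) (mt conj_eq_one_iff.1 k1))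
    have e1 : ∀ y, ∀ c ∈ Kk P a b, x * ⁅y, c⁆ * x⁻¹ = ⁅x * y * x⁻¹, c⁆ := fun y c hc => by
      rw [conjugate_commutatorElement, ← ((t.mem x).1 hx).2.2.1 c hc, mul_inv_cancel_right]
    have e2 : ∀ c ∈ Kk P a b, ⁅y, c⁆⁻¹ = ⁅y⁻¹, c⁆ := fun c hc => by
      rw [show ⁅y⁻¹, c⁆ = y⁻¹ * ⁅y, c⁆⁻¹ * y by simp only [commutatorElement_def]; group,
        (inv_mem (hy.2 c hc)).2 _ (inv_mem hy.1), inv_mul_cancel_right]
    have a1 := (cA h (inv_mem hg.1) hy).1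
    rw [cj g hg k hk, e2 k hk, e1 _ k hk, e1 _ k hk] at e
    refine ⟨x, hx, e.elim (fun e => ⟨1, fun c hc => ?_⟩) fun e => ⟨-1, fun c hc => ?_⟩⟩
    · rw [cj g hg c hc, zpow_one, e1 _ c hc, ext bk ab li ti a1 (cP h (dH hx).1 hy.1) hk k1 e hc]
    · rw [cj g hg c hc, zpow_neg_one, e2 c hc, e1 _ c hc, ext bk ab li ti a1 (cP h (dH hx).1 (inv_mem hy.1)) hk k1 e hc]

end CL.Perm.Hks
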