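/-
Project HKS (S1145): the group induced on the block is a Zassenhaus group.
-/
import Cfsg.Agent.Perm.HksDefs
import Cfsg.Agent.Perm.KosBase
import Cfsg.Agent.Perm.KosCfg
import Cfsg.Agent.Perm.KosEig
import Cfsg.Agent.Perm.KosZ
import Cfsg.Agent.Odd.FT

set_option autoImplicit false
set_option linter.unusedSectionVars false

namespace CL.Perm.Hks

open MulAction Cfsg CL.Perm.V4 CL.Perm.V4D CL.Perm.Kos

universe u v

theorem zas_lam {S : Type*} [Group S] [Finite S] (ho : ∀ g : S, Odd (orderOf g)) (T : Subgroup S) [T.Normal]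
    (hT : T ≠ ⊤) : ∃ l : S →* ℂˣ, (∀ n ∈ T, l n = 1) ∧ ∃ k, l k ≠ 1 := by
  have h1 : Odd (Nat.card S) := by
    by_contra e
    rw [Nat.not_odd_iff_even, even_iff_two_dvd] at e
    have : Fact (Nat.Prime 2) := ⟨Nat.prime_two⟩
    obtain ⟨g, hg⟩ := exists_prime_orderOf_dvd_card' 2 e
    have := ho g
    rw [hg] at this
    exact absurd this (by decide)
  have h2 := CL.Odd.feit_thompson h1
  have h3 : Nontrivial (S ⧸ T) := QuotientGroup.nontrivial_iff.2 hT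
  have h4 := Group.IsSolvable.commutator_lt_top_of_nontrivial (G := S ⧸ T)
  obtain ⟨y, -, hy⟩ := SetLike.exists_of_lt h4
  obtain ⟨k, rfl⟩ := QuotientGroup.mk'_surjective T y
  have h5 : commutator S ≤ (commutator (S ⧸ T)).comap (QuotientGroup.mk' T) := by
    rw [← Subgroup.map_le_iff_le_comap, commutator_def, Subgroup.map_commutator]
    exact Subgroup.commutator_mono le_top le_top
  obtain ⟨l, l1, l2⟩ := cfg_lam h5 (k := k) hy
  refine ⟨l, fun n hn => l1 n ?_, k, l2⟩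
  rw [Subgroup.mem_comap, (QuotientGroup.eq_one_iff n).2 hn |> fun e => (show QuotientGroup.mk' T n = 1 from e)]
  exact one_mem _

theorem zas_sqrt {G : Type*} [Group G] {D : Subgroup G} (ho : Odd (Nat.card D)) {x : G} (hx : x ∈ D) :
    ∃ y ∈ D, y * y = x := by
  obtain ⟨k, hk⟩ := ho
  refine ⟨x ^ (k + 1), pow_mem hx _, ?_⟩
  have : x ^ (2 * k + 1) = 1 := by
    have := pow_card_eq_one' (x := (⟨x, hx⟩ : D))
    rw [hk] at this
    exact congrArg Subtype.val this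
  rw [← pow_add, show k + 1 + (k + 1) = 2 * k + 1 + 1 by ring, pow_succ, this, one_mul]

section
variable {G : Type u} {Ω : Type v} [Group G] [MulAction G Ω]

/-- the group generated by the local subgroups at the points of the block -/
def zasG (P Q : Ω → Subgroup G) (a b : Ω) : Subgroup G :=
  Subgroup.closure {g | ∃ c ∈ Bl P a b, g ∈ P c ⊓ Nn P a b ∨ g ∈ Q c}

variable [Finite G] [Finite Ω] {p : ℕ} {P Q : Ω → Subgroup G} {a b : Ω} {u : G} {D : Subgroup G}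

theorem zas_CN : Cc P a b ≤ Nn P a b := Subgroup.centralizer_le_normalizer _

theorem zas_b : b ∈ Bl P a b := fun _ hk => hk.2

theorem zas_P {c : Ω} (hc : c ∈ Bl P a b) {y : G} (hy : y ∈ P c ⊓ Nn P a b) : y ∈ zasG P Q a b :=
  Subgroup.subset_closure ⟨c, hc, .inl hy⟩

theorem zas_Q {c : Ω} (hc : c ∈ Bl P a b) {y : G} (hy : y ∈ Q c) : y ∈ zasG P Q a b :=
  Subgroup.subset_closure ⟨c, hc, .inr hy⟩

variable (h : Ks G Ω p P Q)
include h

theorem zas_a : a ∈ Bl P a b := fun k hk => h.Pfix a k hk.1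

theorem zas_cP {g y : G} {c : Ω} (hg : g ∈ Nn P a b) (hy : y ∈ P c ⊓ Nn P a b) :
    g * y * g⁻¹ ∈ P (g • c) ⊓ Nn P a b := ⟨h.Pc g c y hy.1,
    (Nn P a b).mul_mem ((Nn P a b).mul_mem hg hy.2) ((Nn P a b).inv_mem hg)⟩

/-- the candidate for the point stabiliser -/
def zasT (t : Tor p P a b u D) : Subgroup G where
  carrier := {g | ∃ y ∈ P a ⊓ Nn P a b, ∃ q ∈ Q a, ∃ x ∈ D, g = y * q * x}
  one_mem' := ⟨1, one_mem _, 1, one_mem _, 1, one_mem _, by simp⟩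
  mul_mem' := by
    rintro _ _ ⟨y, hy, q, hq, x, hx, rfl⟩ ⟨y', hy', q', hq', x', hx', rfl⟩
    obtain ⟨x1, -, x3, -⟩ := (t.mem x).1 hx
    have e1 := zas_cP h (zas_CN x3) hy'
    have e2 := h.Qc x a q' hq'
    rw [x1] at e1 e2
    refine ⟨_, mul_mem hy e1, _, mul_mem hq e2, _, mul_mem hx hx', ?_⟩
    have := h.comm a _ e1.1 q hq
    calc _ = y * (q * (x * y' * x⁻¹)) * (x * q' * x') := by group
      _ = _ := by rw [← this]; group
  inv_mem' := by
    rintro _ ⟨y, hy, q, hq, x, hx, rfl⟩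
    obtain ⟨x1, -, x3, -⟩ := (t.mem x⁻¹).1 (inv_mem hx)
    have e1 := zas_cP h (zas_CN x3) (inv_mem hy)
    have e2 := h.Qc x⁻¹ a _ (inv_mem hq)
    rw [x1] at e1 e2
    refine ⟨_, e1, _, e2, _, inv_mem hx, ?_⟩
    rw [h.comm a y hy.1 q hq]
    group

variable (bk : Bk p P Q) (cb : Cb P Q a b u)
include bk cb

theorem zas_St {g : G} (hg : g ∈ Nn P a b) {c : Ω} (hc : c ∈ Bl P a b) : g • c ∈ Bl P a b :=
  (bk.memN a b g cb.ne).1 hg c hc

theorem zas_le : zasG P Q a b ≤ Gs P Q a b := by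
  refine (Subgroup.closure_le _).2 ?_
  rintro y ⟨c, hc, hy⟩
  obtain ⟨g, hg, rfl⟩ := cb.Ctr c hc
  have e : g⁻¹ * y * g⁻¹⁻¹ ∈ Gs P Q a b := by
    rcases hy with hy | hy
    · have := zas_cP h (inv_mem (zas_CN hg)) hy
      rw [inv_smul_smul] at this
      exact Subgroup.mem_sup_left (Subgroup.mem_sup_right this)
    · have := h.Qc g⁻¹ _ y hy
      rw [inv_smul_smul] at this
      exact Subgroup.mem_sup_right this
  have := cb.nrm g (zas_CN hg) _ e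
  simpa [mul_assoc] using this

theorem zas_N {g : G} (hg : g ∈ zasG P Q a b) : g ∈ Nn P a b := cb.GsN (zas_le h bk cb hg)

theorem zas_nrm {g y : G} (hg : g ∈ Nn P a b) (hy : y ∈ zasG P Q a b) : g * y * g⁻¹ ∈ zasG P Q a b := by
  have : zasG P Q a b ≤ (zasG P Q a b).comap (MulAut.conj g).toMonoidHom := by
    refine (Subgroup.closure_le _).2 ?_
    rintro y ⟨c, hc, hy | hy⟩
    · exact zas_P (zas_St h bk cb hg hc) (zas_cP h hg hy)
    · exact zas_Q (zas_St h bk cb hg hc) (h.Qc g c y hy)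
  exact this hy

theorem zas_third (x y : Ω) : ∃ c ∈ Bl P a b, c ≠ x ∧ c ≠ y :=
  exists_third_of_lt (by have := bk.fourB a b cb.ne; omega) x y

theorem zas_tr {c d e : Ω} (hc : c ∈ Bl P a b) (hd : d ∈ Bl P a b) (he : e ∈ Bl P a b) (dc : d ≠ c) (ec : e ≠ c) :
    ∃ g ∈ zasG P Q a b, g • c = c ∧ g • d = e := by
  have e1 := bk.Keq a b c d cb.ne dc.symm hc hd
  have e2 : Bl P c d = Bl P a b := by simp only [Bl, e1]
  have e3 : Nn P c d = Nn P a b := by simp only [Nn, e1]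
  obtain ⟨y, hy, x, hx, e4⟩ := bk.trN c d dc.symm d (e2 ▸ hd) e (e2 ▸ he) dc ec
  rw [e3] at hy
  exact ⟨y * x, mul_mem (zas_P hc hy) (zas_Q hc hx), by rw [mul_smul, h.Qfix c x hx, h.Pfix c y hy.1], e4⟩

theorem zas_t2 {x y x' y' : Ω} (hx : x ∈ Bl P a b) (hy : y ∈ Bl P a b) (hx' : x' ∈ Bl P a b) (hy' : y' ∈ Bl P a b)
    (h1 : x ≠ y) (h2 : x' ≠ y') : ∃ g ∈ zasG P Q a b, g • x = x' ∧ g • y = y' := by
  have key : ∀ z ∈ Bl P a b, x ≠ z → x' ≠ z → ∃ g ∈ zasG P Q a b, g • x = x' ∧ g • z = y' := fun z hz z1 z2 => by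
    obtain ⟨g, hg, g1, g2⟩ := zas_tr h bk cb hz hx hx' z1 z2
    obtain ⟨k, hk, k1, k2⟩ := zas_tr h bk cb hx' hz hy' z2.symm h2.symm
    exact ⟨k * g, mul_mem hk hg, by rw [mul_smul, g2, k1], by rw [mul_smul, g1, k2]⟩
  obtain ⟨z, hz, z1, z2⟩ := zas_third h bk cb x x'
  obtain ⟨g, hg, g1, g2⟩ := zas_tr h bk cb hx hy hz h1.symm z1
  obtain ⟨k, hk, k1, k2⟩ := key z hz z1.symm z2.symm
  exact ⟨k * g, mul_mem hk hg, by rw [mul_smul, g1, k1], by rw [mul_smul, g2, k2]⟩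

variable (t : Tor p P a b u D)
include t

theorem zas_us {s : G} (hs : s ∈ zasG P Q a b) (ss : s * s = 1) (sa : s • a = b) : u * s ∈ D := by
  refine (t.mem _).2 ⟨by rw [mul_smul, sa, cb.fpf.ub], by rw [mul_smul, swap_of_sq ss sa, cb.fpf.ua],
    mul_mem cb.uC (cb.inC s (zas_le h bk cb hs) ss), ?_⟩
  rw [mul_inv_rev, inv_eq_of_mul_eq_one_right ss, ← mul_assoc, cb.fpf.sq, one_mul]

theorem zas_u : u ∈ zasG P Q a b := by
  obtain ⟨g, hg, g1, g2⟩ := zas_t2 h bk cb (zas_a h) zas_b zas_b (zas_a h) cb.ne cb.ne.symm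
  have e1 : (g * g) • a = a := by rw [mul_smul, g1, g2]
  obtain ⟨k, hk⟩ := cb.oddS _ (zas_le h bk cb (mul_mem hg hg)) e1
  have e2 : (g * g) ^ k ∈ stabilizer G a := pow_mem (mem_stabilizer_iff.2 e1) k
  have e3 : g * (g * g) ^ k ∈ zasG P Q a b := mul_mem hg (pow_mem (mul_mem hg hg) k)
  have e4 : g * (g * g) ^ k * (g * (g * g) ^ k) = 1 := by
    rw [← pow_orderOf_eq_one (g * g), hk]
    simp only [← sq, ← pow_mul, ← pow_succ']
    congr 1
    ring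
  have e5 := zas_us h bk cb t e3 e4 (by rw [mul_smul, mem_stabilizer_iff.1 e2, g1])
  obtain ⟨y, hy, e6⟩ := zas_sqrt t.odd e5
  obtain ⟨-, -, y3, y4⟩ := (t.mem y).1 hy
  have e7 := zas_nrm h bk cb (zas_CN y3) e3
  have e8 : g * (g * g) ^ k = y⁻¹ * u * y := by
    rw [← y4, inv_mul_cancel_right, mul_assoc u, e6, ← mul_assoc, cb.fpf.sq, one_mul]
  rw [e8] at e7
  simpa [mul_assoc] using e7

theorem zas_D {x : G} (hx : x ∈ D) : x ∈ zasG P Q a b := by
  obtain ⟨y, hy, rfl⟩ := zas_sqrt t.odd hx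
  obtain ⟨-, -, y3, y4⟩ := (t.mem y⁻¹).1 (inv_mem hy)
  have e := mul_mem (zas_nrm h bk cb (inv_mem (zas_CN y3)) (zas_u h bk cb t)) (inv_mem (zas_u h bk cb t))
  have e2 : y⁻¹⁻¹ * u * y⁻¹⁻¹⁻¹ * u⁻¹ = y * y := by
    calc _ = y * (u * y⁻¹ * u⁻¹) := by group
      _ = _ := by rw [y4, inv_inv]
  rwa [e2] at e

theorem zas_Tle {g : G} (hg : g ∈ zasT h t) : g ∈ zasG P Q a b := by
  obtain ⟨y, hy, q, hq, x, hx, rfl⟩ := hg
  exact mul_mem (mul_mem (zas_P (zas_a h) hy) (zas_Q (zas_a h) hq)) (zas_D h bk cb t hx)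

theorem zas_Tn {g y : G} (hg : g ∈ Nn P a b) (ga : g • a = a) (hy : y ∈ zasT h t) : g * y * g⁻¹ ∈ zasT h t := by
  have e0 : g • b ≠ a := fun e => cb.ne (smul_left_cancel g (ga.trans e.symm))
  obtain ⟨n, hn, m, hm, e⟩ := bk.trN a b cb.ne b zas_b _ (zas_St h bk cb hg zas_b) cb.ne.symm e0
  have e1 : n * m ∈ zasT h t := ⟨n, hn, m, hm, 1, one_mem _, (mul_one _).symm⟩
  have e2 : (n * m) • a = a := by rw [mul_smul, h.Qfix a m hm, h.Pfix a n hn.1]
  obtain ⟨k, rfl⟩ : ∃ k, g = n * m * k := ⟨(n * m)⁻¹ * g, by group⟩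
  have k1 : k • a = a := smul_left_cancel (n * m) (by rw [← mul_smul, ga, e2])
  have k2 : k • b = b := smul_left_cancel (n * m) (by rw [← mul_smul, e])
  have k3 : k ∈ Nn P a b := (mul_mem_cancel_left (zas_N h bk cb (zas_Tle h bk cb t e1))).1 hg
  have e3 : k * y * k⁻¹ ∈ zasT h t := by
    obtain ⟨y, hy, q, hq, x, hx, rfl⟩ := hy
    have f1 := zas_cP h k3 hy
    have f2 := h.Qc k a q hq
    rw [k1] at f1 f2
    exact ⟨_, f1, _, f2, _, t.nrm k (.inl ⟨k1, k2⟩) x hx, by group⟩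
  have := mul_mem (mul_mem e1 e3) (inv_mem e1)
  convert this using 1
  group

section
variable {X : Type u} [Group X] [Finite X] [MulAction X (Bl P a b)] {π : zasG P Q a b →* X}
  (surj : Function.Surjective π)
  (sm : ∀ (g : zasG P Q a b) (c : Bl P a b), ((π g • c : Bl P a b) : Ω) = (g : G) • (c : Ω))
include surj sm

omit h bk cb t surj in
theorem zas_sm (g : zasG P Q a b) (c d : Bl P a b) : π g • c = d ↔ (g : G) • (c : Ω) = d := by
  rw [← sm, Subtype.ext_iff]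

omit t in
theorem zas_T2 : T2 X (Bl P a b) := fun {x y x' y'} h1 h2 => by
  obtain ⟨g, hg, g1, g2⟩ := zas_t2 h bk cb x.2 y.2 x'.2 y'.2 (fun e => h1 (Subtype.ext e))
    fun e => h2 (Subtype.ext e)
  exact ⟨π ⟨g, hg⟩, (zas_sm sm _ _ _).2 g1, (zas_sm sm _ _ _).2 g2⟩

omit surj in
theorem zas_fpf : Fpf (⟨a, zas_a h⟩ : Bl P a b) ⟨b, zas_b⟩ (π ⟨u, zas_u h bk cb t⟩) where
  sq := by
    rw [← map_mul, show (⟨u, zas_u h bk cb t⟩ : zasG P Q a b) * ⟨u, zas_u h bk cb t⟩ = 1 from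
      Subtype.ext cb.fpf.sq, map_one]
  ua := (zas_sm sm _ _ _).2 cb.fpf.ua
  free := fun c e => cb.fpf.free c ((zas_sm sm _ _ _).1 e)

theorem zas_stab (g : zasG P Q a b) (ga : (g : G) • a = a) :
    ∃ y : zasG P Q a b, (y : G) ∈ zasT h t ∧ π y = π g := by
  let a' : Bl P a b := ⟨a, zas_a h⟩
  let T : Subgroup (stabilizer X a') := (((zasT h t).subgroupOf _).map π).subgroupOf _
  have mT : ∀ s : stabilizer X a', s ∈ T ↔ ∃ y : zasG P Q a b, (y : G) ∈ zasT h t ∧ π y = s := fun s => Iff.rfl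
  have nT : T.Normal := ⟨fun n hn k => by
    obtain ⟨y, hy, e⟩ := (mT n).1 hn
    obtain ⟨k', hk⟩ := surj k
    have k1 : (k' : G) • a = a := (zas_sm sm k' a' a').1 (hk ▸ k.2)
    refine (mT _).2 ⟨k' * y * k'⁻¹, zas_Tn h bk cb t (zas_N h bk cb k'.2) k1 hy, ?_⟩
    rw [map_mul, map_mul, map_inv, hk, e]
    rfl⟩
  suffices e : T = ⊤ from (mT ⟨π g, (zas_sm sm g a' a').2 ga⟩).1 (e ▸ Subgroup.mem_top _)
  by_contra hT
  obtain ⟨l, l1, k, l2⟩ := zas_lam (fun s => by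
    obtain ⟨k', hk⟩ := surj s
    have k1 : (k' : G) • a = a := (zas_sm sm k' a' a').1 (hk ▸ s.2)
    have k2 := cb.oddS _ (zas_le h bk cb k'.2) k1
    rw [Subgroup.orderOf_coe] at k2
    rw [← Subgroup.orderOf_coe, ← hk]
    exact k2.of_dvd_nat (orderOf_map_dvd π k')) T hT
  obtain ⟨z, hz, z1⟩ := (Subgroup.bot_or_exists_ne_one (Zz P a)).resolve_left (bk.Zne a)
  have z2 : z ∈ zasG P Q a b := zas_P (zas_a h) ⟨hz.1, zas_CN (bk.ZC a b cb.ne a (zas_a h) hz)⟩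
  obtain ⟨χ, hχ⟩ := eig X (Bl P a b) a' ⟨b, zas_b⟩ _ (π ⟨z, z2⟩) l (zas_T2 h bk cb surj sm)
    (fun e => cb.ne (congrArg Subtype.val e))
    (by rw [Nat.card_coe_set_eq]; have := bk.fourB a b cb.ne; omega) (zas_fpf h bk cb t sm)
    (fun s n hs sa e => by
      obtain ⟨c, rfl⟩ := isConj_iff.1 hs
      obtain ⟨c, rfl⟩ := surj c
      rw [← map_mul, ← map_inv, ← map_mul] at sa e
      rw [← map_mul] at e
      have f := zas_us h bk cb t (c * ⟨u, zas_u h bk cb t⟩ * c⁻¹).2 (conj_sq_one cb.fpf.sq c)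
        ((zas_sm sm _ _ _).1 sa)
      exact l1 n ((mT n).2 ⟨_, ⟨1, one_mem _, 1, one_mem _, _, f, by simp⟩, e.symm⟩))
    ((zas_sm sm _ _ _).2 (h.Pfix a z hz.1))
    (fun c e => by
      by_contra e2
      exact z1 (bk.Zreg a c (fun e3 => e2 (Subtype.ext e3)) z hz ((zas_sm sm _ _ _).1 e)))
    (fun c d c1 d1 => by
      obtain ⟨y, hy, q, hq, e⟩ := bk.trN a b cb.ne c c.2 d d.2 (fun e => c1 (Subtype.ext e))
        fun e => d1 (Subtype.ext e)
      refine ⟨π ⟨y * q, mul_mem (zas_P (zas_a h) hy) (zas_Q (zas_a h) hq)⟩, ?_, (zas_sm sm _ _ _).2 e⟩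
      rw [← map_mul, ← map_mul]
      congr 1
      apply Subtype.ext
      show y * q * z = z * (y * q)
      rw [mul_assoc, ← h.comm a z hz.1 q hq, ← mul_assoc, hz.2 y hy.1, mul_assoc])
  have key : ∀ y : zasG P Q a b, (y : G) ∈ zasT h t → (y : G) • a = a → χ (π y) = 1 := fun y hy ya =>
    (hχ ⟨π y, (zas_sm sm y a' a').2 ya⟩).trans (l1 _ ((mT _).2 ⟨y, hy, rfl⟩))
  have all : ∀ y (hy : y ∈ zasG P Q a b), χ (π ⟨y, hy⟩) = 1 := fun y hy => by
    induction hy using Subgroup.closure_induction with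
    | mem y hy =>
      obtain ⟨c, hc, hy'⟩ := id hy
      obtain ⟨d, hd, d1, d2⟩ := zas_third h bk cb a c
      obtain ⟨m, hm, -, m2⟩ := zas_tr h bk cb hd hc (zas_a h) d2.symm d1.symm
      have e : χ (π (⟨m, hm⟩ * ⟨y, Subgroup.subset_closure hy⟩ * ⟨m, hm⟩⁻¹)) = 1 := by
        rcases hy' with hy' | hy'
        · have f := zas_cP h (zas_N h bk cb hm) hy'
          rw [m2] at f
          exact key _ ⟨_, f, 1, one_mem _, 1, one_mem _, by simp⟩ (h.Pfix a _ f.1)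
        · have f := h.Qc m c y hy'
          rw [m2] at f
          exact key _ ⟨1, one_mem _, _, f, 1, one_mem _, by simp⟩ (h.Qfix a _ f)
      simpa using e
    | one => exact (congrArg χ π.map_one).trans χ.map_one
    | mul x y hx hy e1 e2 =>
      rw [show (⟨x * y, mul_mem hx hy⟩ : zasG P Q a b) = ⟨x, hx⟩ * ⟨y, hy⟩ from rfl, map_mul, map_mul, e1, e2,
        one_mul]
    | inv x hx e =>
      rw [show (⟨x⁻¹, inv_mem hx⟩ : zasG P Q a b) = ⟨x, hx⟩⁻¹ from rfl, map_inv, map_inv, e, inv_one]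
  obtain ⟨k', hk⟩ := surj k
  exact l2 (by rw [← hχ, ← hk]; exact all k' k'.2)

end

end

theorem zasS : ZasS.{u, v} := by
  intro G Ω _ _ _ _ p P Q h bk lw a b u D cb t
  obtain ⟨X, _, _, _, π, surj, sm, fa⟩ := exists_quot (zasG P Q a b) (Bl P a b)
    fun g hg c hc => zas_St h bk cb (zas_N h bk cb hg) hc
  let a' : Bl P a b := ⟨a, zas_a h⟩
  let b' : Bl P a b := ⟨b, zas_b⟩
  let φ : D →* stab2 X a' b' := (π.comp (Subgroup.inclusion fun x hx => zas_D h bk cb t hx)).codRestrict _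
    fun d => ⟨(zas_sm sm _ a' a').2 ((t.mem d).1 d.2).1, (zas_sm sm _ b' b').2 ((t.mem d).1 d.2).2.1⟩
  have hφ : ∀ (d : D) (c e : Bl P a b), (φ d : X) • c = e ↔ (d : G) • (c : Ω) = e := fun d c e => zas_sm sm _ c e
  have s1 : Function.Surjective φ := fun ⟨y, y1, y2⟩ => by
    obtain ⟨g, rfl⟩ := surj y
    obtain ⟨k, ⟨n, hn, q, hq, x, hx, e⟩, e2⟩ := zas_stab h bk cb t surj sm g ((zas_sm sm g a' a').1 y1)
    have e3 : (k : G) • b = b := (zas_sm sm k b' b').1 (e2 ▸ y2)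
    rw [e, mul_smul, ((t.mem x).1 hx).2.1] at e3
    obtain ⟨e4, e5⟩ := bk.split a b cb.ne n hn.1 q hq e3
    rw [lw.Qreg a b cb.ne q hq e5, mul_one] at e
    refine ⟨⟨x, hx⟩, Subtype.ext ?_⟩
    show (φ ⟨x, hx⟩ : X) = π g
    rw [← e2, eq_comm, ← mul_inv_eq_one]
    refine fa _ fun c => ?_
    rw [mul_smul, zas_sm sm, e, mul_smul, (hφ ⟨x, hx⟩ _ c).1 (smul_inv_smul _ _)]
    exact c.2 n ⟨hn.1, e4⟩
  have s2 : ∀ d : D, d ≠ 1 → ∀ c : Bl P a b, (φ d : X) • c = c → c = a' ∨ c = b' := fun d d1 c e =>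
    (t.fix d d.2 (fun e => d1 (Subtype.ext e)) c ((hφ d c c).1 e)).imp Subtype.ext Subtype.ext
  have s3 : Function.Injective φ := (injective_iff_map_eq_one φ).2 fun d e => by
    by_contra d1
    obtain ⟨c, hc, c1, c2⟩ := zas_third h bk cb a b
    rcases s2 d d1 ⟨c, hc⟩ (by rw [e]; exact one_smul _ _) with f | f
    · exact c1 (congrArg Subtype.val f)
    · exact c2 (congrArg Subtype.val f)
  have s4 : Nat.card (stab2 X a' b') = Nat.card D := (Nat.card_eq_of_bijective φ ⟨s3, s1⟩).symm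
  have cyc : IsCyclic (stab2 X a' b') := by
    have := t.cyc
    exact isCyclic_of_surjective φ s1
  have cy : Cy X (Bl P a b) a' b' := ⟨zas_T2 h bk cb surj sm, fa, fun e => cb.ne (congrArg Subtype.val e), cyc⟩
  have f := zas_fpf h bk cb t sm
  obtain ⟨x, hx, x1⟩ := (Subgroup.bot_or_exists_ne_one D).resolve_left t.ne
  have x2 : (⟨x, hx⟩ : D) ≠ 1 := fun e => x1 (congrArg Subtype.val e)
  have nr : ¬ RegN X (Bl P a b) := cy.not_regN (φ ⟨x, hx⟩).2
    (by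
      rw [Subgroup.orderOf_coe]
      exact (s4 ▸ t.odd : Odd (Nat.card (stab2 X a' b'))).of_dvd_nat (orderOf_dvd_natCard _))
    (fun e => x2 (s3 ((Subtype.ext e).trans φ.map_one.symm))) f.ua f.ub
    (by
      show π _ * π ⟨x, zas_D h bk cb t hx⟩ * (π _)⁻¹ = (π ⟨x, zas_D h bk cb t hx⟩)⁻¹
      rw [← map_mul, ← map_inv, ← map_mul, ← map_inv]
      exact congrArg π (Subtype.ext ((t.mem x).1 hx).2.2.2))
    (s2 _ x2)
  have z := (cy.zass_of fun d hd d1 c e => by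
    obtain ⟨y, hy⟩ := s1 ⟨d, hd⟩
    refine s2 y (fun e => d1 ?_) c (by rw [hy]; exact e)
    rw [e, map_one] at hy
    exact (congrArg Subtype.val hy).symm).resolve_left nr
  obtain ⟨-, ⟨r, n, hr, e1⟩, -, -, e2⟩ := zLem X (Bl P a b) a' b' _ z cyc f
  rw [Nat.card_coe_set_eq] at e1
  rw [Nat.card_coe_set_eq, s4] at e2
  refine ⟨?_, n, ?_⟩
  · rcases e2 with e2 | e2
    · exact e2.2.symm
    · have e3 := bk.evenB a b cb.ne
      have e4 := t.odd
      rw [← e2.1, Nat.even_add] at e3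
      exact absurd (e3.2 even_two) (Nat.not_even_iff_odd.2 e4)
  · have e3 := bk.modB a b cb.ne
    have e4 : p ∣ r ^ n := by
      rw [e1] at e3
      have := Nat.mod_add_div (r ^ n + 1) p
      exact ⟨(r ^ n + 1) / p, by omega⟩
    rw [(Nat.prime_dvd_prime_iff_eq h.prime hr).1 (h.prime.dvd_of_dvd_pow e4), e1]

end CL.Perm.Hks
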