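/-
Homogeneous permutation groups, part 7: the Livingstone-Wagner theorems.
-/
import Cfsg.Agent.Perm.Homog6

set_option autoImplicit false

namespace CL.Perm

open MulAction
open scoped Pointwise

variable {G α : Type*} [Group G] [MulAction G α]

/-- The numerical data attached to an `r`-transitive, not `(r+1)`-transitive action that is `(r+1)`- and
`(r+2)`-homogeneous. -/
structure LWData (G α : Type*) [Group G] [MulAction G α] [DecidableEq α] (r h K ν : ℕ) : Prop where
  semi : ∀ g : G, ∀ s : Finset α, s.card = r + 1 → (∀ x ∈ s, g • x = x) → g = 1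
  stab : ∀ s : Finset α, s.card = r + 1 → Nat.card (stabilizer G s) = h
  ind : ∀ e : Fin (r + 1) → α, Function.Injective e → Nat.card (indGrp G e) = h
  fix : ∀ s : Finset α, s.card = r → Nat.card (fixingSubgroup G (s : Set α)) = ν
  card : h * (Nat.card α).choose (r + 1) = Nat.card G
  dvd : h ∣ (r + 1).factorial
  ne : h ≠ (r + 1).factorial
  eqK : (r + 2) * h = K * (Nat.card α - (r + 1))
  eqν : (r + 1).factorial * ν = h * (Nat.card α - r)
  prime : ∀ p : ℕ, p.Prime → p ≤ r + 1 → p ∣ ν → p ∣ h

theorem exists_lwData [Finite G] [Finite α] [DecidableEq α] [FaithfulSMul G α] {r : ℕ}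
    (hn : r + 2 ≤ Nat.card α) (ht : IsMultiplyPretransitive G α r)
    (hnt : ¬ IsMultiplyPretransitive G α (r + 1)) (h1 : Homog G α (r + 1)) (h2 : Homog G α (r + 2)) :
    ∃ h K ν : ℕ, LWData G α r h K ν := by
  have := Fintype.ofFinite α
  have hex : ∀ j, j ≤ Nat.card α → ∃ s : Finset α, s.card = j := fun j hj => by
    obtain ⟨s, -, hs⟩ := Finset.exists_subset_card_eq (s := (Finset.univ : Finset α)) (n := j)
      (by rwa [Finset.card_univ, ← Nat.card_eq_fintype_card])
    exact ⟨s, hs⟩
  obtain ⟨s₀, hs₀⟩ := hex r (by omega)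
  obtain ⟨s₁, hs₁⟩ := hex (r + 1) (by omega)
  obtain ⟨s₂, hs₂⟩ := hex (r + 2) hn
  have h0 := homog_of_isMultiplyPretransitive ht
  have semi : ∀ g : G, ∀ s : Finset α, s.card = r + 1 → (∀ x ∈ s, g • x = x) → g = 1 := by
    intro g s hs hg
    by_contra hg1
    refine hnt (isMultiplyPretransitive_of_card_fixing (by omega) (by omega)
      (Nat.card (fixingSubgroup G (s : Set α))) (Nat.card (fixingSubgroup G (s₂ : Set α))) ?_
      (fun t ht => h1.card_fixingSubgroup_eq ht hs) (fun t ht => h2.card_fixingSubgroup_eq ht hs₂))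
    rw [Finite.one_lt_card_iff_nontrivial]
    exact ⟨⟨⟨g, (mem_fixingSubgroup_iff G).2 hg⟩, 1, fun e => hg1 (congrArg Subtype.val e)⟩⟩
  have c1 := h1.card_stabilizer_mul hs₁
  have c2 := h2.card_stabilizer_mul hs₂
  have p0 : 0 < (Nat.card α).choose r := Nat.choose_pos (by omega)
  have p1 : 0 < (Nat.card α).choose (r + 1) := Nat.choose_pos (by omega)
  have stab : ∀ s : Finset α, s.card = r + 1 →
      Nat.card (stabilizer G s) = Nat.card (stabilizer G s₁) := fun s hs =>
    Nat.eq_of_mul_eq_mul_right p1 ((h1.card_stabilizer_mul hs).trans c1.symm)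
  have ind : ∀ e : Fin (r + 1) → α, Function.Injective e →
      Nat.card (indGrp G e) = Nat.card (stabilizer G s₁) := by
    intro e he
    have hc : (Finset.univ.image e).card = r + 1 := by
      rw [Finset.card_image_of_injective _ he]; simp
    rw [card_indGrp_eq he, stab _ hc]
    intro g hg
    refine semi g _ hc fun x hx => ?_
    obtain ⟨i, -, rfl⟩ := Finset.mem_image.1 hx
    exact hg i
  obtain ⟨e, he, -⟩ := exists_tuple_of_card s₁ hs₁
  have hperm : Nat.card (Equiv.Perm (Fin (r + 1))) = (r + 1).factorial := by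
    rw [Nat.card_perm]; simp
  have c0 := (fixingSubgroup G (s₀ : Set α)).card_mul_index
  rw [IsMultiplyPretransitive.index_of_fixingSubgroup_eq _ (by rwa [Set.ncard_coe_finset, hs₀]),
    Set.ncard_coe_finset, hs₀] at c0
  refine ⟨Nat.card (stabilizer G s₁), Nat.card (stabilizer G s₂),
    Nat.card (fixingSubgroup G (s₀ : Set α)), semi, stab, ind,
    fun s hs => h0.card_fixingSubgroup_eq hs hs₀, c1, ?_, ?_, ?_, ?_, ?_⟩
  · rw [← ind e he, ← hperm]; exact Subgroup.card_subgroup_dvd_card _
  · intro h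
    rw [← ind e he, ← hperm] at h
    exact hnt (h1.isMultiplyPretransitive_of_indGrp_eq_top he (Subgroup.eq_top_of_card_eq _ h))
  · refine Nat.eq_of_mul_eq_mul_right p1 ?_
    have := Nat.choose_succ_right_eq (Nat.card α) (r + 1)
    rw [mul_assoc, c1, ← c2, mul_assoc, mul_comm (Nat.card α - (r + 1)), ← this]
    ring
  · refine Nat.eq_of_mul_eq_mul_right p0 ?_
    have := Nat.choose_succ_right_eq (Nat.card α) r
    rw [mul_assoc (Nat.card (stabilizer G s₁)), mul_comm (Nat.card α - r), ← this, ← mul_assoc, c1,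
      ← c0, Nat.factorial_succ]
    ring
  · intro p hp hpr hd
    obtain ⟨t, ht, h⟩ := exists_dvd_card_stabilizer hp hd hpr (by have := hp.pos; omega)
    rwa [stab t ht] at h

theorem lw_case_one [Finite G] [Finite α] [DecidableEq α] [FaithfulSMul G α]
    (hn : 4 ≤ Nat.card α) (ht : IsMultiplyPretransitive G α 1)
    (hnt : ¬ IsMultiplyPretransitive G α 2) (h1 : Homog G α 2) (h2 : Homog G α 3) : False := by
  obtain ⟨h, K, ν, D⟩ := exists_lwData (r := 1) (by omega) ht hnt h1 h2
  have e1 := D.dvd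
  have e2 := D.ne
  have e3 := D.eqK
  have e4 := D.card
  norm_num [Nat.factorial] at e1 e2 e3 e4
  have : h = 1 := ((Nat.dvd_prime Nat.prime_two).1 e1).resolve_right e2
  subst this
  have e5 : Nat.card α - 2 ≤ 3 := Nat.le_of_dvd (by norm_num) ⟨K, by rw [mul_comm]; exact e3⟩
  have e6 : Nat.card α = 5 := by
    have : Nat.card α = 4 ∨ Nat.card α = 5 := by omega
    rcases this with h | h
    · rw [h] at e3; omega
    · exact h
  rw [e6] at e4
  exact hnt (h1.two_trans_of_even (by rw [← e4]; decide))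

theorem lw_case_two [Finite G] [Finite α] [DecidableEq α] [FaithfulSMul G α]
    (hn : 5 ≤ Nat.card α) (ht : IsMultiplyPretransitive G α 2)
    (hnt : ¬ IsMultiplyPretransitive G α 3) (h1 : Homog G α 3) (h2 : Homog G α 4) :
    Nat.card α = 5 ∧ Nat.card G = 20 := by
  obtain ⟨h, K, ν, D⟩ := exists_lwData (r := 2) (by omega) ht hnt h1 h2
  have e1 := D.dvd
  have e2 := D.ne
  have e3 := D.eqK
  have e4 := D.card
  have e5 := D.eqν
  have e6 := D.prime 2 Nat.prime_two (by norm_num)
  have e7 := D.prime 3 Nat.prime_three (by norm_num)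
  norm_num [Nat.factorial] at e1 e2 e3 e4 e5
  have h6 := Nat.le_of_dvd (by norm_num) e1
  have hpos := Nat.pos_of_dvd_of_pos e1 (by norm_num)
  have e8 : Nat.card α - 3 ≤ 4 * h := Nat.le_of_dvd (by omega) ⟨K, by rw [mul_comm K] at e3; exact e3⟩
  generalize Nat.card α = n at *
  have e9 : n ≤ 27 := by omega
  interval_cases h <;> interval_cases n <;> first | omega | (refine ⟨rfl, ?_⟩; rw [← e4]; rfl)

theorem lw_case_three [Finite G] [Finite α] [DecidableEq α] [FaithfulSMul G α]
    (hn : 6 ≤ Nat.card α) (ht : IsMultiplyPretransitive G α 3)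
    (hnt : ¬ IsMultiplyPretransitive G α 4) (h1 : Homog G α 4) (h2 : Homog G α 5) :
    (Nat.card α = 6 ∧ Nat.card G = 120) ∨
      (Nat.card α = 9 ∧ (Nat.card G = 504 ∨ Nat.card G = 1512)) := by
  obtain ⟨h, K, ν, D⟩ := exists_lwData (r := 3) (by omega) ht hnt h1 h2
  have e1 := D.dvd
  have e2 := D.ne
  have e3 := D.eqK
  have e4 := D.card
  have e5 := D.eqν
  have e7 := D.prime 3 Nat.prime_three (by norm_num)
  norm_num [Nat.factorial] at e1 e2 e3 e4 e5
  have h6 := Nat.le_of_dvd (by norm_num) e1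
  have hpos := Nat.pos_of_dvd_of_pos e1 (by norm_num)
  have e8 : Nat.card α - 4 ≤ 5 * h := Nat.le_of_dvd (by omega) ⟨K, by rw [mul_comm K] at e3; exact e3⟩
  by_cases hn6 : Nat.card α = 6
  · left
    rw [hn6] at e4 e5
    have : h = 8 := by interval_cases h <;> omega
    subst this
    exact ⟨hn6, by rw [← e4]; rfl⟩
  right
  have := Fintype.ofFinite α
  have hH2 : Homog G α 2 := homog_of_isMultiplyPretransitive
    (isMultiplyPretransitive_of_le (n := 3) (by norm_num) (by omega))
  have hH3 : Homog G α 3 := homog_of_isMultiplyPretransitive ht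
  obtain ⟨s₂, -, hs₂⟩ := Finset.exists_subset_card_eq (s := (Finset.univ : Finset α)) (n := 2)
    (by rw [Finset.card_univ, ← Nat.card_eq_fintype_card]; omega)
  obtain ⟨s₃, hs₃', -, hs₃⟩ := Finset.exists_subsuperset_card_eq (Finset.subset_univ s₂) (n := 3)
    (by omega) (by rw [Finset.card_univ, ← Nat.card_eq_fintype_card]; omega)
  have heven : Even (Nat.card G) := by
    have c0 := (fixingSubgroup G (s₃ : Set α)).index_dvd_card
    rw [IsMultiplyPretransitive.index_of_fixingSubgroup_eq _ (by rwa [Set.ncard_coe_finset, hs₃]),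
      Set.ncard_coe_finset, hs₃] at c0
    exact even_iff_two_dvd.2 ((Dvd.dvd.mul_left (by decide) _).trans c0)
  obtain ⟨e, he, hv⟩ := exists_double_swap_mem_indGrp heven (by omega) D.semi
  have f1 : h ≠ 6 := D.ind e he ▸ card_ne_six_of_double_swap_mem hv
  have f2 : 2 ∣ h := by
    rw [← D.ind e he]
    have := Subgroup.orderOf_dvd_natCard _ hv
    rwa [CL.Inv.orderOf_two_of_mul_self (by decide) (by decide)] at this
  have f3 : h = 12 → ¬ 2 ∣ ν := by
    intro h12 hν
    have hodd : ¬ OddFix G (s₂ : Set α) := by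
      intro ho
      have := (ho.mono (Finset.coe_subset.2 hs₃')).odd_card
      rw [D.fix s₃ hs₃] at this
      exact this.not_two_dvd_nat hν
    obtain ⟨e', he', i, j, hij, hsw⟩ := exists_swap_mem_indGrp (m := 2) ⟨s₂, hs₂, hodd⟩
    have hi := (indGrp G e').card_mul_index
    rw [D.ind e' he', h12, Nat.card_perm] at hi
    norm_num [Nat.factorial] at hi
    rw [Equiv.Perm.eq_alternatingGroup_of_index_eq_two (G := indGrp G e') (by omega),
      Equiv.Perm.mem_alternatingGroup, Equiv.Perm.sign_swap hij] at hsw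
    exact absurd hsw (by decide)
  have c2 := hH2.card_stabilizer_mul hs₂
  have c3 : ∀ t : Finset α, t.card = 3 →
      Nat.card (stabilizer G t) * (Nat.card α).choose 3 = Nat.card G :=
    fun t ht => hH3.card_stabilizer_mul ht
  have f4 : ¬ (h = 8 ∧ Nat.card α = 9) := by
    rintro ⟨rfl, h9⟩
    rw [h9] at e4 c2 c3
    simp only [show Nat.choose 9 4 = 126 by rfl, show Nat.choose 9 2 = 36 by rfl,
      show Nat.choose 9 3 = 84 by rfl, show Nat.choose 24 4 = 10626 by rfl,
      show Nat.choose 24 2 = 276 by rfl, show Nat.choose 24 3 = 2024 by rfl] at e4 c2 c3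
    obtain ⟨s, y, hs, hy, hc⟩ := exists_commute_of_card (L := stabilizer G s₂) (p := 7) (q := 2)
      (m := 4) (by norm_num) (by norm_num) (by omega) (by norm_num)
      (fun d hd hm => by
        have := Nat.le_of_dvd (by norm_num) hd
        interval_cases d <;> simp_all [Nat.ModEq])
      (fun i h1 h2 => by
        have := Nat.le_of_dvd (by norm_num) h2
        interval_cases i <;> simp_all)
    refine false_of_commute_in_pair (by norm_num) (by norm_num) (by norm_num) D.semi
      (fun t ht => ?_) (by rw [h9]; norm_num) hs₂ hs hy hc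
    have := c3 t ht
    omega
  have f5 : ¬ (h = 8 ∧ Nat.card α = 24) := by
    rintro ⟨rfl, h9⟩
    rw [h9] at e4 c2 c3
    simp only [show Nat.choose 9 4 = 126 by rfl, show Nat.choose 9 2 = 36 by rfl,
      show Nat.choose 9 3 = 84 by rfl, show Nat.choose 24 4 = 10626 by rfl,
      show Nat.choose 24 2 = 276 by rfl, show Nat.choose 24 3 = 2024 by rfl] at e4 c2 c3
    obtain ⟨s, y, hs, hy, hc⟩ := exists_commute_of_card (L := stabilizer G s₂) (p := 11) (q := 7)
      (m := 28) (by norm_num) (by norm_num) (by omega) (by norm_num)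
      (fun d hd hm => by
        have := Nat.le_of_dvd (by norm_num) hd
        interval_cases d <;> simp_all [Nat.ModEq])
      (fun i h1 h2 => by
        have := Nat.le_of_dvd (by norm_num) h2
        interval_cases i <;> simp_all)
    refine false_of_commute_in_pair (by norm_num) (by norm_num) (by norm_num) D.semi
      (fun t ht => ?_) (by rw [h9]; norm_num) hs₂ hs hy hc
    have := c3 t ht
    omega
  clear c2 c3 hv he e heven hs₃ hs₃' hs₂ hH2 hH3 D h1 h2 ht hnt
  generalize Nat.card α = n at *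
  have hh : h = 2 ∨ h = 4 ∨ h = 8 ∨ h = 12 := by interval_cases h <;> omega
  have e9 : n ≤ 64 := by omega
  rcases hh with rfl | rfl | rfl | rfl <;> interval_cases n <;>
    first | omega | exact ⟨rfl, Or.inl (by rw [← e4]; rfl)⟩ | exact ⟨rfl, Or.inr (by rw [← e4]; rfl)⟩

/-- Livingstone-Wagner, the basic step. -/
theorem lw_step [Finite G] [Finite α] [DecidableEq α] [FaithfulSMul G α] {r : ℕ} (hr : 1 ≤ r)
    (hn : r + 3 ≤ Nat.card α) (ht : IsMultiplyPretransitive G α r)
    (hnt : ¬ IsMultiplyPretransitive G α (r + 1)) (h1 : Homog G α (r + 1)) (h2 : Homog G α (r + 2)) :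
    (Nat.card α = 5 ∧ r = 2 ∧ Nat.card G = 20) ∨ (Nat.card α = 6 ∧ r = 3 ∧ Nat.card G = 120) ∨
      (Nat.card α = 9 ∧ r = 3 ∧ (Nat.card G = 504 ∨ Nat.card G = 1512)) := by
  by_cases h4 : 4 ≤ r
  · exact absurd (h1.isMultiplyPretransitive_succ h4 hn ht) hnt
  have : r = 1 ∨ r = 2 ∨ r = 3 := by omega
  rcases this with rfl | rfl | rfl
  · exact (lw_case_one hn ht hnt h1 h2).elim
  · have := lw_case_two hn ht hnt h1 h2
    tauto
  · have := lw_case_three hn ht hnt h1 h2
    tauto

/-- Livingstone-Wagner, first form. -/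
theorem Homog.isMultiplyPretransitive_pred [Finite G] [Fintype α] [DecidableEq α] [FaithfulSMul G α]
    {m : ℕ} (hH : Homog G α (m + 1)) (hn : 2 * (m + 1) ≤ Fintype.card α) :
    IsMultiplyPretransitive G α m := by
  induction m with
  | zero => exact is_zero_pretransitive'
  | succ m ih =>
    have h1 : Homog G α (m + 1) := hH.pred_of_two_mul_le (by omega)
    have h2 := ih h1 (by omega)
    rcases Nat.eq_zero_or_pos m with rfl | hm
    · exact is_one_pretransitive_iff.2 h1.isPretransitive
    by_contra hnt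
    have := lw_step hm (by rw [Nat.card_eq_fintype_card]; omega) h2 hnt h1 hH
    rw [Nat.card_eq_fintype_card] at this
    omega

/-- Livingstone-Wagner. -/
theorem Homog.isMultiplyPretransitive [Finite G] [Fintype α] [DecidableEq α] [FaithfulSMul G α]
    {k : ℕ} (hH : Homog G α k) (hk : 5 ≤ k) (hn : 2 * k ≤ Fintype.card α) :
    IsMultiplyPretransitive G α k := by
  obtain ⟨m, rfl⟩ : ∃ m, k = m + 1 := ⟨k - 1, by omega⟩
  exact hH.isMultiplyPretransitive_succ (by omega) (by rw [Nat.card_eq_fintype_card]; omega)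
    (hH.isMultiplyPretransitive_pred hn)

end CL.Perm
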