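/-
Near-fields: elementary arithmetic, the affine group of a near-field, and the near-field attached to a finite
sharply 2-transitive action.
-/
import Cfsg.Agent.Perm.Sharp2

set_option autoImplicit false

namespace CL.Perm

open MulAction Cfsg

section Basic

variable {F : Type*} [NearField F]

theorem nf_zero_mul (c : F) : (0 : F) * c = 0 := by
  have h := NearField.right_distrib (0 : F) 0 c
  rw [add_zero] at h
  exact (add_eq_left.mp h.symm)

theorem nf_neg_mul (a c : F) : (-a) * c = -(a * c) := by
  have h := NearField.right_distrib (-a) a c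
  rw [neg_add_cancel, nf_zero_mul] at h
  exact eq_neg_of_add_eq_zero_left h.symm

theorem nf_sub_mul (a b c : F) : (a - b) * c = a * c - b * c := by
  rw [sub_eq_add_neg, NearField.right_distrib, nf_neg_mul, ← sub_eq_add_neg]

theorem nf_mul_ne_zero {a b : F} (ha : a ≠ 0) (hb : b ≠ 0) : a * b ≠ 0 := by
  intro h
  obtain ⟨c, hc, -⟩ := NearField.exists_inv b hb
  apply ha
  rw [← mul_one a, ← hc, ← mul_assoc, h, nf_zero_mul]

theorem nf_inv_ne_zero {a b : F} (h : a * b = 1) : b ≠ 0 := by
  rintro rfl
  rw [NearField.mul_zero] at h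
  exact NearField.zero_ne_one h

/-- The affine map `x ↦ x * a + b` as a permutation. -/
theorem nf_exists_perm {a : F} (ha : a ≠ 0) (b : F) :
    ∃ σ : Equiv.Perm F, ∀ x, σ x = x * a + b := by
  obtain ⟨c, hc, hc'⟩ := NearField.exists_inv a ha
  refine ⟨⟨fun x => x * a + b, fun y => (y - b) * c, fun x => ?_, fun y => ?_⟩, fun _ => rfl⟩
  · simp only [add_sub_cancel_right, mul_assoc, hc, mul_one]
  · simp only [mul_assoc, hc', mul_one, sub_add_cancel]

variable (F) in
/-- The affine group of a near-field. -/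
def nfAffine : Subgroup (Equiv.Perm F) where
  carrier := {σ | ∃ a b : F, a ≠ 0 ∧ ∀ x : F, σ x = x * a + b}
  one_mem' := ⟨1, 0, NearField.zero_ne_one.symm, fun x => by simp⟩
  mul_mem' := by
    rintro σ τ ⟨a, b, ha, hσ⟩ ⟨c, d, hc, hτ⟩
    refine ⟨c * a, d * a + b, nf_mul_ne_zero hc ha, fun x => ?_⟩
    rw [Equiv.Perm.mul_apply, hτ, hσ, NearField.right_distrib, mul_assoc, add_assoc]
  inv_mem' := by
    rintro σ ⟨a, b, ha, hσ⟩
    obtain ⟨c, hc, hc'⟩ := NearField.exists_inv a ha
    refine ⟨c, (-b) * c, nf_inv_ne_zero hc, fun x => ?_⟩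
    rw [Equiv.Perm.inv_eq_iff_eq, hσ, ← NearField.right_distrib, mul_assoc, hc', mul_one,
      neg_add_cancel_right]

theorem mem_nfAffine {σ : Equiv.Perm F} :
    σ ∈ nfAffine F ↔ ∃ a b : F, a ≠ 0 ∧ ∀ x : F, σ x = x * a + b := Iff.rfl

theorem nfAffine_isSharp2 : IsSharp2 (nfAffine F) F := by
  constructor
  · intro x y u v hxy huv
    obtain ⟨c, hc, hc'⟩ := NearField.exists_inv (x - y) (sub_ne_zero.mpr hxy)
    have ha : c * (u - v) ≠ 0 := nf_mul_ne_zero (nf_inv_ne_zero hc) (sub_ne_zero.mpr huv)
    obtain ⟨σ, hσ⟩ := nf_exists_perm ha (-(x * (c * (u - v))) + u)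
    refine ⟨⟨σ, _, _, ha, hσ⟩, ?_, ?_⟩
    · change σ x = u
      rw [hσ, add_neg_cancel_left]
    · change σ y = v
      have h1 : x * (c * (u - v)) - y * (c * (u - v)) = u - v := by
        rw [← nf_sub_mul, ← mul_assoc, hc, one_mul]
      rw [hσ, ← add_assoc, ← sub_eq_add_neg, ← neg_sub, h1, neg_sub, sub_add_cancel]
  · rintro ⟨σ, a, b, ha, hσ⟩ x y hxy hx hy
    change σ x = x at hx
    change σ y = y at hy
    rw [hσ] at hx hy
    obtain ⟨c, hc, hc'⟩ := NearField.exists_inv (x - y) (sub_ne_zero.mpr hxy)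
    have h1 : (x - y) * a = x - y := by
      rw [nf_sub_mul]
      conv_rhs => rw [← hx, ← hy]
      rw [add_sub_add_right_eq_sub]
    have h2 : a = 1 := by
      rw [← one_mul a, ← hc', mul_assoc, h1]
    subst h2
    rw [mul_one] at hx
    have h3 : b = 0 := add_eq_left.mp hx
    subst h3
    ext z
    simp [hσ]

theorem nf_nontrivial : Nontrivial F := ⟨⟨0, 1, NearField.zero_ne_one⟩⟩

end Basic

section Construct

variable {G α : Type*} [Group G] [MulAction G α] [Finite α] [Nontrivial α]

/-- A finite sharply 2-transitive action is the action of the affine group of a near-field whose `0` and `1`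
are two given points. The translations form the kernel, the right multiplications the stabiliser of `0`. -/
theorem IsSharp2.exists_nearField (h : IsSharp2 G α) {e0 e1 : α} (he : e0 ≠ e1) :
    ∃ _ : NearField α, (0 : α) = e0 ∧ (1 : α) = e1 ∧
      (∀ b : α, ∃ t ∈ h.kernel, ∀ x : α, t • x = x + b) ∧
      (∀ t ∈ h.kernel, ∀ x : α, t • x = x + t • e0) ∧
      (∀ a : α, a ≠ 0 → ∃ m : G, ∀ x : α, m • x = x * a) ∧
      (∀ m : G, m • e0 = e0 → ∀ x : α, m • x = x * m • e1) := by
  classical
  let e : h.kernel ≃ α := Equiv.ofBijective _ (h.kernel_bijective e0)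
  have he_apply : ∀ t : h.kernel, e t = (t : G) • e0 := fun _ => rfl
  have he_symm : ∀ a : α, ((e.symm a : h.kernel) : G) • e0 = a := fun a => e.apply_symm_apply a
  have hm : ∀ a : α, a ≠ e0 → ∃ m : G, m • e0 = e0 ∧ m • e1 = a := fun a ha => h.trans he ha.symm
  choose m hm0 hm1 using hm
  have hmu : ∀ (g : G) (hg : g • e0 = e0) (h' : g • e1 ≠ e0), m (g • e1) h' = g := by
    intro g hg h'
    exact h.eq_of_smul_eq he ((hm0 _ _).trans hg.symm) (hm1 _ _)
  have hne : ∀ (g : G) (x : α), g • e0 = e0 → x ≠ e0 → g • x ≠ e0 := by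
    intro g x hg hx hc
    exact hx (smul_left_cancel g (hc.trans hg.symm))
  let mul : α → α → α := fun x a => if ha : a = e0 then e0 else m a ha • x
  have mul_pos : ∀ x a (ha : a ≠ e0), mul x a = m a ha • x := fun x a ha => dif_neg ha
  have mul_zero' : ∀ x, mul x e0 = e0 := fun x => dif_pos rfl
  have zero_mul' : ∀ a, mul e0 a = e0 := by
    intro a
    by_cases ha : a = e0
    · rw [ha, mul_zero']
    · rw [mul_pos _ _ ha, hm0]
  have hmm : ∀ a b (ha : a ≠ e0) (hb : b ≠ e0) (hab : m b hb • a ≠ e0),
      m (m b hb • a) hab = m b hb * m a ha := by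
    intro a b ha hb hab
    refine h.eq_of_smul_eq he ?_ ?_
    · rw [hm0, mul_smul, hm0, hm0]
    · rw [hm1, mul_smul, hm1]
  let AG : AddGroup α := (e.symm.trans Additive.ofMul).addGroup
  have add_def : ∀ a b : α, a + b = ((e.symm b : h.kernel) : G) • a := by
    intro a b
    change e (e.symm a * e.symm b) = _
    rw [he_apply, Subgroup.coe_mul, h.kernel_comm (e.symm a).2 (e.symm b).2, mul_smul, he_symm]
  have zero_def : (0 : α) = e0 := by
    change e 1 = e0
    rw [he_apply, Subgroup.coe_one, one_smul]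
  let M : Monoid α :=
    { mul := mul
      one := e1
      mul_assoc := by
        intro x a b
        change mul (mul x a) b = mul x (mul a b)
        by_cases hb : b = e0
        · rw [hb, mul_zero', mul_zero', mul_zero']
        by_cases ha : a = e0
        · rw [ha, mul_zero', zero_mul', mul_zero']
        have hab := hne _ a (hm0 b hb) ha
        rw [mul_pos _ _ hb, mul_pos _ _ ha, mul_pos _ _ hb, mul_pos _ _ hab, hmm a b ha hb, mul_smul]
      one_mul := by
        intro a
        change mul e1 a = a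
        by_cases ha : a = e0
        · rw [ha, mul_zero']
        · rw [mul_pos _ _ ha, hm1]
      mul_one := by
        intro a
        change mul a e1 = a
        rw [mul_pos _ _ he.symm, h.sharp he (hm0 e1 he.symm) (hm1 e1 he.symm), one_smul] }
  have hker : ∀ t ∈ h.kernel, ∀ x : α, t • x = x + t • e0 := by
    intro t ht x
    rw [add_def, ← he_apply ⟨t, ht⟩, e.symm_apply_apply]
  let N : NearField α :=
    { AG, M with
      right_distrib := by
        intro a b c
        change mul (a + b) c = mul a c + mul b c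
        by_cases hc : c = e0
        · rw [hc, mul_zero', mul_zero', mul_zero', ← zero_def, add_zero]
        · rw [mul_pos _ _ hc, mul_pos _ _ hc, mul_pos _ _ hc, add_def a b]
          have h1 := hker _ (h.kernel_normal.conj_mem _ (e.symm b).2 (m c hc)) (m c hc • a)
          rw [mul_smul, mul_smul, inv_smul_smul] at h1
          rw [h1, mul_smul, mul_smul, (inv_smul_eq_iff.mpr (hm0 c hc).symm : (m c hc)⁻¹ • e0 = e0),
            he_symm]
      mul_zero := by
        intro a
        change mul a 0 = 0
        rw [zero_def, mul_zero']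
      zero_ne_one := by
        change (0 : α) ≠ e1
        rw [zero_def]; exact he
      exists_inv := by
        intro a ha
        rw [zero_def] at ha
        have h0 : (m a ha)⁻¹ • e0 = e0 := inv_smul_eq_iff.mpr (hm0 a ha).symm
        have h1 := hne _ e1 h0 he.symm
        refine ⟨(m a ha)⁻¹ • e1, ?_, ?_⟩
        · change mul a _ = e1
          rw [mul_pos _ _ h1, hmu _ h0, inv_smul_eq_iff, hm1]
        · change mul _ a = e1
          rw [mul_pos _ _ ha, smul_inv_smul] }
  refine ⟨N, zero_def, rfl, fun b => ⟨_, (e.symm b).2, fun x => (add_def x b).symm⟩, hker, ?_, ?_⟩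
  · intro a ha
    have ha' : a ≠ e0 := zero_def ▸ ha
    exact ⟨m a ha', fun x => (mul_pos x a ha').symm⟩
  · intro g hg x
    have h1 := hne g e1 hg he.symm
    change _ = mul x _
    rw [mul_pos _ _ h1, hmu g hg]

end Construct

end CL.Perm
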