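/-
Groups with a given set of sizes of same-order classes: a certified search through Frobenius' congruences.
-/
import Cfsg.Agent.S3995

set_option autoImplicit false

namespace CL.Nse

open Cfsg.Agent.S3995

/-- the sum of the recorded values at the divisors of `m` -/
def sumD (acc : List (ℕ × ℕ)) (m : ℕ) : ℕ := (acc.map fun p => if p.1 ∣ m then p.2 else 0).sum

/-- the values that are compatible with Euler's function -/
def opts (V : List ℕ) (m : ℕ) : List ℕ :=
  0 :: V.filter fun v => (List.range 41).all fun k => decide (k ∣ m → k.totient ∣ v)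

/-- record a non-zero value -/
def put (m v : ℕ) (acc : List (ℕ × ℕ)) : List (ℕ × ℕ) := if v = 0 then acc else (m, v) :: acc

/-- the search -/
def go (V : List ℕ) (fin : List (ℕ × ℕ) → Bool) : List ℕ → List (ℕ × ℕ) → Bool
  | [], acc => fin acc
  | m :: ms, acc => (opts V m).all fun v => if m ∣ sumD (put m v acc) m then go V fin ms (put m v acc) else true

/-- the non-zero values of `s` on a list -/
def vals (s : ℕ → ℕ) : List ℕ → List (ℕ × ℕ)
  | [] => []
  | m :: P => put m (s m) (vals s P)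

/-- the sum of `s` over the divisors of `m` in a list -/
def tot (s : ℕ → ℕ) (P : List ℕ) (m : ℕ) : ℕ := ((P.filter (· ∣ m)).map s).sum

variable {s : ℕ → ℕ}

theorem tot_cons (k : ℕ) (P : List ℕ) (m : ℕ) : tot s (k :: P) m = (if k ∣ m then s k else 0) + tot s P m := by
  by_cases h : k ∣ m <;> simp [tot, h]

theorem tot_append (P Q : List ℕ) (m : ℕ) : tot s (P ++ Q) m = tot s P m + tot s Q m := by simp [tot]

theorem sumD_vals : ∀ (P : List ℕ) (m : ℕ), sumD (vals s P) m = tot s P m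
  | [], _ => rfl
  | k :: P, m => by
    rw [tot_cons, ← sumD_vals P m, vals, put]
    split_ifs with h h' h' <;> simp [sumD, *]

theorem mem_vals : ∀ {P : List ℕ} {p : ℕ × ℕ}, p ∈ vals s P ↔ p.1 ∈ P ∧ s p.1 = p.2 ∧ p.2 ≠ 0
  | [], _ => by simp [vals]
  | k :: P, (a, b) => by
    rw [vals, put]
    split_ifs with h
    · rw [mem_vals, List.mem_cons]
      exact ⟨fun e => ⟨.inr e.1, e.2⟩, fun e => ⟨e.1.resolve_left fun q => e.2.2 (e.2.1 ▸ q ▸ h), e.2⟩⟩
    · rw [List.mem_cons, mem_vals, List.mem_cons, Prod.mk.injEq]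
      exact ⟨fun e => e.elim (fun q => ⟨.inl q.1, q.1 ▸ q.2.symm, q.2 ▸ h⟩) fun q => ⟨.inr q.1, q.2⟩,
        fun e => e.1.elim (fun q => .inl ⟨q, q ▸ e.2.1.symm⟩) fun q => .inr ⟨q, e.2⟩⟩

theorem go_spec {V : List ℕ} {fin : List (ℕ × ℕ) → Bool} : ∀ (ms P : List ℕ), ms.Pairwise (fun a b => ¬ b ∣ a) →
    (∀ m ∈ ms, s m ∈ opts V m ∧ m ∣ tot s (ms ++ P) m) → go V fin ms (vals s P) = true →
    fin (vals s (ms.reverse ++ P)) = true
  | [], _, _, _, h => h
  | m :: ms, P, hp, hm, h => by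
    rw [List.pairwise_cons] at hp
    have h1 := List.all_eq_true.1 h _ (hm m List.mem_cons_self).1
    have h2 : tot s ms m = 0 := by
      rw [tot, List.filter_eq_nil_iff.2 fun k hk => by simpa using hp.1 k hk]; rfl
    have h3 := (hm m List.mem_cons_self).2
    rw [List.cons_append, tot_cons, tot_append, h2, zero_add, ← tot_cons, ← sumD_vals] at h3
    rw [if_pos (show m ∣ sumD (put m (s m) (vals s P)) m from h3)] at h1
    rw [List.reverse_cons, List.append_assoc]
    refine go_spec ms (m :: P) hp.2 (fun k hk => ⟨(hm k (List.mem_cons_of_mem _ hk)).1, ?_⟩) h1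
    have := (hm k (List.mem_cons_of_mem _ hk)).2
    rwa [List.cons_append, tot_cons, tot_append, add_left_comm, ← tot_cons, ← tot_append] at this

/-- the divisors of a small number -/
def dl (n : ℕ) : List ℕ := (List.range (n + 1)).filter (· ∣ n)

/-- the divisors of a product -/
def dl4 (a b c e : ℕ) : List ℕ :=
  (dl a).flatMap fun x => (dl b).flatMap fun y => (dl c).flatMap fun z => (dl e).map fun w => x * y * z * w

theorem mem_dl4 {a b c e k : ℕ} (h0 : a * b * c * e ≠ 0) (h : k ∣ a * b * c * e) : k ∈ dl4 a b c e := by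
  have key : ∀ {n x : ℕ}, n ≠ 0 → x ∣ n → x ∈ dl n := fun hn hx => by
    simpa [dl, hx, Nat.lt_succ_iff] using Nat.le_of_dvd (Nat.pos_of_ne_zero hn) hx
  simp only [ne_eq, mul_eq_zero, not_or] at h0
  obtain ⟨_, w, h1, hw, rfl⟩ := exists_dvd_and_dvd_of_dvd_mul h
  obtain ⟨_, z, h2, hz, rfl⟩ := exists_dvd_and_dvd_of_dvd_mul h1
  obtain ⟨x, y, hx, hy, rfl⟩ := exists_dvd_and_dvd_of_dvd_mul h2
  simp only [dl4, List.mem_flatMap, List.mem_map]
  exact ⟨x, key h0.1.1.1 hx, y, key h0.1.1.2 hy, z, key h0.1.2 hz, w, key h0.2 hw, rfl⟩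

/-- the divisors of `d` above two -/
def dv (a b c e d : ℕ) : List ℕ := (dl4 a b c e).filter fun m => 2 < m ∧ m ∣ d

/-- the search over the divisors of `d` -/
def run (V : List ℕ) (i : ℕ) (fin : List (ℕ × ℕ) → Bool) (a b c e d : ℕ) : Bool :=
  decide ((dv a b c e d).Pairwise fun x y => ¬ y ∣ x) && go V fin (dv a b c e d) [(2, i), (1, 1)]

variable {G : Type*} [Group G] [Finite G]

/-- the hypothesis: the sizes are `1`, an odd `i` and the even numbers in `V` -/
structure Hyp (G : Type*) [Group G] (i : ℕ) (V : List ℕ) : Prop where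
  two : S G 2 = i
  ne : i ≠ 0
  mem : ∀ m, 2 < m → S G m = 0 ∨ S G m ∈ V
  att : ∀ v ∈ V, ∃ g : G, S G (orderOf g) = v ∧ v ≠ 0

theorem phi_dvd (m : ℕ) : m.totient ∣ S G m := ⟨_, CL.Fgs.ncard_orderOf_eq m⟩

theorem S_ne (g : G) : S G (orderOf g) ≠ 0 := Set.ncard_ne_zero_of_mem (a := g) rfl

theorem Hyp.of_eq {i : ℕ} {V : List ℕ} (hi : Odd i) (h1 : i ≠ 1)
    (h : (fun m : ℕ => Nat.card {g : G // orderOf g = m}) '' Set.range (orderOf : G → ℕ) =
      {v | v ∈ 1 :: i :: V}) : Hyp G i V := by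
  have ev : ∀ m, 2 < m → Even (S G m) := fun m hm =>
    even_iff_two_dvd.2 ((Nat.totient_even hm).two_dvd.trans (phi_dvd m))
  have ex : ∀ v ∈ 1 :: i :: V, ∃ g : G, S G (orderOf g) = v := fun v hv => by
    obtain ⟨_, ⟨g, rfl⟩, e⟩ := h.ge hv
    exact ⟨g, e⟩
  refine ⟨?_, by rintro rfl; simp at hi, fun m hm => (S_eq_zero_or m).imp_right ?_, fun v hv => ?_⟩
  · obtain ⟨g, hg⟩ := ex i (by simp)
    have h2 := orderOf_pos g
    obtain e | e | e : orderOf g = 1 ∨ orderOf g = 2 ∨ 2 < orderOf g := by omega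
    · exact absurd (by rw [← hg, e, S_one]) h1
    · exact e ▸ hg
    · exact absurd (hg ▸ ev _ e) (Nat.not_even_iff_odd.2 hi)
  · rintro ⟨g, rfl⟩
    have h3 : S G (orderOf g) ∈ 1 :: i :: V := h.le ⟨_, ⟨g, rfl⟩, rfl⟩
    have h4 := ev _ hm
    rcases List.mem_cons.1 h3 with e | h3
    · rw [e] at h4; simp at h4
    · exact (List.mem_cons.1 h3).resolve_left fun e => Nat.not_even_iff_odd.2 hi (e ▸ h4)
  · obtain ⟨g, hg⟩ := ex v (by simp [hv])
    exact ⟨g, hg, hg ▸ S_ne g⟩

theorem tot_dv {a b c e d m : ℕ} (h0 : a * b * c * e ≠ 0) (hd : d ∣ a * b * c * e)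
    (hp : (dv a b c e d).Pairwise fun x y => ¬ y ∣ x) (hm : m ∣ d) :
    tot s (dv a b c e d ++ [2, 1]) m = ∑ k ∈ m.divisors, s k := by
  have hm0 : m ≠ 0 := by rintro rfl; exact h0 (zero_dvd_iff.1 (hm.trans hd))
  have hn : (dv a b c e d ++ [2, 1]).Nodup := List.nodup_append.2 ⟨hp.imp fun {x y} h (e : x = y) => h (e ▸ dvd_rfl), by decide,
    fun x hx y hy => by
      have := (of_decide_eq_true (List.mem_filter.1 hx).2).1
      simp only [List.mem_cons, List.not_mem_nil, or_false] at hy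
      omega⟩
  rw [tot, ← List.sum_toFinset _ (hn.filter _)]
  refine Finset.sum_congr (Finset.ext fun k => ?_) fun _ _ => rfl
  simp only [List.mem_toFinset, List.mem_filter, List.mem_append, dv, decide_eq_true_eq, Nat.mem_divisors,
    List.mem_cons, List.not_mem_nil, or_false]
  refine ⟨fun h => ⟨h.2, hm0⟩, fun h => ⟨?_, h.1⟩⟩
  have := Nat.pos_of_dvd_of_pos h.1 (Nat.pos_of_ne_zero hm0)
  by_cases h2 : 2 < k
  · exact .inl ⟨mem_dl4 h0 ((h.1.trans hm).trans hd), h2, h.1.trans hm⟩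
  · exact .inr (by omega)

theorem Hyp.run_spec {i : ℕ} {V : List ℕ} (h : Hyp G i V) {fin : List (ℕ × ℕ) → Bool} {a b c e d : ℕ}
    (h0 : a * b * c * e ≠ 0) (hd : d ∣ a * b * c * e) (hG : d ∣ Nat.card G) (hr : run V i fin a b c e d = true) :
    fin (vals (S G) ((dv a b c e d).reverse ++ [2, 1])) = true := by
  obtain ⟨h1, h2⟩ := Bool.and_eq_true_iff.1 hr
  have hp := of_decide_eq_true h1
  refine go_spec _ _ hp (fun m hm => ?_) (by simpa [vals, put, S_one, h.two, h.ne] using h2)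
  obtain ⟨h3, h4⟩ := of_decide_eq_true (List.mem_filter.1 hm).2
  refine ⟨(h.mem m h3).elim (fun e => e ▸ List.mem_cons_self) fun e => List.mem_cons_of_mem _
    (List.mem_filter.2 ⟨e, List.all_eq_true.2 fun k _ => decide_eq_true fun hk =>
      (Nat.totient_dvd_of_dvd hk).trans (phi_dvd m)⟩), tot_dv h0 hd hp h4 ▸ frob (h4.trans hG)⟩

/-- the final test -/
def last (V : List ℕ) (n : ℕ) (L : List (ℕ × ℕ)) (d : ℕ) (acc : List (ℕ × ℕ)) : Bool :=
  decide (2 ∣ d → sumD acc d = d → (∀ v ∈ V, ∃ p ∈ acc, p.2 = v ∨ v = 0) → d = n ∧ acc = L)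

theorem Hyp.main {i : ℕ} {V : List ℕ} (h : Hyp G i V) {a b c e n : ℕ} {L : List (ℕ × ℕ)} (f : ℕ → ℕ)
    (h0 : a * b * c * e ≠ 0) (hV : ∀ v ∈ V, v < 150)
    (h1 : ∀ p ≤ 150, p.Prime → p ^ f p ∣ a * b * c * e ∧
      run V i (fun _ => false) (p ^ (f p + 1)) 1 1 1 (p ^ (f p + 1)) = true)
    (h2 : ∀ d ∈ dl4 a b c e, run V i (last V n L d) a b c e d = true) :
    Nat.card G = n ∧ (∀ g : G, (orderOf g, S G (orderOf g)) ∈ L) ∧ ∀ p ∈ L, ∃ g : G, orderOf g = p.1 := by
  have hd : Nat.card G ∣ a * b * c * e := (Nat.dvd_iff_prime_pow_dvd_dvd _ _).2 fun p k hp hk => by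
    rcases k.eq_zero_or_pos with rfl | k0
    · simp
    have hp150 : p ≤ 150 := by
      by_contra hlt
      have h3 := frob ((dvd_pow_self p k0.ne').trans hk)
      rw [hp.sum_divisors, S_one] at h3
      have h4 := Nat.le_of_dvd (by omega) h3
      rcases h.mem p (by omega) with e | e
      · omega
      · have := hV _ e
        omega
    by_cases hk' : k ≤ f p
    · exact (pow_dvd_pow p hk').trans (h1 p hp150 hp).1
    · exact absurd (h.run_spec (by simpa using fun e => absurd e hp.ne_zero) (by simp)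
        ((pow_dvd_pow p (by omega)).trans hk) (h1 p hp150 hp).2) (by simp)
  have h3 := h2 _ (mem_dl4 h0 hd)
  have hp := of_decide_eq_true (Bool.and_eq_true_iff.1 h3).1
  have hm : ∀ g : G, (orderOf g, S G (orderOf g)) ∈ vals (S G) ((dv a b c e (Nat.card G)).reverse ++ [2, 1]) :=
    fun g => mem_vals.2 ⟨by
      have h4 := orderOf_pos g
      by_cases h5 : 2 < orderOf g
      · exact List.mem_append_left _ (List.mem_reverse.2 (List.mem_filter.2 ⟨mem_dl4 h0
          ((orderOf_dvd_natCard g).trans hd), decide_eq_true ⟨h5, orderOf_dvd_natCard g⟩⟩))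
      · refine List.mem_append_right _ ?_
        simp only [List.mem_cons, List.not_mem_nil, or_false]
        omega, rfl, S_ne g⟩
  obtain ⟨e1, e2⟩ := of_decide_eq_true (h.run_spec h0 hd dvd_rfl h3) (by
    obtain ⟨g, hg⟩ := (S_eq_zero_or (G := G) 2).resolve_left (h.two ▸ h.ne)
    exact hg ▸ orderOf_dvd_natCard g) (by
    classical
    have := Fintype.ofFinite G
    have h6 : tot (S G) ((dv a b c e (Nat.card G)).reverse ++ [2, 1]) (Nat.card G) =
        tot (S G) (dv a b c e (Nat.card G) ++ [2, 1]) (Nat.card G) := by simp [tot]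
    have h3 : ∀ m, S G m = (Finset.univ.filter fun x : G => orderOf x = m).card := fun m => by
      rw [S, ← Set.ncard_coe_finset]; simp
    rw [sumD_vals, h6, tot_dv h0 hd hp dvd_rfl]
    simp only [h3]
    rw [sum_card_orderOf_eq_card_pow_eq_one Nat.card_pos.ne']
    simp) fun v hv => by
      obtain ⟨g, hg, -⟩ := h.att v hv
      exact ⟨_, hm g, .inl hg⟩
  refine ⟨e1, e2 ▸ hm, fun p hp => (S_eq_zero_or p.1).resolve_left fun e => ?_⟩
  have := mem_vals.1 (e2 ▸ hp)
  exact this.2.2 (this.2.1 ▸ e)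

theorem Hyp.four (h : Hyp G 3 [8]) : Nat.card G = 12 ∧ (∀ g : G, (orderOf g, S G (orderOf g)) ∈
    [(3, 8), (2, 3), (1, 1)]) ∧ ∀ p ∈ [(3, 8), (2, 3), (1, 1)], ∃ g : G, orderOf g = p.1 :=
  h.main (a := 4) (b := 9) (c := 1) (e := 1) (fun p => if p ≤ 3 then 2 else 0) (by decide) (by decide)
    (by decide +kernel) (by decide +kernel)

theorem Hyp.five (h : Hyp G 15 [20, 24]) : Nat.card G = 60 ∧ (∀ g : G, (orderOf g, S G (orderOf g)) ∈
    [(3, 20), (5, 24), (2, 15), (1, 1)]) ∧ ∀ p ∈ [(3, 20), (5, 24), (2, 15), (1, 1)], ∃ g : G, orderOf g = p.1 :=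
  h.main (a := 64) (b := 9) (c := 25) (e := 1) (fun p => if p = 2 then 6 else if p ≤ 5 then 2 else 0) (by decide)
    (by decide) (by decide +kernel) (by decide +kernel)

theorem Hyp.six (h : Hyp G 45 [80, 90, 144]) : Nat.card G = 360 ∧ (∀ g : G, (orderOf g, S G (orderOf g)) ∈
    [(4, 90), (3, 80), (5, 144), (2, 45), (1, 1)]) ∧
      ∀ p ∈ [(4, 90), (3, 80), (5, 144), (2, 45), (1, 1)], ∃ g : G, orderOf g = p.1 :=
  h.main (a := 8) (b := 81) (c := 25) (e := 7)
    (fun p => if p = 2 then 3 else if p = 3 then 4 else if p = 5 then 2 else if p = 7 then 1 else 0) (by decide)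
    (by decide) (by decide +kernel) (by decide +kernel)

theorem nse_eq {H : Type*} [Group H] [Fintype H] [DecidableEq H] {L : List ℕ} (hL : L.Nodup) (h0 : 0 ∉ L)
    (c : ℕ → ℕ) (h1 : ∀ d ∈ L, (∀ k ∈ d.divisors, k ∈ L) ∧ c d ≠ 0 ∧
      (Finset.univ.filter fun x : H => x ^ d = 1).card = ∑ k ∈ d.divisors, c k) (h2 : (L.map c).sum = Nat.card H) :
    (fun m : ℕ => Nat.card {g : H // orderOf g = m}) '' Set.range (orderOf : H → ℕ) = {v | v ∈ L.map c} := by
  have h3 : ∀ m, S H m = (Finset.univ.filter fun x : H => orderOf x = m).card := fun m => by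
    rw [S, ← Set.ncard_coe_finset]; simp
  have h4 : ∀ d, d ∈ L → S H d = c d := fun d => by
    induction d using Nat.strong_induction_on with
    | _ d ih =>
      intro hd
      have d0 : d ≠ 0 := fun e => h0 (e ▸ hd)
      have h5 := (h1 d hd).2.2
      rw [← sum_card_orderOf_eq_card_pow_eq_one d0, ← Nat.cons_self_properDivisors d0, Finset.sum_cons,
        Finset.sum_cons, Finset.sum_congr rfl fun k hk => (h3 k).symm.trans (ih k (Nat.mem_properDivisors.1 hk).2
          ((h1 d hd).1 k (Nat.properDivisors_subset_divisors hk)))] at h5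
      exact (h3 d).trans (Nat.add_right_cancel h5)
  have h5 : ∀ g : H, orderOf g ∈ L := by
    have h6 := Finset.card_eq_sum_card_fiberwise (f := (orderOf : H → ℕ))
      (s := Finset.univ.filter fun x : H => orderOf x ∈ L) (t := L.toFinset) fun x hx => by simpa using hx
    rw [Finset.sum_congr rfl (g := c) fun d hd => by
      rw [← h4 d (List.mem_toFinset.1 hd), h3, Finset.filter_filter]
      exact congrArg _ (Finset.filter_congr fun x _ => ⟨fun e => e.2, fun e => ⟨e ▸ List.mem_toFinset.1 hd, e⟩⟩),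
      List.sum_toFinset _ hL, h2, Nat.card_eq_fintype_card] at h6
    intro g
    have h7 := Finset.mem_univ g
    rw [← Finset.eq_univ_of_card _ h6] at h7
    exact (Finset.mem_filter.1 h7).2
  ext v
  simp only [Set.mem_image, Set.mem_range, exists_exists_eq_and, Set.mem_ofPred_eq, List.mem_map]
  refine ⟨fun ⟨g, e⟩ => ⟨_, h5 g, (h4 _ (h5 g)).symm.trans e⟩, fun ⟨d, hd, e⟩ => ?_⟩
  obtain ⟨g, rfl⟩ := (S_eq_zero_or (G := H) d).resolve_left (h4 d hd ▸ (h1 d hd).2.1)
  exact ⟨g, (h4 _ hd).trans e⟩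

theorem nse_four : (fun m : ℕ => Nat.card {g : alternatingGroup (Fin 4) // orderOf g = m}) ''
    Set.range (orderOf : alternatingGroup (Fin 4) → ℕ) = {v | v ∈ [1, 3, 8]} :=
  nse_eq (L := [1, 2, 3]) (by decide) (by decide) (fun k => [0, 1, 3, 8].getD k 0) (by decide +kernel)
    (by rw [Nat.card_eq_fintype_card]; decide +kernel)

theorem nse_five : (fun m : ℕ => Nat.card {g : alternatingGroup (Fin 5) // orderOf g = m}) ''
    Set.range (orderOf : alternatingGroup (Fin 5) → ℕ) = {v | v ∈ [1, 15, 20, 24]} :=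
  nse_eq (L := [1, 2, 3, 5]) (by decide) (by decide) (fun k => [0, 1, 15, 20, 0, 24].getD k 0) (by decide +kernel)
    (by rw [Nat.card_eq_fintype_card]; decide +kernel)

theorem nse_six : (fun m : ℕ => Nat.card {g : alternatingGroup (Fin 6) // orderOf g = m}) ''
    Set.range (orderOf : alternatingGroup (Fin 6) → ℕ) = {v | v ∈ [1, 45, 80, 90, 144]} :=
  nse_eq (L := [1, 2, 3, 4, 5]) (by decide) (by decide) (fun k => [0, 1, 45, 80, 90, 144].getD k 0)
    (by decide +kernel) (by rw [Nat.card_eq_fintype_card]; decide +kernel)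

end CL.Nse
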