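/-
A certificate for "the listed 2×2 matrices generate a group acting regularly on the non-zero vectors".
-/
import Cfsg.Agent.Base

set_option autoImplicit false

namespace CL.Perm

open Matrix

/-- One generator commutes with the table `(T1, T2)`. -/
def RegCommutes {F : Type*} [Field F] (T1 T2 : F → F → F) (x y z w : F) : Prop :=
  ∀ a c : F, ¬ (a = 0 ∧ c = 0) →
    x * T1 a c + y * T2 a c = T1 (x * a + y * c) (z * a + w * c) ∧
    z * T1 a c + w * T2 a c = T2 (x * a + y * c) (z * a + w * c)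

theorem regular_of_certificate {F : Type*} [Field F] [Finite F]
    (S : Set (GeneralLinearGroup (Fin 2) F)) (T1 T2 : F → F → F) (D : F → F → ℕ)
    (h1 : T1 1 0 = 0) (h2 : T2 1 0 = 1)
    (hcomm : ∀ g ∈ S, RegCommutes T1 T2 (g.1 0 0) (g.1 0 1) (g.1 1 0) (g.1 1 1))
    (hD : ∀ a c : F, ¬ (a = 0 ∧ c = 0) → (a = 1 ∧ c = 0) ∨
      ∃ g ∈ S, D (g.1 0 0 * a + g.1 0 1 * c) (g.1 1 0 * a + g.1 1 1 * c) < D a c) :
    Nat.card (Subgroup.closure S) = Nat.card F ^ 2 - 1 ∧
    ∀ v w : Fin 2 → F, v ≠ 0 → w ≠ 0 → ∃! h : Subgroup.closure S,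
      Matrix.mulVec ((h : GeneralLinearGroup (Fin 2) F) : Matrix (Fin 2) (Fin 2) F) v = w := by
  classical
  let T : (Fin 2 → F) → (Fin 2 → F) := fun v => ![T1 (v 0) (v 1), T2 (v 0) (v 1)]
  have hne : ∀ (g : GeneralLinearGroup (Fin 2) F) (v : Fin 2 → F), v ≠ 0 → g.1 *ᵥ v ≠ 0 := by
    intro g v hv h0
    apply hv
    have : (g⁻¹).1 *ᵥ (g.1 *ᵥ v) = v := by
      rw [mulVec_mulVec, Units.inv_mul, one_mulVec]
    rw [← this, h0, mulVec_zero]
  have hv0 : ∀ v : Fin 2 → F, v ≠ 0 ↔ ¬ (v 0 = 0 ∧ v 1 = 0) := by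
    intro v
    constructor
    · rintro hv ⟨h0, h1⟩
      apply hv
      ext i
      fin_cases i
      · exact h0
      · exact h1
    · rintro h rfl
      exact h ⟨rfl, rfl⟩
  have hmv : ∀ (g : Matrix (Fin 2) (Fin 2) F) (v : Fin 2 → F) (i : Fin 2),
      (g *ᵥ v) i = g i 0 * v 0 + g i 1 * v 1 := by
    intro g v i
    simp [mulVec, dotProduct, Fin.sum_univ_two]
  let K : Subgroup (GeneralLinearGroup (Fin 2) F) :=
    { carrier := {g | ∀ v, v ≠ 0 → g.1 *ᵥ T v = T (g.1 *ᵥ v)}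
      one_mem' := by intro v _; simp
      mul_mem' := by
        intro a b ha hb v hv
        rw [Units.val_mul, ← mulVec_mulVec, ← mulVec_mulVec, hb v hv, ha _ (hne b v hv)]
      inv_mem' := by
        intro a ha v hv
        have := ha _ (hne a⁻¹ v hv)
        rw [mulVec_mulVec, Units.mul_inv, one_mulVec] at this
        rw [← this, mulVec_mulVec, Units.inv_mul, one_mulVec] }
  have hK : Subgroup.closure S ≤ K := by
    rw [Subgroup.closure_le]
    intro g hg v hv
    have := hcomm g hg (v 0) (v 1) ((hv0 v).mp hv)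
    ext i
    fin_cases i
    · simp only [T, hmv]
      simpa using this.1
    · simp only [T, hmv]
      simpa using this.2
  let e : Fin 2 → F := ![1, 0]
  have he : e ≠ 0 := by rw [hv0]; simp [e]
  have hstab : ∀ g ∈ Subgroup.closure S, g.1 *ᵥ e = e → g = 1 := by
    intro g hg hge
    have h3 := hK hg e he
    rw [hge] at h3
    have hTe : T e = ![0, 1] := by simp [T, e, h1, h2]
    rw [hTe] at h3
    have a0 := congrFun hge 0
    have a1 := congrFun hge 1
    have b0 := congrFun h3 0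
    have b1 := congrFun h3 1
    simp only [hmv, e] at a0 a1 b0 b1
    ext i j
    fin_cases i <;> fin_cases j <;> simp_all
  have htrans : ∀ (n : ℕ) (v : Fin 2 → F), v ≠ 0 → D (v 0) (v 1) = n →
      ∃ g ∈ Subgroup.closure S, g.1 *ᵥ v = e := by
    intro n
    induction n using Nat.strong_induction_on with
    | _ n ih =>
      intro v hv hn
      rcases hD (v 0) (v 1) ((hv0 v).mp hv) with ⟨a, b⟩ | ⟨g, hg, hlt⟩
      · refine ⟨1, one_mem _, ?_⟩
        ext i
        fin_cases i <;> simp [e, a, b]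
      · obtain ⟨g', hg', hgv⟩ := ih _ (hn ▸ hlt) (g.1 *ᵥ v) (hne g v hv) (by rw [hmv, hmv])
        refine ⟨g' * g, mul_mem hg' (Subgroup.subset_closure hg), ?_⟩
        rw [Units.val_mul, ← mulVec_mulVec, hgv]
  have hreg : ∀ v w : Fin 2 → F, v ≠ 0 → w ≠ 0 → ∃! h : Subgroup.closure S,
      Matrix.mulVec ((h : GeneralLinearGroup (Fin 2) F) : Matrix (Fin 2) (Fin 2) F) v = w := by
    intro v w hv hw
    obtain ⟨g, hg, hgv⟩ := htrans _ v hv rfl
    obtain ⟨g', hg', hgw⟩ := htrans _ w hw rfl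
    refine ⟨⟨g'⁻¹ * g, mul_mem (inv_mem hg') hg⟩, ?_, ?_⟩
    · change (g'⁻¹ * g).1 *ᵥ v = w
      rw [Units.val_mul, ← mulVec_mulVec, hgv, ← hgw, mulVec_mulVec, Units.inv_mul, one_mulVec]
    · rintro ⟨k, hk⟩ hkv
      change k.1 *ᵥ v = w at hkv
      have := hstab (g' * k * g⁻¹) (mul_mem (mul_mem hg' hk) (inv_mem hg)) (by
        rw [Units.val_mul, Units.val_mul, ← mulVec_mulVec, ← mulVec_mulVec, ← hgv, mulVec_mulVec v,
          Units.inv_mul, one_mulVec, hkv, hgw, hgv])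
      apply Subtype.ext
      change k = g'⁻¹ * g
      rw [mul_inv_eq_one] at this
      rw [← this, inv_mul_cancel_left]
  refine ⟨?_, hreg⟩
  have eq : Subgroup.closure S ≃ {w : Fin 2 → F // w ≠ 0} := by
    refine Equiv.ofBijective (fun h => ⟨h.1.1 *ᵥ e, hne _ _ he⟩) ⟨?_, ?_⟩
    · intro a b hab
      have hab' : a.1.1 *ᵥ e = b.1.1 *ᵥ e := congrArg Subtype.val hab
      exact (hreg e _ he (hne b.1 e he)).unique hab' rfl
    · rintro ⟨w, hw⟩
      obtain ⟨h, hh, -⟩ := hreg e w he hw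
      exact ⟨h, Subtype.ext hh⟩
  rw [Nat.card_congr eq]
  have := Fintype.ofFinite F
  rw [Nat.card_eq_fintype_card, Nat.card_eq_fintype_card, Fintype.card_subtype_compl,
    Fintype.card_subtype_eq, Fintype.card_fun, Fintype.card_fin]

end CL.Perm
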