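/-
For `n ≥ 11` there are two primes in the interval `(n / 2, n]` (Erdős' proof of Bertrand's postulate
with one more factor).
-/
import Cfsg.Agent.Base

namespace CL.Perm

open Nat

private theorem small_part_le (n : ℕ) (n_pos : 0 < n) :
    ∏ p ∈ Finset.range (2 * n / 3 + 1), p ^ (centralBinom n).factorization p ≤
      (2 * n) ^ sqrt (2 * n) * 4 ^ (2 * n / 3) := by
  have n2_pos : 1 ≤ 2 * n := mul_pos (zero_lt_two' ℕ) n_pos
  let S := {p ∈ Finset.range (2 * n / 3 + 1) | Nat.Prime p}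
  let f x := x ^ n.centralBinom.factorization x
  have : ∏ x ∈ S, f x = ∏ x ∈ Finset.range (2 * n / 3 + 1), f x := by
    refine Finset.prod_filter_of_ne fun p _ h => ?_
    contrapose h; dsimp only [f]
    rw [factorization_eq_zero_of_not_prime n.centralBinom h, _root_.pow_zero]
  rw [← this, ← Finset.prod_filter_mul_prod_filter_not S (· ≤ sqrt (2 * n))]
  apply mul_le_mul'
  · refine (Finset.prod_le_prod' fun p _ => (?_ : f p ≤ 2 * n)).trans ?_
    · exact pow_factorization_choose_le (mul_pos two_pos n_pos)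
    have : (Finset.Icc 1 (sqrt (2 * n))).card = sqrt (2 * n) := by rw [card_Icc, Nat.add_sub_cancel]
    rw [Finset.prod_const]
    refine pow_right_mono₀ n2_pos ((Finset.card_le_card fun x hx => ?_).trans this.le)
    obtain ⟨h1, h2⟩ := Finset.mem_filter.1 hx
    exact Finset.mem_Icc.mpr ⟨(Finset.mem_filter.1 h1).2.one_lt.le, h2⟩
  · refine le_trans ?_ (primorial_le_four_pow (2 * n / 3))
    refine (Finset.prod_le_prod' fun p hp => (?_ : f p ≤ p)).trans ?_
    · obtain ⟨h1, h2⟩ := Finset.mem_filter.1 hp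
      refine (pow_right_mono₀ (Finset.mem_filter.1 h1).2.one_lt.le ?_).trans (pow_one p).le
      exact Nat.factorization_choose_le_one (sqrt_lt'.mp <| not_le.1 h2)
    refine Finset.prod_le_prod_of_subset_of_one_le' (Finset.filter_subset _ _) ?_
    exact fun p hp _ => (Finset.mem_filter.1 hp).2.one_lt.le

private theorem centralBinom_le (n : ℕ) (n_large : 2 < n) (r : ℕ)
    (h : ∀ p : ℕ, p.Prime → n < p → p ≤ 2 * n → p = r) :
    centralBinom n ≤ (2 * n) ^ sqrt (2 * n) * 4 ^ (2 * n / 3) * (2 * n) := by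
  have hsub : Finset.range (2 * n / 3 + 1) ⊆ Finset.range (2 * n + 1) :=
    Finset.range_mono (by omega)
  rw [← n.prod_pow_factorization_centralBinom, ← Finset.prod_sdiff hsub, mul_comm]
  refine Nat.mul_le_mul (small_part_le n (by omega)) ?_
  have h1 : ∀ x ∈ Finset.range (2 * n + 1) \ Finset.range (2 * n / 3 + 1), x ≠ r →
      x ^ (centralBinom n).factorization x = 1 := by
    intro x hx hr
    rw [Finset.mem_sdiff, Finset.mem_range, Finset.mem_range] at hx
    by_cases hp : x.Prime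
    · have h2 : x ≤ n := by
        by_contra h2
        exact hr (h x hp (by omega) (by omega))
      rw [factorization_centralBinom_of_two_mul_self_lt_three_mul n_large h2 (by omega), Nat.pow_zero]
    · rw [factorization_eq_zero_of_not_prime n.centralBinom hp, Nat.pow_zero]
  by_cases hr : r ∈ Finset.range (2 * n + 1) \ Finset.range (2 * n / 3 + 1)
  · rw [Finset.prod_eq_single_of_mem r hr h1]
    exact pow_factorization_choose_le (by omega)
  · rw [Finset.prod_eq_one fun x hx => h1 x hx (by rintro rfl; exact hr hx)]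
    omega

private theorem pow_seven_le (s : ℕ) (hs : 37 ≤ s) : (s + 1) ^ 7 ≤ 2 ^ s := by
  induction s, hs using Nat.le_induction with
  | base => norm_num
  | succ s hs ih =>
    have h1 : (10 * (s + 1 + 1)) ^ 7 ≤ (11 * (s + 1)) ^ 7 := Nat.pow_le_pow_left (by omega) 7
    rw [mul_pow, mul_pow] at h1
    rw [pow_succ 2]
    omega

private theorem main_ineq (n : ℕ) (hn : 685 ≤ n) :
    n * ((2 * n) ^ sqrt (2 * n) * 4 ^ (2 * n / 3) * (2 * n)) ≤ 4 ^ n := by
  set s := sqrt (2 * n) with hs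
  have h1 : 37 ≤ s := Nat.le_sqrt.2 (by omega)
  have h2 : 2 * n < (s + 1) ^ 2 := Nat.lt_succ_sqrt' _
  have h3 : s ^ 2 ≤ 2 * n := Nat.sqrt_le' _
  have h4 : ((2 * n) ^ (s + 2)) ^ 3 ≤ (4 ^ (n - 2 * n / 3)) ^ 3 := by
    calc ((2 * n) ^ (s + 2)) ^ 3 ≤ (((s + 1) ^ 2) ^ (s + 2)) ^ 3 := by gcongr
      _ = (s + 1) ^ (6 * s + 12) := by rw [← pow_mul, ← pow_mul]; congr 1; ring
      _ ≤ (s + 1) ^ (7 * s) := Nat.pow_le_pow_right (by omega) (by omega)
      _ ≤ (2 ^ s) ^ s := by rw [pow_mul]; exact Nat.pow_le_pow_left (pow_seven_le s h1) s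
      _ ≤ 2 ^ (2 * ((n - 2 * n / 3) * 3)) := by
        rw [← pow_mul]; exact Nat.pow_le_pow_right (by omega) (by rw [← sq]; omega)
      _ = _ := by rw [pow_mul, pow_mul]; norm_num
  have h5 := (Nat.pow_le_pow_iff_left (by norm_num)).1 h4
  calc n * ((2 * n) ^ s * 4 ^ (2 * n / 3) * (2 * n))
      ≤ (2 * n) * ((2 * n) ^ s * 4 ^ (2 * n / 3) * (2 * n)) := Nat.mul_le_mul_right _ (by omega)
    _ = (2 * n) ^ (s + 2) * 4 ^ (2 * n / 3) := by ring
    _ ≤ 4 ^ (n - 2 * n / 3) * 4 ^ (2 * n / 3) := Nat.mul_le_mul_right _ h5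
    _ = 4 ^ n := by rw [← pow_add]; congr 1; omega

/-- Two primes in `(n / 2, n]` for `n ≥ 11`. -/
theorem exists_two_primes (n : ℕ) (hn : 11 ≤ n) :
    ∃ p q : ℕ, p.Prime ∧ q.Prime ∧ p < q ∧ n < 2 * p ∧ q ≤ n := by
  by_cases h : n < 1370
  · have h1 : ∀ n ∈ List.range 1370, 11 ≤ n →
        ∃ p ∈ [7, 11, 13, 17, 23, 31, 43, 61, 83, 113, 163, 223, 317, 443, 631, 883, 1259],
        n < 2 * p ∧ ∃ q ∈ [7, 11, 13, 17, 23, 31, 43, 61, 83, 113, 163, 223, 317, 443, 631, 883, 1259],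
        p < q ∧ q ≤ n := by decide +kernel
    have h2 : ∀ p ∈ [7, 11, 13, 17, 23, 31, 43, 61, 83, 113, 163, 223, 317, 443, 631, 883, 1259],
        Nat.Prime p := by
      simp only [List.forall_mem_cons]
      norm_num
    obtain ⟨p, hp, h3, q, hq, h4, h5⟩ := h1 n (List.mem_range.2 h) hn
    exact ⟨p, q, h2 p hp, h2 q hq, h4, h3, h5⟩
  · by_contra hc
    obtain ⟨r, hr, h1, h2⟩ := Nat.exists_prime_lt_and_le_two_mul (n / 2) (by omega)
    have h3 := centralBinom_le (n / 2) (by omega) r fun p hp h4 h5 => by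
      by_contra h6
      rcases lt_or_gt_of_ne h6 with h7 | h7
      · exact hc ⟨p, r, hp, hr, h7, by omega, by omega⟩
      · exact hc ⟨r, p, hr, hp, h7, by omega, by omega⟩
    have h4 := Nat.four_pow_lt_mul_centralBinom (n / 2) (by omega)
    have h5 := main_ineq (n / 2) (by omega)
    exact absurd (h4.trans_le ((Nat.mul_le_mul_left _ h3).trans h5)) (lt_irrefl _)

end CL.Perm
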